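import Cfsg.Agent.Lib.NormalComplements.Gaschutz
import Cfsg.Prelude.Def_Transfer

/-!
A normalizer splits over an elementary abelian 2-group as soon as a Sylow 2-subgroup does.
-/

set_option autoImplicit false

open Cfsg
open scoped Pointwise

namespace CfsgLib.JFour

variable {G : Type*} [Group G] [Finite G]

/-- If a 2-subgroup `K` of `N(V)` of the right order meets `V` trivially, then `N(V)` splits over
`V`, and every complement is isomorphic to `N(V)/V`. -/
theorem exists_complement_of_twoGroup {V K : Subgroup G} {a b m : ℕ}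
    (hV : Cfsg.IsElementaryAbelian 2 V) (hcV : Nat.card ↥V = 2 ^ a)
    (hcN : Nat.card ↥(Subgroup.normalizer (V : Set G)) = 2 ^ a * (2 ^ b * m)) (hm : ¬ 2 ∣ m)
    (hKN : K ≤ Subgroup.normalizer (V : Set G)) (hcK : Nat.card ↥K = 2 ^ b) (hKV : K ⊓ V = ⊥) :
    ∃ C : Subgroup G, C ≤ Subgroup.normalizer (V : Set G) ∧ C ⊓ V = ⊥ ∧
      C ⊔ V = Subgroup.normalizer (V : Set G) ∧
      Nonempty (↥C ≃* ↥(Subgroup.normalizer (V : Set G)) ⧸
        V.subgroupOf (Subgroup.normalizer (V : Set G))) := by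
  classical
  set X := Subgroup.normalizer (V : Set G) with hX
  have hVX : V ≤ X := Subgroup.le_normalizer
  set A : Subgroup ↥X := V.subgroupOf X with hA
  haveI : A.Normal := Subgroup.normal_subgroupOf_iff_le_normalizer hVX |>.mpr le_rfl
  have hAcard : Nat.card ↥A = 2 ^ a := by
    rw [hA, Nat.card_congr (Subgroup.subgroupOfEquivOfLe hVX).toEquiv, hcV]
  have hAcomm : IsMulCommutative ↥A := ⟨⟨fun x y => Subtype.ext (Subtype.ext (by
    have h := hV.1.is_comm.comm ⟨((x : ↥X) : G), x.2⟩ ⟨((y : ↥X) : G), y.2⟩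
    exact congrArg (fun w : ↥V => (w : G)) h))⟩⟩
  have hAi : A.index = 2 ^ b * m := by
    have h := A.card_mul_index
    rw [hAcard, hcN] at h
    exact Nat.eq_of_mul_eq_mul_left (by positivity) h
  set K' : Subgroup ↥X := K.subgroupOf X with hK'
  have hK'card : Nat.card ↥K' = 2 ^ b := by
    rw [hK', Nat.card_congr (Subgroup.subgroupOfEquivOfLe hKN).toEquiv, hcK]
  have hK'A : K' ⊓ A = ⊥ := by
    rw [eq_bot_iff]
    rintro x ⟨hxK, hxA⟩
    exact Subtype.ext (Subgroup.mem_bot.mp (hKV ▸ Subgroup.mem_inf.mpr ⟨hxK, hxA⟩))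
  have hsupcard : Nat.card ↥(K' ⊔ A) = 2 ^ b * 2 ^ a := by
    rw [← SetLike.coe_sort_coe, Subgroup.mul_normal K' A, ← hK'card, ← hAcard]
    refine Nat.card_congr (Equiv.ofBijective
      (fun p : ↥K' × ↥A => (⟨(p.1 : ↥X) * p.2, Set.mul_mem_mul p.1.2 p.2.2⟩ :
        ↥((K' : Set ↥X) * (A : Set ↥X)))) ⟨?_, ?_⟩).symm |>.trans (Nat.card_prod _ _)
    · rintro ⟨k, x⟩ ⟨k', x'⟩ e
      have e' : (k : ↥X) * x = k' * x' := congrArg Subtype.val e
      have h1 : (k' : ↥X)⁻¹ * k = x' * (x : ↥X)⁻¹ := by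
        rw [eq_mul_inv_iff_mul_eq, mul_assoc, e', inv_mul_cancel_left]
      have h2 : (k' : ↥X)⁻¹ * k ∈ K' ⊓ A :=
        ⟨K'.mul_mem (K'.inv_mem k'.2) k.2, h1 ▸ A.mul_mem x'.2 (A.inv_mem x.2)⟩
      rw [hK'A, Subgroup.mem_bot, inv_mul_eq_one] at h2
      have hk : k' = k := Subtype.ext h2
      subst hk
      exact Prod.ext rfl (Subtype.ext (mul_left_cancel e'))
    · rintro ⟨_, k, hk, x, hx, rfl⟩
      exact ⟨(⟨k, hk⟩, ⟨x, hx⟩), rfl⟩
  obtain ⟨C, hC⟩ := NormalComplements.exists_isComplement'_of_sylow_local A hAcomm (by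
    intro p hp hpd
    haveI := Fact.mk hp
    by_cases hp2 : p = 2
    · subst hp2
      refine ⟨K' ⊔ A, K', le_sup_right, ?_, le_sup_left, hK'A, le_rfl⟩
      have h := (K' ⊔ A).card_mul_index
      rw [hsupcard, show Nat.card ↥X = 2 ^ a * (2 ^ b * m) from hcN] at h
      rw [show (K' ⊔ A).index = m from Nat.eq_of_mul_eq_mul_left (by positivity)
        (h.trans (by ring : 2 ^ a * (2 ^ b * m) = 2 ^ b * 2 ^ a * m))]
      exact hm
    · set S : Sylow p ↥X := default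
      refine ⟨(S : Subgroup ↥X) ⊔ A, S, le_sup_right, ?_, le_sup_left, ?_, le_rfl⟩
      · exact fun h => S.not_dvd_index (h.trans (Subgroup.index_dvd_of_le le_sup_left))
      · rw [eq_bot_iff]
        intro x hx
        obtain ⟨hxS, hxA⟩ := Subgroup.mem_inf.mp hx
        obtain ⟨k, hk⟩ := IsPGroup.iff_card.mp S.isPGroup'
        have h1 : orderOf x ∣ p ^ k := hk ▸ Subgroup.orderOf_dvd_natCard _ hxS
        have h2 : orderOf x ∣ 2 ^ a := hAcard ▸ Subgroup.orderOf_dvd_natCard _ hxA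
        have hco : Nat.Coprime (p ^ k) (2 ^ a) :=
          (((Nat.coprime_primes hp Nat.prime_two).mpr hp2).pow_left k).pow_right a
        rw [Subgroup.mem_bot, ← orderOf_eq_one_iff]
        exact Nat.dvd_one.mp (hco ▸ Nat.dvd_gcd h1 h2))
  refine ⟨C.map X.subtype, Subgroup.map_subtype_le C, ?_, ?_, ?_⟩
  · rw [eq_bot_iff]
    intro g hg
    obtain ⟨⟨c, hc, rfl⟩, hgV⟩ := Subgroup.mem_inf.mp hg
    have h1 : c ∈ C ⊓ A := ⟨hc, hgV⟩
    rw [disjoint_iff.mp hC.disjoint, Subgroup.mem_bot] at h1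
    rw [Subgroup.mem_bot, h1]; rfl
  · conv_lhs => rw [← Subgroup.map_subgroupOf_eq_of_le hVX]
    rw [← Subgroup.map_sup, hC.sup_eq_top, ← MonoidHom.range_eq_map, Subgroup.range_subtype]
  · exact ⟨(C.equivMapOfInjective _ X.subtype_injective).symm.trans hC.QuotientMulEquiv.symm⟩

end CfsgLib.JFour
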