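import Cfsg.Agent.Lib.JFour.DuadTables

/-!
Checks of the tables for the stabiliser of a pair of points of the hexad.
-/

set_option autoImplicit false
set_option maxRecDepth 100000
set_option Elab.async false

namespace CfsgLib.JFour.DuadTables

open CfsgLib.Golay CfsgLib.JFour.HexadTables

/-- A table in the inner part. -/
def inDi (t : ℕ) : Bool :=
  inM24 t && imgMask t 1 == 1 && imgMask t (2 ^ 23) == 2 ^ 23 && imgMask t duadMask == duadMask

/-- The induced permutation of the tetrads. -/
def actsTet (t : ℕ) (p : List ℕ) : Bool :=
  (List.range 5).all fun i => imgMask t (tetrads.getD i 0) == tetrads.getD (p.getD i 0) 0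

theorem tetrads_invariant :
    (chainI.all fun l => l.2.2.all fun t => tetrads.all fun m => tetrads.contains (imgMask t m)) = true := by
  decide +kernel

theorem tetGens_ok : inDi swapT = true ∧ actsTet swapT [1, 0, 2, 3, 4] = true ∧
    inDi cycT = true ∧ actsTet cycT [1, 2, 3, 4, 0] = true := by decide +kernel

theorem kList_ok : kList.length = 16 ∧ (kList.map tblKey).Nodup ∧ isIdTbl (kList.getD 0 0) = true ∧
    (kList.all fun t => inDi t && tetrads.all fun m => imgMask t m == m) = true ∧
    (kList.all fun t => (List.range 24).all fun i => tblAt t (tblAt t i) == i) = true := by decide +kernel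

theorem conjK_ok : ((List.range 15).all fun k =>
    inDi (conjK.getD k 0) && conjTbl (conjK.getD k 0) (kList.getD 1 0) (kList.getD (k + 1) 0)) = true := by
  decide +kernel

end CfsgLib.JFour.DuadTables
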