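import Cfsg.Agent.Lib.JFour.DuadPoints

/-!
# Groups of Janko-four type: the four vertices of a special point

`sig p x = x · pxp⁻¹ · p²xp⁻²` takes the values `1` (a triangle) and `z` (a star) on the two
`P`-orbits of a special point. The star, with `1`, is a set of four representatives of the point
modulo `⟨z⟩`; on a line their products are exactly the commutators.
-/

set_option autoImplicit false
set_option linter.unusedSectionVars false
set_option linter.style.haveILetI false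

open Cfsg

namespace CfsgLib.JFour

variable {G : Type*} [Group G]

/-- The product of an element with its two conjugates under `p`. -/
def sig (p x : G) : G := x * (p * x * p⁻¹) * (p * p * x * (p * p)⁻¹)

/-- The representatives `1` and the star of a point. -/
def Quad (p z : G) (S : Subgroup G) : Set G :=
  {s | s ∈ S ∧ (s = 1 ∨ (s ∉ Subgroup.zpowers z ∧ sig p s = z))}

namespace HexTransitive

open HexFrame

variable [Finite G] {E R P W M0 : Subgroup G} {z : G} (h : HexTransitive E R P W M0 z)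
include h

theorem U_four {a b c d : G} (hb : b ∈ U E W) (hc : c ∈ U E W) :
    a * b * (c * d) = a * c * (b * d) := by
  rw [mul_assoc a, ← mul_assoc b, h.U_comm_U hb hc, mul_assoc c, mul_assoc a]

theorem conjP_U {p x : G} (hp : p ∈ P) (hx : x ∈ U E W) : p * x * p⁻¹ ∈ U E W :=
  h.U_norm (h.P_le hp) hx

theorem sig_mem {p x : G} (hp : p ∈ P) (hp1 : p ≠ 1) (hx : x ∈ U E W) :
    sig p x = 1 ∨ sig p x = z := h.mem_Z.mp (h.sigma_conj hp hp1 hx)

theorem sig_one (p : G) : sig p (1 : G) = 1 := by simp [sig]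

theorem sig_z {p : G} (hp : p ∈ P) : sig p z = z := by
  simp only [sig]
  rw [h.z_conj_M0 (h.P_le_M0 hp), h.z_conj_M0 (h.P_le_M0 (mul_mem hp hp)), h.z_sq, one_mul]

theorem sig_mul {p x y : G} (hp : p ∈ P) (hx : x ∈ U E W) (hy : y ∈ U E W) :
    sig p (x * y) = sig p x * sig p y := by
  have hx1 := h.conjP_U hp hx
  have hx2 := h.conjP_U (mul_mem hp hp) hx
  have hy1 := h.conjP_U hp hy
  simp only [sig]
  rw [show p * (x * y) * p⁻¹ = (p * x * p⁻¹) * (p * y * p⁻¹) by group,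
    show p * p * (x * y) * (p * p)⁻¹ = (p * p * x * (p * p)⁻¹) * (p * p * y * (p * p)⁻¹) by group,
    h.U_four hy hx1, h.U_four (mul_mem hy hy1) hx2]

theorem sig_conj {p m : G} (hm : m * p = p * m) (x : G) :
    sig p (m * x * m⁻¹) = m * sig p x * m⁻¹ := by
  have hm2 : m * (p * p) = p * p * m := by rw [← mul_assoc, hm, mul_assoc, hm, ← mul_assoc]
  simp only [sig]
  rw [show p * (m * x * m⁻¹) * p⁻¹ = (p * m) * x * (p * m)⁻¹ by group, ← hm,
    show p * p * (m * x * m⁻¹) * (p * p)⁻¹ = (p * p * m) * x * (p * p * m)⁻¹ by group, ← hm2]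
  group

theorem sig_conj_M0 {p m x : G} (hp : p ∈ P) (hp1 : p ≠ 1) (hm : m ∈ M0) (hx : x ∈ U E W) :
    sig p (m * x * m⁻¹) = sig p x := by
  rw [h.sig_conj (h.M0_P m hm p hp)]
  rcases h.sig_mem hp hp1 hx with e | e <;> rw [e]
  · simp
  · exact h.z_conj_M0 hm

/-- The commutator with a product, in signs. -/
theorem cmm_mul_sgn {a f g : G} (ha : a ∈ W) (hf : f ∈ E) (hg : g ∈ E) :
    cmm a (f * g) = cmm a f * cmm a g * cmm f (cmm a g) := by
  have hgE := U_le (h.cmm_mem_U ha hg)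
  rw [h.cmm_mul ha, show f * cmm a g * f⁻¹ = cmm f (cmm a g) * cmm a g by simp only [cmm]; group,
    ← h.sgn_comm hf hgE hgE, mul_assoc]

theorem mul_mem_Z_cases {x : G} (hx : x ∈ Subgroup.zpowers z) : x * x = 1 := by
  rcases h.mem_Z.mp hx with rfl | rfl
  · exact one_mul _
  · exact h.z_sq

theorem pow_two_ne_one {p : G} (hp : p ∈ P) (hp1 : p ≠ 1) : p * p ≠ 1 := by
  intro hh
  have hp3 : p ^ 3 = 1 := orderOf_dvd_iff_pow_eq_one.mp (h.card_P ▸ Subgroup.orderOf_dvd_natCard _ hp)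
  rw [pow_succ, pow_two, hh, one_mul] at hp3
  exact hp1 hp3

variable (hE : IsExtraspecial 2 ↥E) {five : Set (Subgroup G)} (hF : FiveData E P W M0 z five)

include hE hF in
/-- On a special point the commutators are stars. -/
theorem sig_spec {S : Subgroup G} (hS : S ∈ five) {a f p : G} (ha : a ∈ W)
    (haz : a ∉ Subgroup.zpowers z) (hSa : S ≤ Line E z a) (hf : f ∈ E) (hfS : cmm a f ∈ S)
    (hfz : cmm a f ∉ Subgroup.zpowers z) (hp : p ∈ P) (hp1 : p ≠ 1) :
    sig p (cmm a f) = z := by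
  have hp2 := h.pow_two_ne_one hp hp1
  have hP2 := mul_mem hp hp
  set f1 := p * f * p⁻¹ with hf1
  set f2 := p * p * f * (p * p)⁻¹ with hf2
  have hfU := h.cmm_mem_U ha hf
  have hf1E : f1 ∈ E := h.M0_E p (h.P_le_M0 hp) f hf
  have hf2E : f2 ∈ E := h.M0_E _ (h.P_le_M0 hP2) f hf
  have e1 : cmm a f1 = p * cmm a f * p⁻¹ := h.conj_cmm hp ha
  have e2 : cmm a f2 = p * p * cmm a f * (p * p)⁻¹ := h.conj_cmm hP2 ha
  have a1 : cmm f (cmm a f1) = z := by
    rw [e1]
    exact (h.sgn_cases hf (U_le (h.conjP_U hp hfU))).resolve_left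
      (h.anisotropic hE hF hS ha haz hSa hf hfS hfz hp hp1)
  have a2 : cmm f (cmm a f2) = z := by
    rw [e2]
    exact (h.sgn_cases hf (U_le (h.conjP_U hP2 hfU))).resolve_left
      (h.anisotropic hE hF hS ha haz hSa hf hfS hfz hP2 hp2)
  have a3 : cmm f1 (cmm a f2) = z := by
    rw [e2, show p * p * cmm a f * (p * p)⁻¹ = p * (p * cmm a f * p⁻¹) * p⁻¹ by group, hf1,
      h.sgn_conj (h.M0_z p (h.P_le_M0 hp)) hf (U_le (h.conjP_U hp hfU)), ← e1]
    exact a1
  have hprod : cmm a (f * f1 * f2) = sig p (cmm a f) * z := by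
    have hU2 := h.cmm_mem_U ha hf2E
    rw [h.cmm_mul_sgn ha (mul_mem hf hf1E) hf2E, h.cmm_mul_sgn ha hf hf1E, a1,
      h.sgn_mul_left hf hf1E (U_le hU2), a2, a3, h.z_sq, mul_one, mul_assoc, ← h.z_comm_of_U hU2,
      ← mul_assoc]
    show _ = sig p (cmm a f) * z
    simp only [sig]
    rw [e1, e2]
  have hmem : cmm a (f * f1 * f2) ∈ Subgroup.zpowers z := by
    rw [hprod]
    exact mul_mem (h.sigma_conj hp hp1 hfU) (Subgroup.mem_zpowers z)
  have hcomm := h.mem_Z_of_cmm ha (mul_mem (mul_mem hf hf1E) hf2E) hmem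
  rw [h.cmm_eq_one_iff.mpr hcomm] at hprod
  rw [eq_inv_of_mul_eq_one_left hprod.symm, inv_eq_of_mul_eq_one_right h.z_sq]

include hF in
/-- A special point on a line through two others is one of them. -/
theorem line_two {S T Q : Subgroup G} (hS : S ∈ five) (hT : T ∈ five) (hQ : Q ∈ five) (hST : S ≠ T)
    {a : G} (ha : a ∈ W) (haz : a ∉ Subgroup.zpowers z) (hSa : S ≤ Line E z a) (hTa : T ≤ Line E z a)
    (hQa : Q ≤ Line E z a) : Q = S ∨ Q = T := by
  obtain ⟨u, v, huv, huniv⟩ := Nat.card_eq_two_iff.mp (hF.two_points a ha haz)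
  have hall : ∀ w : {S : Subgroup G // S ∈ five ∧ S ≤ Line E z a}, w = u ∨ w = v := fun w => by
    have : w ∈ ({u, v} : Set _) := huniv ▸ Set.mem_univ w
    simpa using this
  rcases hall ⟨Q, hQ, hQa⟩ with e1 | e1 <;> rcases hall ⟨S, hS, hSa⟩ with e2 | e2 <;>
    rcases hall ⟨T, hT, hTa⟩ with e3 | e3 <;>
    first
      | exact absurd (congrArg Subtype.val (e2.trans e3.symm)) hST
      | exact Or.inl (congrArg Subtype.val (e1.trans e2.symm))
      | exact Or.inr (congrArg Subtype.val (e1.trans e3.symm))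

include hF in
theorem five_le_U {S : Subgroup G} (hS : S ∈ five) : S ≤ U E W := (hF.isPt S hS).1.le_U

include hF in
theorem five_inf {S T : Subgroup G} (hS : S ∈ five) (hT : T ∈ five) (hST : S ≠ T) {x : G}
    (hxS : x ∈ S) (hxT : x ∈ T) : x ∈ Subgroup.zpowers z := by
  by_contra hxz
  exact hST (h.pt_unique (hF.isPt S hS).1 (hF.isPt T hT).1 (hF.isPt S hS).2 (hF.isPt T hT).2 hxS hxT hxz)

include hF in
/-- Two special points are independent modulo `⟨z⟩`. -/
theorem indep_two {S T : Subgroup G} (hS : S ∈ five) (hT : T ∈ five) (hST : S ≠ T) {s t : G}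
    (hs : s ∈ S) (ht : t ∈ T) (hst : s * t ∈ Subgroup.zpowers z) :
    s ∈ Subgroup.zpowers z ∧ t ∈ Subgroup.zpowers z := by
  have hzT : Subgroup.zpowers z ≤ T := Subgroup.zpowers_le.mpr (hF.isPt T hT).1.z_mem
  have hs' : s ∈ Subgroup.zpowers z :=
    h.five_inf hF hS hT hST hs (by simpa using mul_mem (hzT hst) (inv_mem ht))
  exact ⟨hs', by simpa using mul_mem (inv_mem hs') hst⟩

include hF in
/-- Three special points are independent modulo `⟨z⟩`. -/
theorem indep_three {S T Q : Subgroup G} (hS : S ∈ five) (hT : T ∈ five) (hQ : Q ∈ five) (hST : S ≠ T)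
    (hSQ : S ≠ Q) (hTQ : T ≠ Q) {s t r : G} (hs : s ∈ S) (ht : t ∈ T) (hr : r ∈ Q)
    (hm : s * t * r ∈ Subgroup.zpowers z) :
    s ∈ Subgroup.zpowers z ∧ t ∈ Subgroup.zpowers z ∧ r ∈ Subgroup.zpowers z := by
  have hr' : r ∈ Subgroup.zpowers z := by
    by_contra hrz
    obtain ⟨a, ha, haz, hSa, hTa⟩ := h.exists_line_through hF hS hT hST
    have hzL : Subgroup.zpowers z ≤ Line E z a := Subgroup.zpowers_le.mpr (h.z_mem_Line a)
    have hrL : r ∈ Line E z a := by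
      have := mul_mem (inv_mem (mul_mem (hSa hs) (hTa ht))) (hzL hm)
      rwa [inv_mul_cancel_left] at this
    have hQa := h.pt_le (hF.isPt Q hQ) (h.Line_between ha) hr hrL hrz
    rcases h.line_two hF hS hT hQ hST ha haz hSa hTa hQa with e | e
    · exact hSQ e.symm
    · exact hTQ e.symm
  obtain ⟨hs', ht'⟩ := h.indep_two hF hS hT hST hs ht (by simpa using mul_mem hm (inv_mem hr'))
  exact ⟨hs', ht', hr'⟩

include hF in
theorem mem_sup_five {S T : Subgroup G} (hS : S ∈ five) (hT : T ∈ five) {x : G} :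
    x ∈ S ⊔ T ↔ ∃ s ∈ S, ∃ t ∈ T, x = s * t := by
  refine ⟨fun hx => ?_, ?_⟩
  · have hle : T ≤ Subgroup.normalizer (S : Set G) := fun t ht =>
      Subgroup.centralizer_le_normalizer _ (Subgroup.mem_centralizer_iff.mpr fun s hs =>
        h.U_comm_U (h.five_le_U hF hS hs) (h.five_le_U hF hT ht))
    rw [← SetLike.mem_coe, Subgroup.coe_mul_of_right_le_normalizer_left S T hle] at hx
    obtain ⟨s, hs, t, ht, e⟩ := hx
    exact ⟨s, hs, t, ht, e.symm⟩
  · rintro ⟨s, hs, t, ht, rfl⟩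
    exact Subgroup.mul_mem_sup hs ht

include hF in
theorem sup_eq_line {S T : Subgroup G} (hS : S ∈ five) (hT : T ∈ five) (hST : S ≠ T) {a : G}
    (ha : a ∈ W) (haz : a ∉ Subgroup.zpowers z) (hSa : S ≤ Line E z a) (hTa : T ≤ Line E z a) :
    S ⊔ T = Line E z a := by
  refine Subgroup.eq_of_le_of_card_ge (sup_le hSa hTa) ?_
  have h1 := h.card_sup_mul (h.five_le_U hF hS) (h.five_le_U hF hT)
  have h2 : Nat.card ↥(S ⊓ T) ≤ 2 := by
    have := Subgroup.card_le_of_le (K := Subgroup.zpowers z) (fun (x : G) (hx : x ∈ S ⊓ T) => h.five_inf hF hS hT hST hx.1 hx.2)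
    rwa [Nat.card_zpowers, h.orderOf_z] at this
  rw [(hF.isPt S hS).2, (hF.isPt T hT).2] at h1
  rw [h.card_Line ha haz]
  nlinarith

include hF in
theorem quad_cases {S : Subgroup G} (hS : S ∈ five) {p : G} (hp : p ∈ P) (hp1 : p ≠ 1) {x : G}
    (hx : x ∈ S) : x ∈ Quad p z S ∨ z * x ∈ Quad p z S := by
  have hzS := (hF.isPt S hS).1.z_mem
  by_cases hxz : x ∈ Subgroup.zpowers z
  · rcases h.mem_Z.mp hxz with rfl | rfl
    · exact Or.inl ⟨hx, Or.inl rfl⟩
    · exact Or.inr ⟨mul_mem hzS hx, Or.inl h.z_sq⟩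
  · rcases h.sig_mem hp hp1 (h.five_le_U hF hS hx) with e | e
    · refine Or.inr ⟨mul_mem hzS hx, Or.inr ⟨h.z_mul_notMem hxz, ?_⟩⟩
      rw [h.sig_mul hp h.z_U (h.five_le_U hF hS hx), e, h.sig_z hp, mul_one]
    · exact Or.inl ⟨hx, Or.inr ⟨hxz, e⟩⟩

include hF in
theorem quad_unique {S : Subgroup G} (hS : S ∈ five) {p : G} (hp : p ∈ P) {x : G}
    (hx : x ∈ Quad p z S) (hzx : z * x ∈ Quad p z S) : False := by
  obtain ⟨hxS, hx | ⟨hxz, hx⟩⟩ := hx
  · subst hx
    rw [mul_one] at hzx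
    rcases hzx.2 with e | ⟨e, -⟩
    · exact h.z_ne e
    · exact e (Subgroup.mem_zpowers z)
  · rcases hzx.2 with e | ⟨-, e⟩
    · exact hxz (by rw [eq_inv_of_mul_eq_one_right e]; exact inv_mem (Subgroup.mem_zpowers z))
    · rw [h.sig_mul hp h.z_U (h.five_le_U hF hS hxS), h.sig_z hp, hx, h.z_sq] at e
      exact h.z_ne e.symm

include hF in
theorem quad_eq {S : Subgroup G} (hS : S ∈ five) {p : G} (hp : p ∈ P) {x y : G}
    (hx : x ∈ Quad p z S) (hy : y ∈ Quad p z S) (he : x * y ∈ Subgroup.zpowers z) : x = y := by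
  have hyy := h.U_sq (h.five_le_U hF hS hy.1)
  rcases h.mem_Z.mp he with e | e
  · rw [← mul_one x, ← hyy, ← mul_assoc, e, one_mul]
  · have : x = z * y := by rw [← e, mul_assoc, hyy, mul_one]
    exact (h.quad_unique hF hS hp hy (this ▸ hx)).elim

include hE hF in
theorem exists_cmm_quad {S : Subgroup G} (hS : S ∈ five) {a p : G} (ha : a ∈ W)
    (haz : a ∉ Subgroup.zpowers z) (hSa : S ≤ Line E z a) (hp : p ∈ P) (hp1 : p ≠ 1) {s : G}
    (hs : s ∈ Quad p z S) : ∃ f ∈ E, cmm a f = s := by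
  obtain ⟨hsS, hs | ⟨hsz, hsig⟩⟩ := hs
  · exact ⟨1, one_mem _, by simp [cmm, hs]⟩
  · obtain ⟨f, hf, e | e⟩ := (h.mem_Line ha).mp (hSa hsS)
    · exact ⟨f, hf, e.symm⟩
    · exfalso
      have hzS := (hF.isPt S hS).1.z_mem
      have hcS : cmm a f ∈ S := by
        have := mul_mem hzS hsS
        rwa [e, h.z_mul_mul] at this
      have hcz : cmm a f ∉ Subgroup.zpowers z := fun hh => hsz (e ▸ mul_mem (Subgroup.mem_zpowers z) hh)
      rw [e, h.sig_mul hp h.z_U (h.cmm_mem_U ha hf), h.sig_z hp,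
        h.sig_spec hE hF hS ha haz hSa hf hcS hcz hp hp1, h.z_sq] at hsig
      exact h.z_ne hsig.symm

include hE hF in
/-- `sig` is constant on the commutators at the ordinary points of a line. -/
theorem sig_kind {Q Q' : Subgroup G} (hQ : IsPt E P W z Q) (hQ' : IsPt E P W z Q') (hQ5 : Q ∉ five)
    (hQ5' : Q' ∉ five) {a p x y : G} (ha : a ∈ W) (haz : a ∉ Subgroup.zpowers z)
    (hQa : Q ≤ Line E z a) (hQa' : Q' ≤ Line E z a) (hp : p ∈ P) (hp1 : p ≠ 1) (hx : x ∈ E)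
    (hy : y ∈ E) (hxQ : cmm a x ∈ Q) (hxz : cmm a x ∉ Subgroup.zpowers z) (hyQ : cmm a y ∈ Q')
    (hyz : cmm a y ∉ Subgroup.zpowers z) : sig p (cmm a x) = sig p (cmm a y) := by
  obtain ⟨m, hm, hmQ, hmL⟩ := hF.flags Q Q' hQ hQ' (iff_of_false hQ5 hQ5') a ha haz a ha haz hQa hQa'
  have hma : m * a * m⁻¹ ∈ W := h.M0_W m hm a ha
  have hx' := h.M0_E m hm x hx
  have hcm : m * cmm a x * m⁻¹ = cmm a (m * x * m⁻¹) := by
    rw [show m * cmm a x * m⁻¹ = cmm (m * a * m⁻¹) (m * x * m⁻¹) by simp only [cmm]; group]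
    rcases h.mem_Z.mp (h.Line_inj hE hma (h.conj_notMem_Z hm haz) ha haz hmL) with e | e
    · rw [eq_inv_of_mul_eq_one_left e, inv_eq_of_mul_eq_one_right (h.W_sq a ha)]
    · rw [show m * a * m⁻¹ = z * a by rw [← e, mul_assoc _ a a, h.W_sq a ha, mul_one], h.cmm_zmul ha hx']
  have h2Q : cmm a (m * x * m⁻¹) ∈ Q' := by
    rw [← hcm, ← hmQ]
    exact ⟨cmm a x, hxQ, rfl⟩
  have h2z : cmm a (m * x * m⁻¹) ∉ Subgroup.zpowers z := hcm ▸ h.conj_notMem_Z hm hxz
  rw [← h.sig_conj_M0 hp hp1 hm (h.cmm_mem_U ha hx), hcm]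
  obtain ⟨k, hk⟩ := h.pt_elements hQ' hp hp1 h2Q h2z hyQ hyz
  have hpk : p ^ k ∈ P := pow_mem hp k
  rw [← h.conj_cmm hpk ha] at hk
  rw [(h.cmm_eq_of_eq_mod ha (h.M0_E _ (h.P_le_M0 hpk) _ hx') hy hk).1, h.conj_cmm hpk ha,
    h.sig_conj_M0 hp hp1 (h.P_le_M0 hpk) (h.cmm_mem_U ha hx')]

include hE hF in
/-- Two special points of a line are orthogonal. -/
theorem sig_orth {S T : Subgroup G} (hS : S ∈ five) (hT : T ∈ five) (hST : S ≠ T) {a p f g : G}
    (ha : a ∈ W) (haz : a ∉ Subgroup.zpowers z) (hSa : S ≤ Line E z a) (hTa : T ≤ Line E z a)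
    (hp : p ∈ P) (hp1 : p ≠ 1) (hf : f ∈ E) (hfS : cmm a f ∈ S) (hg : g ∈ E) (hgT : cmm a g ∈ T) :
    cmm f (cmm a g) = 1 := by
  have hfU := h.cmm_mem_U ha hf
  by_cases hgz : cmm a g ∈ Subgroup.zpowers z
  · rw [h.cmm_eq_one_iff.mpr (h.mem_Z_of_cmm ha hg hgz)]
    simp [cmm]
  by_cases hfz : cmm a f ∈ Subgroup.zpowers z
  · exact h.cmm_eq_one_iff.mpr (h.comm_Line ha hf (h.mem_Z_of_cmm ha hf hfz) _ (h.cmm_mem_Line hg))
  let gk : ℕ → G := fun k => p ^ k * g * (p ^ k)⁻¹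
  have hgkE : ∀ k, gk k ∈ E := fun k => h.M0_E _ (pow_mem (h.P_le_M0 hp) k) g hg
  have hgkc : ∀ k, cmm a (gk k) = p ^ k * cmm a g * (p ^ k)⁻¹ := fun k => h.conj_cmm (pow_mem hp k) ha
  have hgkT : ∀ k, cmm a (gk k) ∈ T := fun k => by
    rw [hgkc]; exact (hF.isPt T hT).1.inv _ (pow_mem hp k) _ hgT
  have hgkz : ∀ k, cmm a (gk k) ∉ Subgroup.zpowers z := fun k => by
    rw [hgkc]; exact h.conj_notMem_Z (pow_mem (h.P_le_M0 hp) k) hgz
  have hν : ∀ k, sig p (cmm a (f * gk k)) = cmm f (cmm a (gk k)) := by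
    intro k
    have hkU := h.cmm_mem_U ha (hgkE k)
    have hs : ∀ c : G, c = 1 ∨ c = z → sig p c = c := by
      rintro c (rfl | rfl)
      exacts [h.sig_one p, h.sig_z hp]
    have hsgn := h.sgn_cases hf (U_le hkU)
    have hcU : cmm f (cmm a (gk k)) ∈ U E W := by
      rcases hsgn with e | e <;> rw [e]
      exacts [one_mem _, h.z_U]
    rw [h.cmm_mul_sgn ha hf (hgkE k), h.sig_mul hp (mul_mem hfU hkU) hcU, h.sig_mul hp hfU hkU,
      h.sig_spec hE hF hS ha haz hSa hf hfS hfz hp hp1,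
      h.sig_spec hE hF hT ha haz hTa (hgkE k) (hgkT k) (hgkz k) hp hp1, h.z_sq, one_mul, hs _ hsgn]
  have hord : ∀ k, ∃ Q, IsPt E P W z Q ∧ Q ∉ five ∧ Q ≤ Line E z a ∧ cmm a (f * gk k) ∈ Q ∧
      cmm a (f * gk k) ∉ Subgroup.zpowers z := by
    intro k
    have hfg : f * gk k ∈ E := mul_mem hf (hgkE k)
    have hkU := h.cmm_mem_U ha (hgkE k)
    have hprod : ∀ Q : Subgroup G, z ∈ Q → cmm a (f * gk k) ∈ Q → cmm a f * cmm a (gk k) ∈ Q := by
      intro Q hzQ hm
      rw [h.cmm_mul_sgn ha hf (hgkE k)] at hm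
      rcases h.sgn_cases hf (U_le hkU) with e | e <;> rw [e] at hm
      · rwa [mul_one] at hm
      · simpa using mul_mem hm (inv_mem hzQ)
    have hnz : cmm a (f * gk k) ∉ Subgroup.zpowers z := fun hh =>
      hgkz k (h.indep_two hF hS hT hST hfS (hgkT k) (hprod _ (Subgroup.mem_zpowers z) hh)).2
    obtain ⟨Q, hQB, hQ8, hQm⟩ := h.exists_pt (h.cmm_mem_U ha hfg) hnz
    have hQ : IsPt E P W z Q := ⟨hQB, hQ8⟩
    have hQa : Q ≤ Line E z a := h.pt_le hQ (h.Line_between ha) hQm (h.cmm_mem_Line hfg) hnz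
    refine ⟨Q, hQ, fun hQ5 => ?_, hQa, hQm, hnz⟩
    have hm := hprod Q hQ.1.z_mem hQm
    rcases h.line_two hF hS hT hQ5 hST ha haz hSa hTa hQa with rfl | rfl
    · exact hgkz k (h.five_inf hF hS hT hST (by simpa using mul_mem (inv_mem hfS) hm) (hgkT k))
    · exact hfz (h.five_inf hF hS hT hST hfS (by simpa using mul_mem hm (inv_mem (hgkT k))))
  have hsame : ∀ k, cmm f (cmm a (gk k)) = cmm f (cmm a (gk 0)) := by
    intro k
    rw [← hν k, ← hν 0]
    obtain ⟨Q, hQ, hQ5, hQa, hQm, hQz⟩ := hord k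
    obtain ⟨Q', hQ', hQ5', hQa', hQm', hQz'⟩ := hord 0
    exact h.sig_kind hE hF hQ hQ' hQ5 hQ5' ha haz hQa hQa' hp hp1 (mul_mem hf (hgkE k))
      (mul_mem hf (hgkE 0)) hQm hQz hQm' hQz'
  have e0 : cmm a (gk 0) = cmm a g := by simp [gk]
  have e1 : p * cmm a g * p⁻¹ = cmm a (gk 1) := by rw [hgkc, pow_one]
  have e2 : p * p * cmm a g * (p * p)⁻¹ = cmm a (gk 2) := by rw [hgkc, pow_two]
  have hgU := h.cmm_mem_U ha hg
  have h1 : cmm f (sig p (cmm a g)) = 1 := by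
    rw [h.sig_spec hE hF hT ha haz hTa hg hgT hgz hp hp1]
    exact h.sgn_z hf
  have hc : ∀ k, cmm a (gk k) ∈ E := fun k => U_le (h.cmm_mem_U ha (hgkE k))
  simp only [sig] at h1
  rw [e1, e2, h.sgn_mul_right hf (mul_mem (U_le hgU) (hc 1)) (hc 2),
    h.sgn_mul_right hf (U_le hgU) (hc 1), hsame 1, hsame 2, e0] at h1
  rcases h.sgn_cases hf (U_le hgU) with e | e
  · exact e
  · rw [e, h.z_sq, one_mul] at h1
    exact absurd h1 h.z_ne

include hE hF in
/-- On a line the products of stars are commutators. -/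
theorem exists_cmm_prod {S T : Subgroup G} (hS : S ∈ five) (hT : T ∈ five) (hST : S ≠ T) {a p : G}
    (ha : a ∈ W) (haz : a ∉ Subgroup.zpowers z) (hSa : S ≤ Line E z a) (hTa : T ≤ Line E z a)
    (hp : p ∈ P) (hp1 : p ≠ 1) {s t : G} (hs : s ∈ Quad p z S) (ht : t ∈ Quad p z T) :
    ∃ f ∈ E, cmm a f = s * t := by
  obtain ⟨f, hf, rfl⟩ := h.exists_cmm_quad hE hF hS ha haz hSa hp hp1 hs
  obtain ⟨g, hg, rfl⟩ := h.exists_cmm_quad hE hF hT ha haz hTa hp hp1 ht
  exact ⟨f * g, mul_mem hf hg, by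
    rw [h.cmm_mul_sgn ha hf hg, h.sig_orth hE hF hS hT hST ha haz hSa hTa hp hp1 hf hs.1 hg ht.1,
      mul_one]⟩

include hE hF in
/-- On a line every commutator is a product of stars. -/
theorem exists_quad_prod {S T : Subgroup G} (hS : S ∈ five) (hT : T ∈ five) (hST : S ≠ T) {a p : G}
    (ha : a ∈ W) (haz : a ∉ Subgroup.zpowers z) (hSa : S ≤ Line E z a) (hTa : T ≤ Line E z a)
    (hp : p ∈ P) (hp1 : p ≠ 1) {f : G} (hf : f ∈ E) :
    ∃ s ∈ Quad p z S, ∃ t ∈ Quad p z T, cmm a f = s * t := by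
  have hfL : cmm a f ∈ S ⊔ T := by
    rw [h.sup_eq_line hF hS hT hST ha haz hSa hTa]; exact h.cmm_mem_Line hf
  obtain ⟨s₀, hs₀, t₀, ht₀, e⟩ := (h.mem_sup_five hF hS hT).mp hfL
  obtain ⟨s, hs, hs'⟩ : ∃ s ∈ Quad p z S, s₀ = s ∨ s₀ = z * s := by
    rcases h.quad_cases hF hS hp hp1 hs₀ with c | c
    · exact ⟨_, c, Or.inl rfl⟩
    · exact ⟨_, c, Or.inr (h.z_mul_mul s₀).symm⟩
  obtain ⟨t, ht, ht'⟩ : ∃ t ∈ Quad p z T, t₀ = t ∨ t₀ = z * t := by
    rcases h.quad_cases hF hT hp hp1 ht₀ with c | c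
    · exact ⟨_, c, Or.inl rfl⟩
    · exact ⟨_, c, Or.inr (h.z_mul_mul t₀).symm⟩
  obtain ⟨g, hg, hgst⟩ := h.exists_cmm_prod hE hF hS hT hST ha haz hSa hTa hp hp1 hs ht
  have hmod : cmm a f = cmm a g ∨ cmm a f = z * cmm a g := by
    rw [hgst, e]
    have hzs : s * z = z * s := h.z_comm_of_U (h.five_le_U hF hS hs.1)
    rcases hs' with rfl | rfl <;> rcases ht' with rfl | rfl
    · exact Or.inl rfl
    · exact Or.inr (by rw [← mul_assoc, hzs, mul_assoc])
    · exact Or.inr (mul_assoc z s t₀)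
    · exact Or.inl (by rw [mul_assoc z, ← mul_assoc s, hzs, mul_assoc z s, h.z_mul_mul])
  exact ⟨s, hs, t, ht, ((h.cmm_eq_of_eq_mod ha hg hf hmod).1).trans hgst⟩

include hE hF in
/-- If the lines of `a, b` share `S`, the line of `a b` passes through the other point of `b`. -/
theorem third_mem {S T Q : Subgroup G} (hS : S ∈ five) (hT : T ∈ five) (hQ : Q ∈ five) (hST : S ≠ T)
    (hSQ : S ≠ Q) (hTQ : T ≠ Q) {a b p : G} (ha : a ∈ W) (haz : a ∉ Subgroup.zpowers z) (hb : b ∈ W)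
    (hbz : b ∉ Subgroup.zpowers z) (hSa : S ≤ Line E z a) (hTa : T ≤ Line E z a)
    (hSb : S ≤ Line E z b) (hQb : Q ≤ Line E z b) (hp : p ∈ P) (hp1 : p ≠ 1) :
    Q ≤ Line E z (a * b) := by
  classical
  have hLab : Line E z a ≠ Line E z b := fun e => by
    rcases h.line_two hF hS hT hQ hST ha haz hSa hTa (e ▸ hQb) with c | c
    · exact hSQ c.symm
    · exact hTQ c.symm
  have habz : a * b ∉ Subgroup.zpowers z := by
    intro hh
    rcases h.mem_Z.mp hh with e | e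
    · exact hLab (by rw [eq_inv_of_mul_eq_one_left e, inv_eq_of_mul_eq_one_right (h.W_sq b hb)])
    · refine hLab ?_
      rw [show a = z * b by rw [← e, mul_assoc, h.W_sq b hb, mul_one], h.Line_zmul hb]
  obtain ⟨r, hrQ, hrz⟩ : ∃ r ∈ Q, r ∉ Subgroup.zpowers z := by
    by_contra hcon
    push Not at hcon
    have := Subgroup.card_le_of_le (show Q ≤ Subgroup.zpowers z from hcon)
    rw [(hF.isPt Q hQ).2, Nat.card_zpowers, h.orderOf_z] at this
    omega
  obtain ⟨r, hr, hrz⟩ : ∃ r ∈ Quad p z Q, r ∉ Subgroup.zpowers z := by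
    rcases h.quad_cases hF hQ hp hp1 hrQ with c | c
    · exact ⟨_, c, hrz⟩
    · exact ⟨_, c, h.z_mul_notMem hrz⟩
  obtain ⟨f, hf, hfr⟩ := h.exists_cmm_quad hE hF hQ hb hbz hQb hp hp1 hr
  set Ca := E ⊓ Subgroup.centralizer ({a} : Set G) with hCa
  set Cb := E ⊓ Subgroup.centralizer ({b} : Set G) with hCb
  set CS := E ⊓ Subgroup.centralizer (S : Set G) with hCS
  have hzS := (hF.isPt S hS).1.z_mem
  have hCS11 : Nat.card ↥CS = 2 ^ 11 := by
    have h1 := CfsgLib.ClassK.card_inf_centralizer_mul_card hE (D := S)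
      (by rw [h.centre_E_eq hE, Subgroup.zpowers_le]; exact hzS)
      ((h.five_le_U hF hS).trans U_le)
    rw [(hF.isPt S hS).2, h.card_E] at h1
    rw [hCS]; omega
  have hle : ∀ c ∈ W, S ≤ Line E z c → E ⊓ Subgroup.centralizer ({c} : Set G) ≤ CS := by
    intro c hc hSc x hx
    refine ⟨hx.1, Subgroup.mem_centralizer_iff.mpr fun y hy => ?_⟩
    exact (h.comm_Line hc hx.1 (Subgroup.mem_centralizer_singleton_iff.mp hx.2).symm y (hSc hy)).symm
  have hnorm : Cb ≤ Subgroup.normalizer (Ca : Set G) := by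
    intro x hx
    rw [Subgroup.mem_normalizer_iff]
    intro y
    have key : ∀ y ∈ Ca, ∀ x ∈ E, x * y * x⁻¹ ∈ Ca := by
      intro y hy x hxE
      rcases h.conj_E_eq hxE hy.1 with c | c <;> rw [c]
      · exact hy
      · exact mul_mem ⟨h.z_mem, Subgroup.mem_centralizer_singleton_iff.mpr (h.W_z a ha).symm⟩ hy
    refine ⟨fun hy => key y hy x hx.1, fun hy => ?_⟩
    simpa [mul_assoc] using key _ hy x⁻¹ (inv_mem hx.1)
  have hsup : Ca ⊔ Cb = CS := by
    refine Subgroup.eq_of_le_of_card_ge (sup_le (hle a ha hSa) (hle b hb hSb)) ?_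
    have h1 := CfsgLib.ThompsonJ.card_sup_mul_card_inf Cb Ca hnorm
    have h2 : Nat.card ↥(Cb ⊓ Ca) ≤ 2 ^ 7 := by
      rw [← h.card_U]
      refine Subgroup.card_le_of_le fun x hx => ?_
      exact h.main.2 a ha b hb haz hbz habz x hx.1.1
        (Subgroup.mem_centralizer_singleton_iff.mp hx.2.2).symm
        (Subgroup.mem_centralizer_singleton_iff.mp hx.1.2).symm
    rw [h.main.1 a ha haz, h.main.1 b hb hbz, sup_comm] at h1
    rw [hCS11]
    nlinarith
  have hfS : f ∈ CS := by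
    refine ⟨hf, Subgroup.mem_centralizer_iff.mpr fun y hy => ?_⟩
    have hc : ∀ s ∈ Quad p z S, s * f = f * s := by
      intro s hs
      obtain ⟨g, hg, rfl⟩ := h.exists_cmm_quad hE hF hS hb hbz hSb hp hp1 hs
      have := h.sig_orth hE hF hQ hS (Ne.symm hSQ) hb hbz hQb hSb hp hp1 hf (hfr ▸ hr.1) hg hs.1
      exact (h.cmm_eq_one_iff.mp this).symm
    rcases h.quad_cases hF hS hp hp1 hy with c | c
    · exact hc y c
    · have h1 := hc _ c
      have hzf : f * z = z * f := h.E_z hf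
      rw [← mul_assoc f, hzf, mul_assoc, mul_assoc] at h1
      exact mul_left_cancel h1
  rw [← hsup, ← SetLike.mem_coe, Subgroup.coe_mul_of_right_le_normalizer_left Ca Cb hnorm] at hfS
  obtain ⟨g, hg, k, hk, rfl⟩ := hfS
  have hga : a * g = g * a := (Subgroup.mem_centralizer_singleton_iff.mp hg.2).symm
  have hkb : b * k = k * b := (Subgroup.mem_centralizer_singleton_iff.mp hk.2).symm
  rw [h.cmm_mul (f := g) (g := k) hb, h.cmm_eq_one_iff.mpr hkb, mul_one, mul_inv_cancel, mul_one] at hfr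
  have hab : cmm (a * b) g = r := by
    rw [show cmm (a * b) g = a * cmm b g * a⁻¹ * cmm a g by simp only [cmm]; group,
      h.cmm_eq_one_iff.mpr hga, mul_one, hfr, ← hfr, U_comm (h.cmm_mem_U hb hg.1) ha,
      mul_inv_cancel_right]
  exact h.pt_le (hF.isPt Q hQ) (h.Line_between (mul_mem ha hb)) hr.1 (hab ▸ h.cmm_mem_Line hg.1) hrz

end HexTransitive

end CfsgLib.JFour
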