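import Cfsg.Agent.Lib.JFour.HexadData

/-!
The action of `Aut M22` on 22 points: a hexad with its normalizer, and the stabilizers of the pairs
of its points. Interface for the local analysis at the points of the planes.
-/

set_option autoImplicit false

namespace CfsgLib.JFour

/-- `f` is the action on 22 points, `Hx` the hexad fixed pointwise by `B`, `I` the inner part. -/
structure DuadPerm {A : Type*} [Group A] (I M B : Subgroup A) (f : A →* Equiv.Perm (Fin 22))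
    (Hx : Finset (Fin 22)) : Prop where
  inj : Function.Injective f
  card_Hx : Hx.card = 6
  mem_M : ∀ g : A, g ∈ M ↔ ∀ x ∈ Hx, f g x ∈ Hx
  fix_B : ∀ b ∈ B, ∀ x ∈ Hx, f b x = x
  reg_B : ∀ x y : Fin 22, x ∉ Hx → y ∉ Hx → ∃ b ∈ B, f b x = y
  three : ∀ R : Finset (Fin 22), R ⊆ Hx → 3 ≤ R.card → ∀ g : A, (∀ x ∈ R, f g x ∈ Hx) → g ∈ M
  duad : ∀ R : Finset (Fin 22), R ⊆ Hx → R.card = 2 →
    ∃ D : Subgroup A, (∀ g : A, g ∈ D ↔ ∀ x ∈ R, f g x ∈ R) ∧ Nat.card ↥D = 3840 ∧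
      Nat.card ↥(D ⊓ I) = 1920 ∧ Nat.card ↥(D ⊓ M) = 768 ∧
      ∃ (K : Subgroup A) (φ : ↥(D ⊓ I) →* Equiv.Perm (Fin 5)),
        Function.Surjective φ ∧ φ.ker = K.subgroupOf (D ⊓ I) ∧ K ≤ D ⊓ I ∧ Nat.card ↥K = 16 ∧
        (∀ k ∈ K, k * k = 1) ∧
        ∀ a ∈ K, a ≠ 1 → ∀ b ∈ K, b ≠ 1 → ∃ g ∈ D ⊓ I, g * a * g⁻¹ = b

end CfsgLib.JFour
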