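import Cfsg.Agent.Lib.JFour.Pieces

/-!
# Groups of Janko-four type: facts on the six special points of `U / ⟨z⟩`

Two special elements with special product lie at the same point, the special points are anisotropic
on each line through them, and a special point is on no three lines of dependent elements of `W`.
-/

set_option autoImplicit false
set_option linter.unusedSectionVars false
set_option linter.style.haveILetI false

open Cfsg

namespace CfsgLib.JFour

/-- A set closed under multiplication by a subgroup has size divisible by its order. -/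
theorem card_dvd_of_mul_closed {G : Type*} [Group G] [Finite G] (H : Subgroup G) (X : Set G)
    (hX : ∀ k ∈ H, ∀ x ∈ X, k * x ∈ X) : Nat.card ↥H ∣ Nat.card ↥X := by
  classical
  letI : MulAction ↥H ↥X :=
    { smul := fun k x => ⟨(k : G) * (x : G), hX _ k.2 _ x.2⟩
      one_smul := fun x => Subtype.ext (one_mul _)
      mul_smul := fun a b x => Subtype.ext (mul_assoc _ _ _) }
  haveI := Fintype.ofFinite (MulAction.orbitRel.Quotient ↥H ↥X)
  rw [Nat.card_congr (MulAction.selfEquivSigmaOrbits ↥H ↥X), Nat.card_sigma]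
  refine Finset.dvd_sum fun ω _ => ?_
  haveI := Fintype.ofFinite ↥H
  haveI := Fintype.ofFinite ↥(MulAction.orbit ↥H ω.out)
  haveI := Fintype.ofFinite ↥(MulAction.stabilizer ↥H ω.out)
  have hst := MulAction.card_orbit_mul_card_stabilizer_eq_card_group ↥H ω.out
  have h1 : MulAction.stabilizer ↥H ω.out = ⊥ := by
    rw [eq_bot_iff]
    intro k hk
    rw [Subgroup.mem_bot]
    exact Subtype.ext (mul_eq_right.mp (congrArg Subtype.val (MulAction.mem_stabilizer_iff.mp hk)))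
  simp only [← Nat.card_eq_fintype_card] at hst
  rw [h1, Subgroup.card_bot, mul_one] at hst
  exact dvd_of_eq hst.symm

/-- A permutation of order dividing 3 without fixed points lives on a set of size divisible by 3. -/
theorem three_dvd_card {α : Type*} [Finite α] (σ : Equiv.Perm α) (h3 : ∀ a, σ (σ (σ a)) = a)
    (hfix : ∀ a, σ a ≠ a) : 3 ∣ Nat.card α := by
  classical
  haveI := Fintype.ofFinite α
  haveI : Fact (Nat.Prime 3) := ⟨Nat.prime_three⟩
  have hσ : σ ^ (3 ^ 1) = 1 := by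
    ext a
    simpa [pow_succ] using h3 a
  have h := Equiv.Perm.card_compl_support_modEq (p := 3) (n := 1) hσ
  have hs : σ.support = Finset.univ := Finset.eq_univ_of_forall fun a => Equiv.Perm.mem_support.mpr (hfix a)
  rw [hs, Finset.compl_univ, Finset.card_empty] at h
  rw [Nat.card_eq_fintype_card]
  exact Nat.modEq_zero_iff_dvd.mp h.symm

variable {G : Type*} [Group G]

namespace HexTransitive

open HexFrame

variable [Finite G] {E R P W M0 : Subgroup G} {z : G} (h : HexTransitive E R P W M0 z)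
include h

theorem z_mul_mul (x : G) : z * (z * x) = x := by rw [← mul_assoc, h.z_sq, one_mul]

theorem mul_z_notMem {x : G} (hx : x ∈ U E W) (hxz : x ∉ Subgroup.zpowers z) :
    x * z ∉ Subgroup.zpowers z := by
  rw [h.z_comm_of_U hx]
  exact h.z_mul_notMem hxz

/-- Through two special points goes one of the fifteen lines. -/
theorem exists_line_through {five : Set (Subgroup G)} (hF : FiveData E P W M0 z five)
    {S T : Subgroup G} (hS : S ∈ five) (hT : T ∈ five) (hne : S ≠ T) :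
    ∃ b ∈ W, b ∉ Subgroup.zpowers z ∧ S ≤ Line E z b ∧ T ≤ Line E z b := by
  classical
  let Ls := {L : Subgroup G // (∃ b ∈ W, b ∉ Subgroup.zpowers z ∧ L = Line E z b) ∧ S ≤ L}
  have hex : ∀ L : Ls, ∃ T' : {T' : five // (T' : Subgroup G) ≠ S}, ((T' : five) : Subgroup G) ≤ L.1 := by
    rintro ⟨L, ⟨b, hb, hbz, rfl⟩, hSL⟩
    have h2 := hF.two_points b hb hbz
    obtain ⟨u, v, huv, -⟩ := Nat.card_eq_two_iff.mp h2
    rcases eq_or_ne u.1 S with e | e
    · refine ⟨⟨⟨v.1, v.2.1⟩, fun e' => huv (Subtype.ext (e.trans e'.symm))⟩, v.2.2⟩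
    · exact ⟨⟨⟨u.1, u.2.1⟩, e⟩, u.2.2⟩
  choose g hg using hex
  have hinj : Function.Injective g := by
    intro L L' e
    obtain ⟨L, ⟨b, hb, hbz, rfl⟩, hSL⟩ := L
    obtain ⟨L', ⟨c, hc, hcz, rfl⟩, hSL'⟩ := L'
    apply Subtype.ext
    show Line E z b = Line E z c
    by_contra hLL
    have h8 := h.meet (h.Line_between hb) (h.Line_between hc) (h.card_Line hb hbz) (h.card_Line hc hcz) hLL
    have hS' := (hF.isPt S hS).2
    have e1 : S = Line E z b ⊓ Line E z c :=
      Subgroup.eq_of_le_of_card_ge (le_inf hSL hSL') (by rw [h8, hS'])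
    have hT' := (hF.isPt _ ((g ⟨_, ⟨b, hb, hbz, rfl⟩, hSL⟩).1).2).2
    have e2 : ((g ⟨_, ⟨b, hb, hbz, rfl⟩, hSL⟩).1 : Subgroup G) = Line E z b ⊓ Line E z c := by
      refine Subgroup.eq_of_le_of_card_ge (le_inf (hg ⟨_, ⟨b, hb, hbz, rfl⟩, hSL⟩) ?_) (by rw [h8, hT'])
      have := hg ⟨_, ⟨c, hc, hcz, rfl⟩, hSL'⟩
      rwa [← e] at this
    exact (g ⟨_, ⟨b, hb, hbz, rfl⟩, hSL⟩).2 (e2.trans e1.symm)
  have hcard : Nat.card {T' : five // (T' : Subgroup G) ≠ S} = 5 := by
    haveI := Fintype.ofFinite five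
    have e : {T' : five // (T' : Subgroup G) ≠ S} ≃ {T' : five // T' ≠ ⟨S, hS⟩} :=
      Equiv.subtypeEquivRight fun T' => by simp [Subtype.ext_iff]
    rw [Nat.card_congr e, Nat.card_eq_fintype_card, Fintype.card_subtype_compl, Fintype.card_subtype_eq,
      ← Nat.card_eq_fintype_card, hF.card]
  have hbij : Function.Bijective g :=
    (Nat.bijective_iff_injective_and_card g).mpr ⟨hinj, (hF.five_lines S hS).trans hcard.symm⟩
  obtain ⟨⟨L, ⟨b, hb, hbz, rfl⟩, hSL⟩, e⟩ := hbij.2 ⟨⟨T, hT⟩, fun e => hne e.symm⟩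
  refine ⟨b, hb, hbz, hSL, ?_⟩
  have := hg ⟨_, ⟨b, hb, hbz, rfl⟩, hSL⟩
  rwa [e] at this

/-- Two special elements whose product is special lie at the same point. -/
theorem same_point {five : Set (Subgroup G)} (hF : FiveData E P W M0 z five) {S T : Subgroup G}
    (hS : S ∈ five) (hT : T ∈ five) {u v : G} (hu : u ∈ S) (huz : u ∉ Subgroup.zpowers z) (hv : v ∈ T)
    (hvz : v ∉ Subgroup.zpowers z) (huv : u * v ∈ specU E W z five) : S = T := by
  by_contra hne
  obtain ⟨b, hb, hbz, hSb, hTb⟩ := h.exists_line_through hF hS hT hne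
  obtain ⟨-, hz, Q, hQ, hQm⟩ := huv
  have hQb : Q ≤ Line E z b :=
    h.pt_le (hF.isPt Q hQ) (h.Line_between hb) hQm (mul_mem (hSb hu) (hTb hv)) hz
  have hQ' : Q = S ∨ Q = T := by
    by_contra hcon
    push Not at hcon
    have h2 := hF.two_points b hb hbz
    have : 2 < Nat.card {S : Subgroup G // S ∈ five ∧ S ≤ Line E z b} := by
      let f : Fin 3 → {S : Subgroup G // S ∈ five ∧ S ≤ Line E z b} :=
        ![⟨Q, hQ, hQb⟩, ⟨S, hS, hSb⟩, ⟨T, hT, hTb⟩]
      have hf : Function.Injective f := by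
        intro i j e
        have e' := congrArg Subtype.val e
        fin_cases i <;> fin_cases j <;> simp [f] at e' ⊢ <;>
          first | exact hcon.1 e' | exact hcon.2 e' | exact hne e' | exact hcon.1 e'.symm |
            exact hcon.2 e'.symm | exact hne e'.symm
      have := Nat.card_le_card_of_injective f hf
      simp at this
      omega
    omega
  rcases hQ' with rfl | rfl
  · exact hne (h.pt_unique (hF.isPt _ hS).1 (hF.isPt _ hT).1 (hF.isPt _ hS).2 (hF.isPt _ hT).2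
      (by simpa using mul_mem (inv_mem hu) hQm) hv hvz)
  · exact hne (h.pt_unique (hF.isPt _ hS).1 (hF.isPt _ hT).1 (hF.isPt _ hS).2 (hF.isPt _ hT).2
      hu (by simpa using mul_mem hQm (inv_mem hv)) huz)

/-- In the coset `x S` there is an ordinary element that stays ordinary after multiplying by `t`. -/
theorem exists_ord {five : Set (Subgroup G)} (hF : FiveData E P W M0 z five) {S : Subgroup G}
    (hS : S ∈ five) {t : G} (ht : t ∈ S) (htz : t ∉ Subgroup.zpowers z) {x : G} (hx : x ∈ U E W)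
    (hxS : x ∉ S) :
    ∃ s ∈ S, x * s ∈ ordU E W z five ∧ x * s * t ∈ ordU E W z five := by
  have hSU := (hF.isPt S hS).1.le_U
  have hzS : Subgroup.zpowers z ≤ S := Subgroup.zpowers_le.mpr (hF.isPt S hS).1.z_mem
  have hout : ∀ s ∈ S, x * s ∉ S := fun s hs hh => hxS (by simpa using mul_mem hh (inv_mem hs))
  have hsp : ∀ s ∈ S, x * s ∉ ordU E W z five → x * s ∈ specU E W z five := by
    intro s hs hh
    have hz : x * s ∉ Subgroup.zpowers z := fun e => hout s hs (hzS e)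
    refine ⟨mul_mem hx (hSU hs), hz, ?_⟩
    by_contra hcon
    exact hh ⟨mul_mem hx (hSU hs), hz, fun Q hQ hm => hcon ⟨Q, hQ, hm⟩⟩
  -- a special element of the coset gives an ordinary one after multiplying by an element of `S \ ⟨z⟩`
  have hkey : ∀ s ∈ S, x * s ∈ specU E W z five → ∀ r ∈ S, r ∉ Subgroup.zpowers z →
      x * (s * r) ∈ ordU E W z five := by
    intro s hs hsS r hr hrz
    by_contra hh
    have h2 := hsp _ (mul_mem hs hr) hh
    obtain ⟨-, hz, Q, hQ, hQm⟩ := hsS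
    rw [← mul_assoc] at h2
    exact hout s hs ((h.same_point hF hQ hS hQm hz hr hrz h2) ▸ hQm)
  obtain ⟨p, hp, hp1⟩ := h.exists_gen
  set t' := p * t * p⁻¹ with ht'
  have ht'S : t' ∈ S := (hF.isPt S hS).1.inv p hp t ht
  have ht'z : t' ∉ Subgroup.zpowers z := h.conj_notMem_Z (h.P_le_M0 hp) htz
  have htt' : t' * t ∉ Subgroup.zpowers z := by
    intro hh
    have e : t' = t ∨ t' = z * t := by
      rcases h.mem_Z.mp hh with e | e
      · exact Or.inl (by rw [eq_inv_of_mul_eq_one_left e, h.U_inv' (hSU ht)])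
      · exact Or.inr (by rw [← e, mul_assoc, h.U_sq (hSU ht), mul_one])
    refine htz (h.fix_U (hSU ht) hp hp1 ?_)
    rcases e with e | e
    · exact mul_inv_eq_iff_eq_mul.mp e
    · exfalso
      have hp3 : p ^ 3 = 1 := orderOf_dvd_iff_pow_eq_one.mp (h.card_P ▸ Subgroup.orderOf_dvd_natCard _ hp)
      have hpz : p * z * p⁻¹ = z := h.z_conj_M0 (h.P_le_M0 hp)
      have h2 : p * (z * t) * p⁻¹ = t := by
        rw [show p * (z * t) * p⁻¹ = (p * z * p⁻¹) * (p * t * p⁻¹) by group, hpz, ← ht', e,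
          h.z_mul_mul]
      have step : p ^ 3 * t * (p ^ 3)⁻¹ = p * (p * (p * t * p⁻¹) * p⁻¹) * p⁻¹ := by
        rw [pow_succ, pow_two]; group
      rw [hp3, one_mul, inv_one, mul_one, ← ht', e, h2, ← ht', e] at step
      exact h.z_ne (mul_eq_right.mp step.symm)
  by_cases h1 : x * 1 ∈ ordU E W z five
  · by_cases h2 : x * 1 * t ∈ ordU E W z five
    · exact ⟨1, one_mem _, h1, h2⟩
    · rw [mul_one] at h2
      have h3 := hsp t ht h2
      refine ⟨t * t', mul_mem ht ht'S, hkey t ht h3 t' ht'S ht'z, ?_⟩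
      rw [mul_assoc x, show t * t' * t = t * (t' * t) by group]
      exact hkey t ht h3 _ (mul_mem ht'S ht) htt'
  · have h3 := hsp 1 (one_mem _) h1
    refine ⟨t', ht'S, ?_, ?_⟩
    · simpa using hkey 1 (one_mem _) h3 t' ht'S ht'z
    · simpa [mul_assoc] using hkey 1 (one_mem _) h3 _ (mul_mem ht'S ht) htt'

/-! ## Signs -/

theorem sgn_cases {x u : G} (hx : x ∈ E) (hu : u ∈ E) : cmm x u = 1 ∨ cmm x u = z := by
  rcases h.comm_E x hx u hu with c | c <;> rw [commutatorElement_def] at c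
  · exact Or.inl c
  · exact Or.inr c

theorem sgn_comm {x u : G} (hx : x ∈ E) (hu : u ∈ E) {y : G} (hy : y ∈ E) :
    y * cmm x u = cmm x u * y := by
  rcases h.sgn_cases hx hu with e | e <;> rw [e]
  · simp
  · exact h.E_z hy

theorem sgn_mul_left {x y u : G} (hx : x ∈ E) (hy : y ∈ E) (hu : u ∈ E) :
    cmm (x * y) u = cmm x u * cmm y u := by
  rw [show cmm (x * y) u = x * cmm y u * x⁻¹ * cmm x u by simp only [cmm]; group,
    h.sgn_comm hy hu hx, mul_inv_cancel_right]
  exact h.sgn_comm hx hu (mul_mem (mul_mem (mul_mem hy hu) (inv_mem hy)) (inv_mem hu))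

theorem sgn_mul_right {x u v : G} (hx : x ∈ E) (hu : u ∈ E) (hv : v ∈ E) :
    cmm x (u * v) = cmm x u * cmm x v := by
  rw [show cmm x (u * v) = cmm x u * (u * cmm x v * u⁻¹) by simp only [cmm]; group,
    h.sgn_comm hx hv hu, mul_inv_cancel_right]

theorem sgn_conj {m x u : G} (hm : m * z = z * m) (hx : x ∈ E) (hu : u ∈ E) :
    cmm (m * x * m⁻¹) (m * u * m⁻¹) = cmm x u := by
  rw [show cmm (m * x * m⁻¹) (m * u * m⁻¹) = m * cmm x u * m⁻¹ by simp only [cmm]; group]
  rcases h.sgn_cases hx hu with e | e <;> rw [e]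
  · simp
  · exact mul_inv_eq_iff_eq_mul.mpr hm

theorem sgn_z {x : G} (hx : x ∈ E) : cmm x z = 1 := h.cmm_eq_one_iff.mpr (h.E_z hx)

/-- The commutators `c(y) = cmm a y` are symmetric for the sign pairing. -/
theorem sgn_symm {a f g : G} (ha : a ∈ W) (hf : f ∈ E) (hg : g ∈ E) :
    cmm f (cmm a g) = cmm g (cmm a f) := by
  have hfU := h.cmm_mem_U ha hf
  have hgU := h.cmm_mem_U ha hg
  have hfE := U_le hfU
  have hgE := U_le hgU
  have h1 : cmm a (f * g) = cmm a f * cmm a g * cmm f (cmm a g) := by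
    rw [h.cmm_mul ha, show f * cmm a g * f⁻¹ = cmm f (cmm a g) * cmm a g by simp only [cmm]; group,
      ← h.sgn_comm hf hgE hgE, mul_assoc]
  have h2 : cmm a (g * f) = cmm a f * cmm a g * cmm g (cmm a f) := by
    rw [h.cmm_mul ha, show g * cmm a f * g⁻¹ = cmm g (cmm a f) * cmm a f by simp only [cmm]; group,
      ← h.sgn_comm hg hfE hfE, ← mul_assoc, h.U_comm_U hgU hfU]
  have h3 : cmm a (g * f) = cmm a (f * g) := by
    rcases h.conj_E_eq hg hf with e | e
    · rw [mul_inv_eq_iff_eq_mul.mp e]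
    · rw [mul_inv_eq_iff_eq_mul.mp e, mul_assoc z, h.cmm_mul (f := z) (g := f * g) ha,
        h.cmm_eq_one_iff.mpr (h.W_z a ha), one_mul,
        ← h.E_z (U_le (h.cmm_mem_U ha (mul_mem hf hg))), mul_inv_cancel_right]
  rw [h1, h2] at h3
  exact (mul_left_cancel h3).symm

theorem conj_cmm {a p g : G} (hp : p ∈ P) (ha : a ∈ W) :
    cmm a (p * g * p⁻¹) = p * cmm a g * p⁻¹ := by
  have e := h.conj_P_eq hp ha
  calc cmm a (p * g * p⁻¹) = cmm (p * a * p⁻¹) (p * g * p⁻¹) := by rw [e]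
    _ = p * cmm a g * p⁻¹ := by simp only [cmm]; group

/-- The special points are anisotropic on the lines through them. -/
theorem anisotropic (hE : IsExtraspecial 2 ↥E) {five : Set (Subgroup G)}
    (hF : FiveData E P W M0 z five) {S : Subgroup G} (hS : S ∈ five) {a g p : G} (ha : a ∈ W)
    (haz : a ∉ Subgroup.zpowers z) (hSa : S ≤ Line E z a) (hg : g ∈ E) (hgS : cmm a g ∈ S)
    (hgz : cmm a g ∉ Subgroup.zpowers z) (hp : p ∈ P) (hp1 : p ≠ 1) :
    cmm g (p * cmm a g * p⁻¹) ≠ 1 := by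
  classical
  intro hiso
  have hpM := h.P_le_M0 hp
  have hp3 : p ^ 3 = 1 := orderOf_dvd_iff_pow_eq_one.mp (h.card_P ▸ Subgroup.orderOf_dvd_natCard _ hp)
  have hpz : p * z = z * p := h.M0_z p hpM
  -- `q f` says that `f` commutes with `p (cmm a f) p⁻¹`
  let q : G → G := fun f => cmm f (p * cmm a f * p⁻¹)
  have hcE : ∀ f ∈ E, cmm a f ∈ E := fun f hf => U_le (h.cmm_mem_U ha hf)
  have hpE : ∀ f ∈ E, p * f * p⁻¹ ∈ E := fun f hf => h.M0_E p hpM f hf
  -- `q` only depends on the point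
  have hpoint : ∀ f f', f ∈ E → f' ∈ E → ∀ Q, IsPt E P W z Q → cmm a f ∈ Q →
      cmm a f ∉ Subgroup.zpowers z → cmm a f' ∈ Q → cmm a f' ∉ Subgroup.zpowers z → q f' = q f := by
    intro f f' hf hf' Q hQ hfQ hfz hf'Q hf'z
    obtain ⟨k, hk⟩ := h.pt_elements hQ hp hp1 hfQ hfz hf'Q hf'z
    have hpk : p ^ k ∈ P := pow_mem hp k
    have hf2 : p ^ k * f * (p ^ k)⁻¹ ∈ E := h.M0_E _ (h.P_le_M0 hpk) f hf
    rw [← h.conj_cmm hpk ha] at hk
    obtain ⟨heq, hcomm⟩ := h.cmm_eq_of_eq_mod ha hf2 hf' hk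
    set f2 := p ^ k * f * (p ^ k)⁻¹ with hf2def
    set e0 := f2⁻¹ * f'
    have he0 : e0 ∈ E := mul_mem (inv_mem hf2) hf'
    have hline : p * cmm a f2 * p⁻¹ ∈ Line E z a := (h.Line_between ha).inv p hp _ (h.cmm_mem_Line hf2)
    have hz0 : cmm e0 (p * cmm a f2 * p⁻¹) = 1 :=
      h.cmm_eq_one_iff.mpr (h.comm_Line ha he0 hcomm _ hline)
    have h1 : q f' = q f2 := by
      show cmm f' _ = cmm f2 _
      rw [show f' = f2 * e0 by simp [e0], ← show cmm a f2 = cmm a (f2 * e0) by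
        rw [show f2 * e0 = f' by simp [e0], heq]]
      rw [h.sgn_mul_left hf2 he0 (hpE _ (hcE _ hf2)), hz0, mul_one]
    rw [h1]
    show cmm f2 (p * cmm a f2 * p⁻¹) = cmm f (p * cmm a f * p⁻¹)
    rw [hf2def, h.conj_cmm hpk ha,
      show p * (p ^ k * cmm a f * (p ^ k)⁻¹) * p⁻¹ = p ^ k * (p * cmm a f * p⁻¹) * (p ^ k)⁻¹ by
        rw [← mul_assoc p, ← mul_assoc p, (Commute.self_pow p k).eq]; group,
      h.sgn_conj (h.M0_z _ (h.P_le_M0 hpk)) hf (hpE _ (hcE _ hf))]
  -- `q` agrees on points of the line of the same kind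
  have hkind : ∀ f f', f ∈ E → f' ∈ E → ∀ Q Q', IsPt E P W z Q → IsPt E P W z Q' →
      (Q ∈ five ↔ Q' ∈ five) → Q ≤ Line E z a → Q' ≤ Line E z a → cmm a f ∈ Q →
      cmm a f ∉ Subgroup.zpowers z → cmm a f' ∈ Q' → cmm a f' ∉ Subgroup.zpowers z → q f' = q f := by
    intro f f' hf hf' Q Q' hQ hQ' hiff hQa hQ'a hfQ hfz hf'Q hf'z
    obtain ⟨m, hm, hmQ, hmL⟩ := hF.flags Q Q' hQ hQ' hiff a ha haz a ha haz hQa hQ'a
    have hma : m * a * m⁻¹ ∈ W := h.M0_W m hm a ha
    have hmaz : m * a * m⁻¹ ∉ Subgroup.zpowers z := h.conj_notMem_Z hm haz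
    have hcm : ∀ x ∈ E, m * cmm a x * m⁻¹ = cmm a (m * x * m⁻¹) := by
      intro x hx
      have hx' := h.M0_E m hm x hx
      rw [show m * cmm a x * m⁻¹ = cmm (m * a * m⁻¹) (m * x * m⁻¹) by simp only [cmm]; group]
      rcases h.mem_Z.mp (h.Line_inj hE hma hmaz ha haz hmL) with e | e
      · rw [eq_inv_of_mul_eq_one_left e, inv_eq_of_mul_eq_one_right (h.W_sq a ha)]
      · rw [show m * a * m⁻¹ = z * a by rw [← e, mul_assoc _ a a, h.W_sq a ha, mul_one], h.cmm_zmul ha hx']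
    have hf2 : m * f * m⁻¹ ∈ E := h.M0_E m hm f hf
    have h2Q : cmm a (m * f * m⁻¹) ∈ Q' := by
      rw [← hcm f hf, ← hmQ]
      exact ⟨cmm a f, hfQ, rfl⟩
    have h2z : cmm a (m * f * m⁻¹) ∉ Subgroup.zpowers z := hcm f hf ▸ h.conj_notMem_Z hm hfz
    rw [hpoint _ f' hf2 hf' Q' hQ' h2Q h2z hf'Q hf'z]
    show cmm (m * f * m⁻¹) _ = cmm f _
    have hmp : m * p = p * m := h.M0_P m hm p hp
    rw [← hcm f hf, show p * (m * cmm a f * m⁻¹) * p⁻¹ = (p * m) * cmm a f * (p * m)⁻¹ by group, ← hmp,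
      show m * p * cmm a f * (m * p)⁻¹ = m * (p * cmm a f * p⁻¹) * m⁻¹ by group,
      h.sgn_conj (h.M0_z m hm) hf (hpE _ (hcE _ hf))]
  -- the other special point of the line
  obtain ⟨T, hT, hTa, hST⟩ : ∃ T ∈ five, T ≤ Line E z a ∧ S ≠ T := by
    obtain ⟨u, v, huv, -⟩ := Nat.card_eq_two_iff.mp (hF.two_points a ha haz)
    rcases eq_or_ne S u.1 with e | e
    · exact ⟨v.1, v.2.1, v.2.2, fun e' => huv (Subtype.ext (e.symm.trans e'))⟩
    · exact ⟨u.1, u.2.1, u.2.2, e⟩
  obtain ⟨d, hd, hdz⟩ : ∃ d ∈ T, d ∉ Subgroup.zpowers z := by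
    by_contra hcon
    push Not at hcon
    have := Subgroup.card_le_of_le (show T ≤ Subgroup.zpowers z from hcon)
    rw [(hF.isPt T hT).2, Nat.card_zpowers, h.orderOf_z] at this
    omega
  obtain ⟨f, hf, hfd⟩ := (h.mem_Line ha).mp (hTa hd)
  have hfT : cmm a f ∈ T := by
    rcases hfd with e | e
    · exact e ▸ hd
    · have := mul_mem (hF.isPt T hT).1.z_mem hd
      rwa [e, h.z_mul_mul] at this
  have hfz : cmm a f ∉ Subgroup.zpowers z := by
    intro hh
    rcases hfd with e | e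
    · exact hdz (e ▸ hh)
    · exact hdz (e ▸ mul_mem (Subgroup.mem_zpowers z) hh)
  have hqf : q f = 1 :=
    (hkind g f hg hf S T (hF.isPt S hS) (hF.isPt T hT) (iff_of_true hS hT) hSa hTa hgS hgz hfT hfz).trans hiso
  let fk : ℕ → G := fun k => p ^ k * f * (p ^ k)⁻¹
  have hfk : ∀ k, fk k ∈ E := fun k => h.M0_E _ (pow_mem hpM k) f hf
  have hfkc : ∀ k, cmm a (fk k) = p ^ k * cmm a f * (p ^ k)⁻¹ := fun k => h.conj_cmm (pow_mem hp k) ha
  have hfkT : ∀ k, cmm a (fk k) ∈ T := fun k => by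
    rw [hfkc]; exact (hF.isPt T hT).1.inv _ (pow_mem hp k) _ hfT
  have hfkz : ∀ k, cmm a (fk k) ∉ Subgroup.zpowers z := fun k => by
    rw [hfkc]; exact h.conj_notMem_Z (pow_mem hpM k) hfz
  -- value of `q` on the products
  have hsum : ∀ v ∈ E, cmm a v ∈ T → ∀ u ∈ E, cmm u (cmm a v) * cmm u (p * cmm a v * p⁻¹) *
      cmm u (p * p * cmm a v * (p * p)⁻¹) = 1 := by
    intro v hv hvT u hu
    have hU := h.cmm_mem_U ha hv
    have h2 : p * p * cmm a v * (p * p)⁻¹ ∈ E := h.M0_E _ (mul_mem hpM hpM) _ (hcE v hv)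
    rw [← h.sgn_mul_right hu (hcE v hv) (hpE _ (hcE v hv)),
      ← h.sgn_mul_right hu (mul_mem (hcE v hv) (hpE _ (hcE v hv))) h2]
    rcases h.mem_Z.mp (h.sigma_conj hp hp1 hU) with e | e <;> rw [e]
    · simp [cmm]
    · exact h.sgn_z hu
  have hprod : ∀ v ∈ E, cmm a v ∈ T → q v = 1 → q (g * v) = cmm g (cmm a v) := by
    intro v hv hvT hqv
    have hc : cmm a (g * v) = cmm a g * cmm a v * cmm g (cmm a v) := by
      rw [h.cmm_mul ha, show g * cmm a v * g⁻¹ = cmm g (cmm a v) * cmm a v by simp only [cmm]; group,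
        ← h.sgn_comm hg (hcE v hv) (hcE v hv), mul_assoc]
    have hA : ∀ u ∈ E, cmm u (p * cmm a (g * v) * p⁻¹) =
        cmm u (p * cmm a g * p⁻¹) * cmm u (p * cmm a v * p⁻¹) := by
      intro u hu
      rw [hc, show p * (cmm a g * cmm a v * cmm g (cmm a v)) * p⁻¹ =
        (p * cmm a g * p⁻¹) * (p * cmm a v * p⁻¹) * (p * cmm g (cmm a v) * p⁻¹) by group]
      rcases h.sgn_cases hg (hcE v hv) with e | e <;> rw [e]
      · rw [mul_one, mul_inv_cancel, mul_one, h.sgn_mul_right hu (hpE _ (hcE g hg)) (hpE _ (hcE v hv))]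
      · rw [mul_inv_eq_iff_eq_mul.mpr hpz, h.sgn_mul_right hu (mul_mem (hpE _ (hcE g hg)) (hpE _ (hcE v hv)))
          (h.z_mem), h.sgn_z hu, mul_one, h.sgn_mul_right hu (hpE _ (hcE g hg)) (hpE _ (hcE v hv))]
    have hpU2 : p * p * cmm a v * (p * p)⁻¹ ∈ E := h.M0_E _ (mul_mem hpM hpM) _ (hcE v hv)
    have hq2 : cmm v (p * cmm a g * p⁻¹) = cmm g (p * p * cmm a v * (p * p)⁻¹) := by
      have hpp : p * p * p = 1 := by rw [← pow_three', hp3]
      have e : p * p * (p * g * p⁻¹) * (p * p)⁻¹ = g := by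
        rw [show p * p * (p * g * p⁻¹) * (p * p)⁻¹ = (p * p * p) * g * (p * p * p)⁻¹ by group, hpp]
        group
      rw [← h.conj_cmm hp ha, h.sgn_symm ha hv (hpE g hg),
        ← h.sgn_conj (h.M0_z _ (mul_mem hpM hpM)) (hpE g hg) (hcE v hv), e]
    show cmm (g * v) (p * cmm a (g * v) * p⁻¹) = _
    rw [h.sgn_mul_left hg hv (hpE _ (hcE _ (mul_mem hg hv))), hA g hg, hA v hv, hiso, one_mul,
      show cmm v (p * cmm a v * p⁻¹) = 1 from hqv, mul_one, hq2]
    have h3 := hsum v hv hvT g hg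
    have hsq : ∀ u ∈ E, cmm g u * cmm g u = 1 := fun u hu => by
      rcases h.sgn_cases hg hu with e | e <;> rw [e]
      · rw [one_mul]
      · exact h.z_sq
    calc cmm g (p * cmm a v * p⁻¹) * cmm g (p * p * cmm a v * (p * p)⁻¹)
        = (cmm g (cmm a v) * cmm g (cmm a v)) *
          (cmm g (p * cmm a v * p⁻¹) * cmm g (p * p * cmm a v * (p * p)⁻¹)) := by
          rw [hsq _ (hcE v hv), one_mul]
      _ = cmm g (cmm a v) * (cmm g (cmm a v) * cmm g (p * cmm a v * p⁻¹) *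
          cmm g (p * p * cmm a v * (p * p)⁻¹)) := by group
      _ = cmm g (cmm a v) := by rw [h3, mul_one]
  -- the products lie at ordinary points
  have hqfk : ∀ k, q (fk k) = 1 := fun k =>
    (hpoint f (fk k) hf (hfk k) T (hF.isPt T hT) hfT hfz (hfkT k) (hfkz k)).trans hqf
  have hordk : ∀ k, ∃ Q, IsPt E P W z Q ∧ Q ∉ five ∧ Q ≤ Line E z a ∧ cmm a (g * fk k) ∈ Q ∧
      cmm a (g * fk k) ∉ Subgroup.zpowers z := by
    intro k
    have hgk : g * fk k ∈ E := mul_mem hg (hfk k)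
    have hmem : ∀ Q, IsPt E P W z Q → cmm a (g * fk k) ∈ Q → cmm a g * cmm a (fk k) ∈ Q := by
      intro Q hQ hm
      have hc : cmm a (g * fk k) = cmm a g * cmm a (fk k) * cmm g (cmm a (fk k)) := by
        rw [h.cmm_mul ha, show g * cmm a (fk k) * g⁻¹ = cmm g (cmm a (fk k)) * cmm a (fk k) by
          simp only [cmm]; group, ← h.sgn_comm hg (hcE _ (hfk k)) (hcE _ (hfk k)), mul_assoc]
      have hz' : cmm g (cmm a (fk k)) ∈ Q := by
        rcases h.sgn_cases hg (hcE _ (hfk k)) with e | e <;> rw [e]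
        exacts [one_mem _, hQ.1.z_mem]
      have := mul_mem hm (inv_mem hz')
      rwa [hc, mul_inv_cancel_right] at this
    have hnz : cmm a (g * fk k) ∉ Subgroup.zpowers z := by
      intro hh
      have hm := hmem S (hF.isPt S hS) ((Subgroup.zpowers_le.mpr (hF.isPt S hS).1.z_mem) hh)
      exact hST (h.pt_unique (hF.isPt S hS).1 (hF.isPt T hT).1 (hF.isPt S hS).2 (hF.isPt T hT).2
        (by simpa using mul_mem (inv_mem hgS) hm) (hfkT k) (hfkz k))
    obtain ⟨Q, hQB, hQ8, hQm⟩ := h.exists_pt (h.cmm_mem_U ha hgk) hnz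
    have hQ : IsPt E P W z Q := ⟨hQB, hQ8⟩
    have hQa : Q ≤ Line E z a := h.pt_le hQ (h.Line_between ha) hQm (h.cmm_mem_Line hgk) hnz
    refine ⟨Q, hQ, fun hQ5 => ?_, hQa, hQm, hnz⟩
    have hm := hmem Q hQ hQm
    have hQ' : Q = S ∨ Q = T := by
      obtain ⟨u, v, huv, huniv⟩ := Nat.card_eq_two_iff.mp (hF.two_points a ha haz)
      have hall : ∀ w : {S : Subgroup G // S ∈ five ∧ S ≤ Line E z a}, w = u ∨ w = v := fun w => by
        have : w ∈ ({u, v} : Set _) := huniv ▸ Set.mem_univ w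
        simpa using this
      rcases hall ⟨Q, hQ5, hQa⟩ with e1 | e1 <;> rcases hall ⟨S, hS, hSa⟩ with e2 | e2 <;>
        rcases hall ⟨T, hT, hTa⟩ with e3 | e3 <;>
        first
          | exact absurd (congrArg Subtype.val (e2.trans e3.symm)) hST
          | exact Or.inl (congrArg Subtype.val (e1.trans e2.symm))
          | exact Or.inr (congrArg Subtype.val (e1.trans e3.symm))
    rcases hQ' with rfl | rfl
    · exact hST (h.pt_unique (hF.isPt _ hS).1 (hF.isPt T hT).1 (hF.isPt _ hS).2 (hF.isPt T hT).2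
        (by simpa using mul_mem (inv_mem hgS) hm) (hfkT k) (hfkz k))
    · exact hST (h.pt_unique (hF.isPt S hS).1 (hF.isPt _ hT).1 (hF.isPt S hS).2 (hF.isPt _ hT).2
        hgS (by simpa using mul_mem hm (inv_mem (hfkT k))) hgz)
  have hsame : ∀ k, cmm g (cmm a (fk k)) = cmm g (cmm a (fk 0)) := by
    intro k
    rw [← hprod _ (hfk k) (hfkT k) (hqfk k), ← hprod _ (hfk 0) (hfkT 0) (hqfk 0)]
    obtain ⟨Q, hQ, hQ5, hQa, hQm, hQz⟩ := hordk k
    obtain ⟨Q', hQ', hQ5', hQa', hQm', hQz'⟩ := hordk 0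
    exact hkind _ _ (mul_mem hg (hfk 0)) (mul_mem hg (hfk k)) Q' Q hQ' hQ (iff_of_false hQ5' hQ5)
      hQa' hQa hQm' hQz' hQm hQz
  have hgf : cmm g (cmm a f) = 1 := by
    have h3 := hsum f hf hfT g hg
    have e1 : p * cmm a f * p⁻¹ = cmm a (fk 1) := by rw [hfkc, pow_one]
    have e2 : p * p * cmm a f * (p * p)⁻¹ = cmm a (fk 2) := by rw [hfkc, pow_two]
    have e0 : cmm a (fk 0) = cmm a f := by simp [fk]
    rw [e1, e2, hsame 1, hsame 2, e0] at h3
    rcases h.sgn_cases hg (hcE f hf) with e | e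
    · exact e
    · rw [e, h.z_sq, one_mul] at h3
      exact absurd h3 h.z_ne
  -- so `g` centralises the whole line
  apply hgz
  have hall : Line E z a ≤ Subgroup.centralizer ({g} : Set G) := by
    have hcen : ∀ u ∈ E, cmm g u = 1 → u ∈ Subgroup.centralizer ({g} : Set G) := fun u _ hc =>
      Subgroup.mem_centralizer_singleton_iff.mpr (h.cmm_eq_one_iff.mp hc).symm
    have hpts : ∀ Q, IsPt E P W z Q → ∀ v ∈ E, cmm a v ∈ Q → cmm a v ∉ Subgroup.zpowers z →
        (∀ k, cmm g (p ^ k * cmm a v * (p ^ k)⁻¹) = 1) → Q ≤ Subgroup.centralizer ({g} : Set G) := by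
      intro Q hQ v hv hvQ hvz hk x hx
      by_cases hxz : x ∈ Subgroup.zpowers z
      · refine (Subgroup.zpowers_le.mpr (hcen z h.z_mem (h.sgn_z hg))) hxz
      · obtain ⟨k, e | e⟩ := h.pt_elements hQ hp hp1 hvQ hvz hx hxz
        · rw [e]; exact hcen _ (h.M0_E _ (pow_mem hpM k) _ (hcE v hv)) (hk k)
        · rw [e]
          exact mul_mem (hcen z h.z_mem (h.sgn_z hg))
            (hcen _ (h.M0_E _ (pow_mem hpM k) _ (hcE v hv)) (hk k))
    have hgg : cmm g (cmm a g) = 1 := by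
      have h1 : cmm a (g * g) = 1 := by
        rcases h.sq_E g hg with e | e <;> rw [e]
        · simp [cmm]
        · exact h.cmm_eq_one_iff.mpr (h.W_z a ha)
      rw [h.cmm_mul ha] at h1
      have h2 : g * cmm a g * g⁻¹ = cmm a g := by
        rw [eq_inv_of_mul_eq_one_right h1]; exact h.U_inv' (h.cmm_mem_U ha hg)
      show g * cmm a g * g⁻¹ * (cmm a g)⁻¹ = 1
      rw [h2, mul_inv_cancel]
    have hSc : S ≤ Subgroup.centralizer ({g} : Set G) := by
      refine hpts S (hF.isPt S hS) g hg hgS hgz fun k => ?_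
      have hk3 : p ^ k = p ^ (k % 3) := by
        conv_lhs => rw [← Nat.div_add_mod k 3, pow_add, pow_mul, hp3, one_pow, one_mul]
      rw [hk3]
      have h2 := h.sigma_conj hp hp1 (h.cmm_mem_U ha hg)
      rcases (show k % 3 = 0 ∨ k % 3 = 1 ∨ k % 3 = 2 by omega) with e | e | e <;> rw [e]
      · simpa using hgg
      · rw [pow_one]; exact hiso
      · rw [pow_two]
        have h2' : p * p * cmm a g * (p * p)⁻¹ ∈ E := h.M0_E _ (mul_mem hpM hpM) _ (hcE g hg)
        have h3 : cmm g (cmm a g * (p * cmm a g * p⁻¹) * (p * p * cmm a g * (p * p)⁻¹)) = 1 := by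
          rcases h.mem_Z.mp h2 with e' | e' <;> rw [e']
          · simp [cmm]
          · exact h.sgn_z hg
        rwa [h.sgn_mul_right hg (mul_mem (hcE g hg) (hpE _ (hcE g hg))) h2',
          h.sgn_mul_right hg (hcE g hg) (hpE _ (hcE g hg)), hgg, hiso, one_mul, one_mul] at h3
    have hTc : T ≤ Subgroup.centralizer ({g} : Set G) := by
      refine hpts T (hF.isPt T hT) f hf hfT hfz fun k => ?_
      rw [← hfkc, hsame k, show fk 0 = f by simp [fk]]
      exact hgf
    have hsup : S ⊔ T = Line E z a := by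
      refine Subgroup.eq_of_le_of_card_ge (sup_le hSa hTa) ?_
      have h1 := h.card_sup_mul (hF.isPt S hS).1.le_U (hF.isPt T hT).1.le_U
      have h2 : Nat.card ↥(S ⊓ T) ≤ 2 := by
        have : S ⊓ T ≤ Subgroup.zpowers z := fun x hx => by
          by_contra hxz
          exact hST (h.pt_unique (hF.isPt S hS).1 (hF.isPt T hT).1 (hF.isPt S hS).2 (hF.isPt T hT).2
            hx.1 hx.2 hxz)
        have := Subgroup.card_le_of_le this
        rwa [Nat.card_zpowers, h.orderOf_z] at this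
      rw [(hF.isPt S hS).2, (hF.isPt T hT).2] at h1
      rw [h.card_Line ha haz]
      nlinarith
    exact hsup ▸ sup_le hSc hTc
  have hga : g ∈ E ⊓ Subgroup.centralizer (Line E z a : Set G) :=
    ⟨hg, Subgroup.mem_centralizer_iff.mpr fun x hx => Subgroup.mem_centralizer_singleton_iff.mp (hall hx)⟩
  rw [h.centralizer_Line hE ha haz] at hga
  rw [h.cmm_eq_one_iff.mpr (Subgroup.mem_centralizer_singleton_iff.mp hga.2).symm]
  exact one_mem _

/-- A special point is on no three lines of elements `a, b, a b`. -/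
theorem not_concurrent (hE : IsExtraspecial 2 ↥E) {five : Set (Subgroup G)}
    (hF : FiveData E P W M0 z five) {S : Subgroup G} (hS : S ∈ five) {a b : G} (ha : a ∈ W)
    (haz : a ∉ Subgroup.zpowers z) (hb : b ∈ W) (hbz : b ∉ Subgroup.zpowers z)
    (habz : a * b ∉ Subgroup.zpowers z) (hSa : S ≤ Line E z a) (hSb : S ≤ Line E z b)
    (hSab : S ≤ Line E z (a * b)) : False := by
  classical
  -- the elements of `W` whose line passes through `S`
  set s : Set G := {w | w ∈ W ∧ w ∉ Subgroup.zpowers z ∧ S ≤ Line E z w} with hs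
  have hsW : ∀ w ∈ s, w ∈ W := fun w hw => hw.1
  have hzs : ∀ w ∈ s, z * w ∈ s := fun w hw => ⟨mul_mem h.z_W hw.1, h.z_mul_notMem hw.2.1,
    by rw [h.Line_zmul hw.1]; exact hw.2.2⟩
  have hcomm : ∀ u ∈ W, ∀ v ∈ W, u * v = v * u := fun u hu v hv => by
    have h1 := h.W_sq _ (mul_mem hu hv)
    calc u * v = (u * v)⁻¹ := (inv_eq_of_mul_eq_one_right h1).symm
      _ = v⁻¹ * u⁻¹ := mul_inv_rev u v
      _ = v * u := by rw [inv_eq_of_mul_eq_one_right (h.W_sq v hv), inv_eq_of_mul_eq_one_right (h.W_sq u hu)]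
  -- two elements for each line
  have hs10 : Nat.card ↥s = 10 := by
    let Ls := {L : Subgroup G // (∃ b ∈ W, b ∉ Subgroup.zpowers z ∧ L = Line E z b) ∧ S ≤ L}
    haveI : Fintype Ls := Fintype.ofFinite _
    have hex : ∀ L : Ls, ∃ w ∈ s, Line E z w = L.1 := by
      rintro ⟨L, ⟨w, hw, hwz, rfl⟩, hSL⟩
      exact ⟨w, ⟨hw, hwz, hSL⟩, rfl⟩
    choose r hr hrL using hex
    let F : Ls × Bool → ↥s := fun x => ⟨bif x.2 then z * r x.1 else r x.1, by
      cases x.2
      · exact hr _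
      · exact hzs _ (hr _)⟩
    have hFb : Function.Bijective F := by
      constructor
      · rintro ⟨L, i⟩ ⟨L', i'⟩ e
        have e' : (bif i then z * r L else r L) = (bif i' then z * r L' else r L') := congrArg Subtype.val e
        have hL : L = L' := by
          apply Subtype.ext
          rw [← hrL L, ← hrL L']
          cases i <;> cases i' <;> simp only [cond_true, cond_false] at e'
          · rw [e']
          · rw [e', h.Line_zmul (hr L').1]
          · rw [← e', h.Line_zmul (hr L).1]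
          · rw [mul_left_cancel e']
        subst hL
        cases i <;> cases i' <;> simp only [cond_true, cond_false] at e'
        · rfl
        · exact absurd (mul_eq_right.mp e'.symm) h.z_ne
        · exact absurd (mul_eq_right.mp e') h.z_ne
        · rfl
      · rintro ⟨w, hw⟩
        let L : Ls := ⟨Line E z w, ⟨w, hw.1, hw.2.1, rfl⟩, hw.2.2⟩
        rcases h.mem_Z.mp (h.Line_inj hE (hr L).1 (hr L).2.1 hw.1 hw.2.1 (hrL L)) with e | e
        · exact ⟨(L, false), Subtype.ext (show r L = w by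
            rw [eq_inv_of_mul_eq_one_left e]; exact inv_eq_of_mul_eq_one_right (h.W_sq w hw.1))⟩
        · exact ⟨(L, true), Subtype.ext (show z * r L = w by
            rw [← e, hcomm (r L) (hr L).1 w hw.1, mul_assoc, h.W_sq _ (hr L).1, mul_one])⟩
    rw [← Nat.card_congr (Equiv.ofBijective F hFb), Nat.card_prod,
      Nat.card_eq_fintype_card (α := Bool), Fintype.card_bool]
    exact congrArg (· * 2) (hF.five_lines S hS)
  let Nb : G → Set G := fun x => {y | y ∈ s ∧ x * y ∈ s}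
  -- the number of partners is the same for all elements of `s`
  have hconj : ∀ m ∈ M0, S.map (MulAut.conj m).toMonoidHom = S → ∀ w ∈ s, m * w * m⁻¹ ∈ s := by
    intro m hm hmS w hw
    refine ⟨h.M0_W m hm w hw.1, h.conj_notMem_Z hm hw.2.1, fun x hx => ?_⟩
    rw [← hmS] at hx
    obtain ⟨y, hy, rfl⟩ := hx
    exact h.Line_conj hm (hw.2.2 hy)
  have hNz : ∀ x ∈ s, ∀ y, y ∈ Nb (z * x) ↔ y ∈ Nb x := by
    intro x hx y
    constructor
    · rintro ⟨h1, h2⟩
      refine ⟨h1, ?_⟩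
      have := hzs _ h2
      rwa [mul_assoc, h.z_mul_mul] at this
    · rintro ⟨h1, h2⟩
      refine ⟨h1, ?_⟩
      rw [mul_assoc]
      exact hzs _ h2
  have hle : ∀ x ∈ s, ∀ x' ∈ s, Nat.card ↥(Nb x) ≤ Nat.card ↥(Nb x') := by
    intro x hx x' hx'
    obtain ⟨m, hm, hmS, hmL⟩ := hF.flags S S (hF.isPt S hS) (hF.isPt S hS) Iff.rfl x hx.1 hx.2.1 x'
      hx'.1 hx'.2.1 hx.2.2 hx'.2.2
    have hmx := hconj m hm hmS x hx
    have hxx' : ∀ y, y ∈ Nb (m * x * m⁻¹) ↔ y ∈ Nb x' := by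
      intro y
      rcases h.mem_Z.mp (h.Line_inj hE hmx.1 hmx.2.1 hx'.1 hx'.2.1 hmL) with e | e
      · rw [eq_inv_of_mul_eq_one_left e, inv_eq_of_mul_eq_one_right (h.W_sq x' hx'.1)]
      · rw [show m * x * m⁻¹ = z * x' by rw [← e, mul_assoc _ x' x', h.W_sq x' hx'.1, mul_one]]
        exact hNz x' hx' y
    refine Nat.card_le_card_of_injective (fun y : ↥(Nb x) => (⟨m * y * m⁻¹, (hxx' _).mp
      ⟨hconj m hm hmS _ y.2.1, by
        rw [show m * x * m⁻¹ * (m * y * m⁻¹) = m * (x * y) * m⁻¹ by group]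
        exact hconj m hm hmS _ y.2.2⟩⟩ : ↥(Nb x'))) fun y y' e => ?_
    exact Subtype.ext (mul_left_cancel (mul_right_cancel (congrArg Subtype.val e)))
  have haS : a ∈ s := ⟨ha, haz, hSa⟩
  have hn : ∀ x ∈ s, Nat.card ↥(Nb x) = Nat.card ↥(Nb a) := fun x hx =>
    le_antisymm (hle x hx a haS) (hle a haS x hx)
  -- it is a multiple of four
  have h4 : 4 ∣ Nat.card ↥(Nb a) := by
    let H : Subgroup G :=
      { carrier := {1, z, a, z * a}
        one_mem' := Or.inl rfl
        mul_mem' := by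
          have haz' : a * z = z * a := h.W_z a ha
          have haa := h.W_sq a ha
          have l1 : ∀ w, a * (z * w) = z * (a * w) := fun w => by rw [← mul_assoc, haz', mul_assoc]
          have l2 : ∀ w, a * (a * w) = w := fun w => by rw [← mul_assoc, haa, one_mul]
          have l3 := h.z_mul_mul
          have l4 := h.z_sq
          rintro x y (rfl | rfl | rfl | rfl) (rfl | rfl | rfl | rfl) <;>
            simp [mul_assoc, haa, haz', l1, l2, l3, l4]
        inv_mem' := by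
          rintro x (rfl | rfl | rfl | rfl)
          · simp
          · exact Or.inr (Or.inl (inv_eq_of_mul_eq_one_right h.z_sq))
          · exact Or.inr (Or.inr (Or.inl (inv_eq_of_mul_eq_one_right (h.W_sq _ ha))))
          · exact Or.inr (Or.inr (Or.inr (inv_eq_of_mul_eq_one_right (h.W_sq _ (mul_mem h.z_W ha))))) }
    have hH : Nat.card ↥H = 4 := by
      show Nat.card ↥({1, z, a, z * a} : Set G) = 4
      have h1 := h.notMem_Z haz
      have h2 := h.notMem_Z (h.z_mul_notMem haz)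
      rw [Nat.card_coe_set_eq, Set.ncard_insert_of_notMem (by
          simp [h.z_ne.symm, Ne.symm h1.1, Ne.symm h2.1]) (Set.toFinite _),
        Set.ncard_insert_of_notMem (by simp [Ne.symm h1.2, Ne.symm h2.2]) (Set.toFinite _),
        Set.ncard_pair]
      exact fun e => h.z_ne (mul_eq_right.mp e.symm)
    rw [← hH]
    refine card_dvd_of_mul_closed H _ fun k hk y hy => ?_
    obtain ⟨hys, hay⟩ := hy
    have hzay : z * (a * y) = a * (z * y) := by
      rw [← mul_assoc, ← mul_assoc, h.W_z a ha]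
    have haay : a * (a * y) = y := by rw [← mul_assoc, h.W_sq a ha, one_mul]
    rcases hk with rfl | rfl | rfl | rfl
    · rw [one_mul]; exact ⟨hys, hay⟩
    · exact ⟨hzs _ hys, hzay ▸ hzs _ hay⟩
    · exact ⟨hay, by rw [haay]; exact hys⟩
    · refine ⟨by rw [mul_assoc]; exact hzs _ hay, ?_⟩
      rw [show a * (z * a * y) = a * (z * (a * y)) by group, hzay, ← mul_assoc a a, h.W_sq a ha, one_mul]
      exact hzs _ hys
  -- and the ordered pairs fall into triples
  have h3 : 3 ∣ 10 * Nat.card ↥(Nb a) := by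
    haveI := Fintype.ofFinite ↥s
    have hc : Nat.card (Σ x : ↥s, ↥(Nb x)) = 10 * Nat.card ↥(Nb a) := by
      rw [Nat.card_sigma, Finset.sum_const_nat (m := Nat.card ↥(Nb a)) (fun (x : ↥s) _ => hn (x : G) x.2),
        Finset.card_univ, ← Nat.card_eq_fintype_card, hs10]
    rw [← hc]
    have hmem : ∀ (x : ↥s) (y : ↥(Nb x)), ((x : G) * y) ∈ Nb (y : G) := fun x y => ⟨y.2.2, by
      rw [hcomm _ (hsW _ x.2) _ (hsW _ y.2.1), ← mul_assoc, h.W_sq _ (hsW _ y.2.1), one_mul]
      exact x.2⟩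
    let τ : (Σ x : ↥s, ↥(Nb x)) → (Σ x : ↥s, ↥(Nb x)) := fun x =>
      ⟨⟨x.2.1, x.2.2.1⟩, ⟨(x.1 : G) * x.2.1, hmem x.1 x.2⟩⟩
    have hext : ∀ u v : (Σ x : ↥s, ↥(Nb x)), (u.1 : G) = v.1 → (u.2 : G) = v.2 → u = v := by
      rintro ⟨⟨u1, hu1⟩, u2, hu2⟩ ⟨⟨v1, hv1⟩, v2, hv2⟩ e1 e2
      dsimp only at e1 e2
      subst e1 e2
      rfl
    have hτ3 : ∀ x, τ (τ (τ x)) = x := by
      rintro ⟨⟨x, hx⟩, y, hy⟩
      apply hext
      · show y * (x * y) = x
        rw [hcomm x hx.1 y hy.1.1, ← mul_assoc, h.W_sq y hy.1.1, one_mul]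
      · show (x * y) * (y * (x * y)) = y
        rw [hcomm x hx.1 y hy.1.1, ← mul_assoc y y x, h.W_sq y hy.1.1, one_mul, mul_assoc,
          h.W_sq x hx.1, mul_one]
    let σ : Equiv.Perm (Σ x : ↥s, ↥(Nb x)) := ⟨τ, fun x => τ (τ x), hτ3, hτ3⟩
    refine three_dvd_card σ hτ3 ?_
    rintro ⟨⟨x, hx⟩, y, hy⟩ e
    have e1 : y = x := congrArg (fun u : (Σ x : ↥s, ↥(Nb x)) => (u.1 : G)) e
    refine hy.2.2.1 ?_
    rw [e1, h.W_sq x hx.1]
    exact one_mem _
  have hle8 : Nat.card ↥(Nb a) ≤ 8 := by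
    rw [Nat.card_coe_set_eq]
    have hsub : Nb a ⊆ s \ {a, z * a} := by
      rintro y ⟨hy, hay⟩
      refine ⟨hy, ?_⟩
      rintro (rfl | rfl)
      · exact hay.2.1 (by rw [h.W_sq _ hy.1]; exact one_mem _)
      · refine hay.2.1 ?_
        rw [← mul_assoc, h.W_z a ha, mul_assoc, h.W_sq a ha, mul_one]
        exact Subgroup.mem_zpowers z
    have := Set.ncard_le_ncard hsub (Set.toFinite _)
    rw [Set.ncard_sdiff (by rintro y (rfl | rfl); exacts [haS, hzs _ haS]) (Set.toFinite _),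
      Set.ncard_pair (fun e => h.z_ne (mul_eq_right.mp e.symm)), ← Nat.card_coe_set_eq s, hs10] at this
    omega
  have hpos : 0 < Nat.card ↥(Nb a) := by
    haveI : Nonempty ↥(Nb a) := ⟨⟨b, ⟨hb, hbz, hSb⟩, ⟨mul_mem ha hb, habz, hSab⟩⟩⟩
    exact Nat.card_pos
  omega

end HexTransitive

end CfsgLib.JFour
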