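import Cfsg.Agent.Lib.JFour.DuadPoints

/-!
# Groups of Janko-four type: subgroups of `V` without conjugates of `z`

`Duads` is the set of the 276 elements of `V` that are not conjugate to `z`. A subgroup all of whose
nonidentity elements are such has order at most four.
-/

set_option autoImplicit false
set_option linter.unusedSectionVars false
set_option linter.style.haveILetI false

open Cfsg

namespace CfsgLib.JFour

variable {G : Type*} [Group G]

/-- The elements of `V` at special points or in the orbit of the section `A`. -/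
def Duads (E W : Subgroup G) (z : G) (five : Set (Subgroup G)) (A : Set G) : Set G :=
  specU E W z five ∪ Orb E A

/-- The hexad frame together with the fusion of `V`. -/
structure DuadData (E R P W M0 : Subgroup G) (z : G) (five : Set (Subgroup G)) (A : Set G) : Prop where
  hT : HexTransitive E R P W M0 z
  hE : IsExtraspecial 2 ↥E
  fiveData : FiveData E P W M0 z five
  sect : Section E M0 W z A
  iff_conj : ∀ x ∈ HexFrame.U E W ⊔ W, x ≠ 1 → (IsConj z x ↔ x ∉ Duads E W z five A)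
  transZ : ∀ x ∈ HexFrame.U E W ⊔ W, IsConj z x →
    ∃ n ∈ Subgroup.normalizer ((HexFrame.U E W ⊔ W : Subgroup G) : Set G), n * z * n⁻¹ = x
  transD : ∀ x ∈ Duads E W z five A, ∀ y ∈ Duads E W z five A,
    ∃ n ∈ Subgroup.normalizer ((HexFrame.U E W ⊔ W : Subgroup G) : Set G), n * x * n⁻¹ = y

namespace DuadData

open HexFrame HexTransitive

variable [Finite G] {E R P W M0 : Subgroup G} {z : G} {five : Set (Subgroup G)} {A : Set G}
  (D : DuadData E R P W M0 z five A)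
include D

theorem V_comm {a b : G} (ha : a ∈ U E W ⊔ W) (hb : b ∈ U E W ⊔ W) : a * b = b * a :=
  congrArg Subtype.val ((D.hT.V_elem D.hT.W_sq).1.is_comm.comm ⟨a, ha⟩ ⟨b, hb⟩)

theorem V_sq {a : G} (ha : a ∈ U E W ⊔ W) : a * a = 1 := by
  rw [← pow_two]; exact (D.hT.V_elem D.hT.W_sq).2 a ha

theorem z_mem_V : z ∈ U E W ⊔ W := Subgroup.mem_sup_left D.hT.z_U

theorem duad_sub {x : G} (hx : x ∈ Duads E W z five A) :
    x ∈ U E W ⊔ W ∧ x ∉ Subgroup.zpowers z := by
  rcases hx with hx | hx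
  · exact ⟨Subgroup.mem_sup_left hx.1, hx.2.1⟩
  · obtain ⟨h1, h2⟩ := D.hT.Orb_sub D.sect hx
    exact ⟨h1, fun hh => h2 (Subgroup.zpowers_le.mpr D.hT.z_U hh)⟩

theorem duad_ne_one {x : G} (hx : x ∈ Duads E W z five A) : x ≠ 1 :=
  fun e => (D.duad_sub hx).2 (e ▸ one_mem _)

theorem not_conj_of_duad {x : G} (hx : x ∈ Duads E W z five A) : ¬ IsConj z x :=
  fun hc => (D.iff_conj x (D.duad_sub hx).1 (D.duad_ne_one hx)).mp hc hx

theorem duad_of_not_conj {x : G} (hx : x ∈ U E W ⊔ W) (h1 : x ≠ 1) (hc : ¬ IsConj z x) :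
    x ∈ Duads E W z five A := by
  by_contra hh
  exact hc ((D.iff_conj x hx h1).mpr hh)

theorem conj_z_iff (g x : G) : IsConj z (g * x * g⁻¹) ↔ IsConj z x :=
  ⟨fun h => h.trans (isConj_iff.mpr ⟨g⁻¹, by group⟩), fun h => h.trans (isConj_iff.mpr ⟨g, rfl⟩)⟩

theorem duad_conj {n x : G} (hn : n ∈ Subgroup.normalizer ((U E W ⊔ W : Subgroup G) : Set G))
    (hx : x ∈ Duads E W z five A) : n * x * n⁻¹ ∈ Duads E W z five A := by
  refine D.duad_of_not_conj ((Subgroup.mem_normalizer_iff.mp hn x).mp (D.duad_sub hx).1) ?_ ?_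
  · exact fun e => D.duad_ne_one hx (conj_eq_one_iff.mp e)
  · exact fun hc => D.not_conj_of_duad hx ((D.conj_z_iff n x).mp hc)

theorem spec_of_mem_U {x : G} (hx : x ∈ Duads E W z five A) (hU : x ∈ U E W) :
    x ∈ specU E W z five :=
  hx.resolve_right fun h => (D.hT.Orb_sub D.sect h).2 hU

theorem exists_spec : ∃ d, d ∈ specU E W z five := by
  have h := D.hT.card_specU D.fiveData
  by_contra hcon
  push Not at hcon
  rw [Set.eq_empty_of_forall_notMem hcon, Nat.card_coe_set_eq, Set.ncard_empty] at h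
  omega

theorem z_mul_spec {d : G} (hd : d ∈ specU E W z five) : z * d ∈ specU E W z five := by
  obtain ⟨hdU, hdz, S, hS, hdS⟩ := hd
  exact ⟨mul_mem D.hT.z_U hdU, D.hT.z_mul_notMem hdz, S, hS,
    mul_mem (D.fiveData.isPt S hS).1.z_mem hdS⟩

/-- `z` is at six position to a duad exactly when the duad lies in `U`. -/
theorem z_mul_duad_iff {d : G} (hd : d ∈ Duads E W z five A) :
    z * d ∈ Duads E W z five A ↔ d ∈ U E W := by
  refine ⟨fun h => ?_, fun h => Or.inl (D.z_mul_spec (D.spec_of_mem_U hd h))⟩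
  rcases hd with hd | hd
  · exact hd.1
  · exfalso
    rcases h with h | h
    · have hzd := mul_mem D.hT.z_U h.1
      rw [D.hT.z_mul_mul] at hzd
      exact (D.hT.Orb_sub D.sect hd).2 hzd
    · exact Set.disjoint_left.mp (D.hT.disjoint_Orb D.sect) hd ((D.hT.Orb_zmul D.sect d).mpr h)

/-- A triangle with two sides at six position to a conjugate of `z` has all three. -/
theorem six_closed {z0 i j : G} (hz0 : z0 ∈ U E W ⊔ W) (hc : IsConj z z0)
    (hi : i ∈ Duads E W z five A) (hj : j ∈ Duads E W z five A) (hij : i * j ∈ Duads E W z five A)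
    (hzi : z0 * i ∈ Duads E W z five A) (hzj : z0 * j ∈ Duads E W z five A) :
    z0 * (i * j) ∈ Duads E W z five A := by
  obtain ⟨n, hn, rfl⟩ := D.transZ z0 hz0 hc
  have hn' := inv_mem hn
  have key : ∀ x ∈ Duads E W z five A, n * z * n⁻¹ * x ∈ Duads E W z five A →
      n⁻¹ * x * n ∈ U E W := by
    intro x hx hzx
    have h1 := D.duad_conj hn' hx
    have h2 := D.duad_conj hn' hzx
    rw [inv_inv] at h1 h2
    rw [show n⁻¹ * (n * z * n⁻¹ * x) * n = z * (n⁻¹ * x * n) by group] at h2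
    exact (D.z_mul_duad_iff h1).mp h2
  have h3 := D.duad_conj hn' hij
  rw [inv_inv] at h3
  have hU : n⁻¹ * (i * j) * n ∈ U E W := by
    rw [show n⁻¹ * (i * j) * n = (n⁻¹ * i * n) * (n⁻¹ * j * n) by group]
    exact mul_mem (key i hi hzi) (key j hj hzj)
  have h4 := D.duad_conj hn ((D.z_mul_duad_iff h3).mpr hU)
  rwa [show n * (z * (n⁻¹ * (i * j) * n)) * n⁻¹ = n * z * n⁻¹ * (i * j) by group] at h4

theorem orb_conj {f x : G} (hf : f ∈ E) (hx : x ∈ Orb E A) : f * x * f⁻¹ ∈ Orb E A := by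
  obtain ⟨a, ha, g, hg, rfl⟩ := hx
  refine ⟨a, ha, f * g, mul_mem hf hg, ?_⟩
  have haW := (D.sect.sub a ha).1
  rw [← D.hT.conj_W_eq hg haW, ← D.hT.conj_W_eq (mul_mem hf hg) haW]
  group

/-- A subgroup of `V` without conjugates of `z` meeting `U` has order at most four. -/
theorem pure_le_four_aux {K : Subgroup G} (hKV : K ≤ U E W ⊔ W)
    (hK : ∀ k ∈ K, k ≠ 1 → k ∈ Duads E W z five A) {t : G} (htK : t ∈ K)
    (ht : t ∈ specU E W z five) : Nat.card ↥K ≤ 4 := by
  classical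
  have h := D.hT
  have hF := D.fiveData
  obtain ⟨htU, htz, S, hS, htS⟩ := ht
  have hSU := (hF.isPt S hS).1.le_U
  have ht1 : t ≠ 1 := fun e => htz (e ▸ one_mem _)
  have hzK : z ∉ K := fun hh => (D.duad_sub (hK z hh h.z_ne)).2 (Subgroup.mem_zpowers z)
  set K1 : Subgroup G := K ⊓ U E W with hK1
  have hK1S : K1 ≤ S := by
    rintro k ⟨hk, hkU⟩
    by_cases hk1 : k = 1
    · exact hk1 ▸ one_mem _
    by_cases hkt : k * t = 1
    · rw [eq_inv_of_mul_eq_one_left hkt]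
      exact inv_mem htS
    obtain ⟨-, hkz, Q, hQ, hkQ⟩ := D.spec_of_mem_U (hK k hk hk1) hkU
    exact (h.same_point hF hQ hS hkQ hkz htS htz
      (D.spec_of_mem_U (hK _ (mul_mem hk htK) hkt) (mul_mem hkU htU))) ▸ hkQ
  have hK1c : Nat.card ↥K1 ≤ 4 := by
    have hd := Subgroup.card_dvd_of_le hK1S
    rw [(hF.isPt S hS).2] at hd
    have hne : Nat.card ↥K1 ≠ 8 := by
      intro e
      have e' : K1 = S := Subgroup.eq_of_le_of_card_ge hK1S (by rw [e, (hF.isPt S hS).2])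
      exact hzK (Subgroup.mem_inf.mp (e' ▸ (hF.isPt S hS).1.z_mem : z ∈ K1)).1
    have := Nat.le_of_dvd (by norm_num) hd
    interval_cases hh : Nat.card ↥K1 <;> omega
  by_cases hKU : K ≤ U E W
  · rwa [show K1 = K from inf_eq_left.mpr hKU] at hK1c
  obtain ⟨u, huK, huU⟩ := SetLike.not_le_iff_exists.mp hKU
  have horb : ∀ v ∈ K, v ∉ U E W → v ∈ Orb E A := fun v hv hvU => by
    have hv1 : v ≠ 1 := fun e => hvU (e ▸ one_mem _)
    exact (hK v hv hv1).resolve_left fun hh => hvU hh.1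
  have hrep : ∀ v ∈ K, v ∉ U E W → ∀ k ∈ K1, ∃ a ∈ A, ∃ f ∈ E, ∃ g ∈ E,
      v = cmm a f * a ∧ k * cmm a f = cmm a g := by
    intro v hv hvU k hk
    obtain ⟨hkK, hkU⟩ := Subgroup.mem_inf.mp hk
    obtain ⟨a, ha, f, hf, rfl⟩ := horb v hv hvU
    have hkvU : k * (cmm a f * a) ∉ U E W := fun hh => hvU (by simpa using mul_mem (inv_mem hkU) hh)
    obtain ⟨b, hb, g, hg, e⟩ := horb _ (mul_mem hkK hv) hkvU
    rw [← mul_assoc] at e
    obtain ⟨rfl, e'⟩ := h.section_unique D.sect ha hb (mul_mem hkU (h.cmm_mem_U (D.sect.sub a ha).1 hf))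
      (h.cmm_mem_U (D.sect.sub b hb).1 hg) e
    exact ⟨a, ha, f, hf, g, hg, rfl, e'⟩
  have hSline : ∀ v ∈ K, v ∉ U E W → ∃ a ∈ A, ∃ c ∈ U E W, v = c * a ∧ S ≤ Line E z a := by
    intro v hv hvU
    obtain ⟨a, ha, f, hf, g, hg, e1, e2⟩ := hrep v hv hvU t ⟨htK, htU⟩
    have haW := (D.sect.sub a ha).1
    refine ⟨a, ha, _, h.cmm_mem_U haW hf, e1, h.pt_le (hF.isPt S hS) (h.Line_between haW) htS ?_ htz⟩
    rw [show t = cmm a g * (cmm a f)⁻¹ by rw [← e2]; group]
    exact mul_mem (h.cmm_mem_Line hg) (inv_mem (h.cmm_mem_Line hf))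
  by_cases hK14 : Nat.card ↥K1 = 4
  · exfalso
    obtain ⟨a, ha, f, hf, hue⟩ : ∃ a ∈ A, ∃ f ∈ E, u = cmm a f * a := horb u huK huU
    have haW := (D.sect.sub a ha).1
    have haz := (D.sect.sub a ha).2
    have hua : f⁻¹ * u * f = a := by
      rw [hue, ← h.conj_W_eq hf haW]; group
    have hlift : ∀ k ∈ K1, ∃ g ∈ E, f⁻¹ * k * f = cmm a g ∧ f⁻¹ * k * f ∈ S := by
      intro k hk
      obtain ⟨hkK, hkU⟩ := Subgroup.mem_inf.mp hk
      have hkuU : k * u ∉ U E W := fun hh => huU (by simpa using mul_mem (inv_mem hkU) hh)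
      have h1 := D.orb_conj (inv_mem hf) (horb _ (mul_mem hkK huK) hkuU)
      rw [inv_inv, show f⁻¹ * (k * u) * f = (f⁻¹ * k * f) * (f⁻¹ * u * f) by group, hua] at h1
      obtain ⟨b, hb, g, hg, e⟩ := h1
      have hk' : f⁻¹ * k * f = k ∨ f⁻¹ * k * f = z * k := by
        simpa using h.conj_E_eq (inv_mem hf) (U_le hkU)
      have hkU' : f⁻¹ * k * f ∈ U E W := by
        rcases hk' with e | e <;> rw [e]
        exacts [hkU, mul_mem h.z_U hkU]
      obtain ⟨rfl, e'⟩ := h.section_unique D.sect ha hb hkU' (h.cmm_mem_U (D.sect.sub b hb).1 hg) e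
      refine ⟨g, hg, e', ?_⟩
      rcases hk' with e | e <;> rw [e]
      exacts [hK1S hk, mul_mem (hF.isPt S hS).1.z_mem (hK1S hk)]
    obtain ⟨k2, hk2, hk2t⟩ : ∃ k2 ∈ K1, k2 ∉ Subgroup.zpowers t := by
      by_contra hcon
      push Not at hcon
      have := Subgroup.card_le_of_le (show K1 ≤ Subgroup.zpowers t from hcon)
      rw [hK14, Nat.card_zpowers] at this
      have h2 : orderOf t ≤ 2 := orderOf_le_of_pow_eq_one two_pos (by rw [pow_two]; exact h.U_sq htU)
      omega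
    obtain ⟨g1, hg1, e1, h1S⟩ := hlift t ⟨htK, htU⟩
    obtain ⟨g2, hg2, e2, h2S⟩ := hlift k2 hk2
    obtain ⟨g3, hg3, e3, -⟩ := hlift (t * k2) (mul_mem ⟨htK, htU⟩ hk2)
    have hsum : cmm a g1 * cmm a g2 = cmm a g3 := by rw [← e1, ← e2, ← e3]; group
    have hgg : cmm a (g1 * g2) = cmm a g3 * cmm g1 (cmm a g2) := by
      have hU2 := U_le (h.cmm_mem_U haW hg2)
      rw [← hsum, h.cmm_mul haW,
        show g1 * cmm a g2 * g1⁻¹ = cmm g1 (cmm a g2) * cmm a g2 by simp only [cmm]; group,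
        ← h.sgn_comm hg1 hU2 hU2, mul_assoc]
    have hmod : cmm a (g1 * g2) = cmm a g3 ∨ cmm a (g1 * g2) = z * cmm a g3 := by
      rcases h.sgn_cases hg1 (U_le (h.cmm_mem_U haW hg2)) with e | e <;> rw [e] at hgg
      · exact Or.inl (by rw [hgg, mul_one])
      · exact Or.inr (by rw [hgg, h.z_comm_of_U (h.cmm_mem_U haW hg3)])
    have hσ : cmm g1 (cmm a g2) = 1 := by
      rw [(h.cmm_eq_of_eq_mod haW hg3 (mul_mem hg1 hg2) hmod).1] at hgg
      exact mul_eq_left.mp hgg.symm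
    have hgz : ∀ k ∈ K1, k ≠ 1 → f⁻¹ * k * f ∉ Subgroup.zpowers z := by
      intro k hk hk1 hh
      rcases h.mem_Z.mp hh with e | e
      · exact hk1 (conj_eq_one_iff.mp (show f⁻¹ * k * f⁻¹⁻¹ = 1 by rw [inv_inv]; exact e))
      · refine hzK ?_
        have hfz : f * z * f⁻¹ = z := mul_inv_eq_iff_eq_mul.mpr (h.E_z hf)
        rw [← show k = z by rw [← hfz, ← e]; group]
        exact hk.1
    have hk21 : k2 ≠ 1 := fun e => hk2t (e ▸ one_mem _)
    have hne1 := hgz t ⟨htK, htU⟩ ht1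
    have hne2 := hgz k2 hk2 hk21
    rw [e1] at h1S hne1
    rw [e2] at h2S hne2
    obtain ⟨p, hp, hp1⟩ := h.exists_gen
    obtain ⟨k, hk⟩ := h.pt_elements (hF.isPt S hS) hp hp1 h1S hne1 h2S hne2
    have hpk : p ^ k ∈ P := pow_mem hp k
    have hpk1 : p ^ k ≠ 1 := by
      intro e
      rw [e] at hk
      simp only [one_mul, inv_one, mul_one] at hk
      rw [← e1, ← e2] at hk
      rcases hk with e' | e'
      · exact hk2t (by rw [mul_left_cancel (mul_right_cancel e')]; exact Subgroup.mem_zpowers t)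
      · refine hzK ?_
        have e'' : k2 = (f * z * f⁻¹) * t := by
          rw [show k2 = f * (f⁻¹ * k2 * f) * f⁻¹ by group, e']; group
        rw [mul_inv_eq_iff_eq_mul.mpr (h.E_z hf)] at e''
        rw [show z = k2 * t by rw [e'', mul_assoc, h.U_sq htU, mul_one]]
        exact mul_mem hk2.1 htK
    have hg1' : p ^ k * g1 * (p ^ k)⁻¹ ∈ E := h.M0_E _ (h.P_le_M0 hpk) g1 hg1
    have hk' : cmm a g2 = cmm a (p ^ k * g1 * (p ^ k)⁻¹) := by
      refine (h.cmm_eq_of_eq_mod haW hg1' hg2 ?_).1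
      rwa [h.conj_cmm hpk haW]
    rw [hk', h.conj_cmm hpk haW] at hσ
    exact h.anisotropic D.hE hF hS haW haz
      (h.pt_le (hF.isPt S hS) (h.Line_between haW) h1S (h.cmm_mem_Line hg1) hne1)
      hg1 h1S hne1 hpk hpk1 hσ
  have hK12 : Nat.card ↥K1 ≤ 2 := by
    have hd := Subgroup.card_dvd_of_le hK1S
    rw [(hF.isPt S hS).2] at hd
    interval_cases hh : Nat.card ↥K1 <;> omega
  have hcoset : ∀ v ∈ K, v ∉ U E W → u * v ∈ U E W := by
    intro v hv hvU
    by_contra huv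
    obtain ⟨a, ha, c, hc, rfl, hSa⟩ := hSline u huK huU
    obtain ⟨b, hb, c', hc', rfl, hSb⟩ := hSline v hv hvU
    obtain ⟨d, hd, c'', hc'', e, hSd⟩ := hSline _ (mul_mem huK hv) huv
    have haW := (D.sect.sub a ha).1
    have hbW := (D.sect.sub b hb).1
    have hdW := (D.sect.sub d hd).1
    have e' : c * a * (c' * b) = (c * c') * (a * b) := by
      rw [show c * a * (c' * b) = c * (a * c') * b by group, U_comm hc' haW]; group
    rw [e'] at e huv
    have habz : a * b ∉ Subgroup.zpowers z := fun hh => huv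
      (mul_mem (mul_mem hc hc') ((Subgroup.zpowers_le.mpr h.z_U) hh))
    have hdab : a * b * d⁻¹ ∈ Subgroup.zpowers z := by
      refine h.mem_Z.mpr (h.W_inf_E (mul_mem (mul_mem haW hbW) (inv_mem hdW)) (U_le (W := W) ?_))
      rw [show a * b * d⁻¹ = (c * c')⁻¹ * (c * c' * (a * b)) * d⁻¹ by group, e,
        show (c * c')⁻¹ * (c'' * d) * d⁻¹ = (c * c')⁻¹ * c'' by group]
      exact mul_mem (inv_mem (mul_mem hc hc')) hc''
    refine h.not_concurrent D.hE hF hS haW (D.sect.sub a ha).2 hbW (D.sect.sub b hb).2 habz hSa hSb ?_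
    rcases h.mem_Z.mp hdab with e2 | e2
    · rwa [mul_inv_eq_one.mp e2]
    · rwa [mul_inv_eq_iff_eq_mul.mp e2, h.Line_zmul hdW]
  have hsub : (K : Set G) ⊆ (K1 : Set G) ∪ (u * ·) '' (K1 : Set G) := by
    intro v hv
    by_cases hvU : v ∈ U E W
    · exact Or.inl ⟨hv, hvU⟩
    · refine Or.inr ⟨u * v, ⟨mul_mem huK hv, hcoset v hv hvU⟩, ?_⟩
      show u * (u * v) = v
      rw [← mul_assoc, D.V_sq (hKV huK), one_mul]
  have := (Set.ncard_le_ncard hsub (Set.toFinite _)).trans (Set.ncard_union_le _ _)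
  rw [Set.ncard_image_of_injective _ (mul_right_injective u), ← Nat.card_coe_set_eq,
    ← Nat.card_coe_set_eq] at this
  simp only [SetLike.coe_sort_coe] at this
  omega

/-- A subgroup of a conjugate of `V` without conjugates of `z` has order at most four. -/
theorem pure_le_four {K : Subgroup G} (g : G)
    (hKV : K ≤ (U E W ⊔ W).map (MulAut.conj g).toMonoidHom)
    (hK : ∀ k ∈ K, k ≠ 1 → ¬ IsConj z k) : Nat.card ↥K ≤ 4 := by
  by_cases hbot : K = ⊥
  · rw [hbot, Subgroup.card_bot]; norm_num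
  obtain ⟨k, hk, hk1⟩ := (K.bot_or_exists_ne_one).resolve_left hbot
  obtain ⟨k₀, hk₀, hke⟩ := hKV hk
  simp only [MulEquiv.coe_toMonoidHom, MulAut.conj_apply] at hke
  have hk₀D : k₀ ∈ Duads E W z five A := by
    refine D.duad_of_not_conj hk₀ (fun e => hk1 (by rw [← hke, e]; group)) fun hc => hK k hk hk1 ?_
    rw [← hke]; exact (D.conj_z_iff g k₀).mpr hc
  obtain ⟨d, hd⟩ := D.exists_spec
  obtain ⟨n, hn, hnd⟩ := D.transD k₀ hk₀D d (Or.inl hd)
  set K' := K.map (MulAut.conj (n * g⁻¹)).toMonoidHom with hK'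
  have hK'V : K' ≤ U E W ⊔ W := by
    rintro _ ⟨x, hx, rfl⟩
    obtain ⟨y, hy, rfl⟩ := hKV hx
    have := (Subgroup.mem_normalizer_iff.mp hn y).mp hy
    simpa [mul_assoc] using this
  have hK'D : ∀ x ∈ K', x ≠ 1 → x ∈ Duads E W z five A := by
    rintro _ ⟨x, hx, rfl⟩ hx1
    refine D.duad_of_not_conj (hK'V ⟨x, hx, rfl⟩) hx1 fun hc => hK x hx ?_ ?_
    · exact fun e => hx1 (by rw [e, map_one])
    · exact (D.conj_z_iff (n * g⁻¹) x).mp hc
  have hdK : d ∈ K' := by
    refine ⟨k, hk, ?_⟩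
    show n * g⁻¹ * k * (n * g⁻¹)⁻¹ = d
    rw [← hke, ← hnd]; group
  have := D.pure_le_four_aux hK'V hK'D hdK hd
  rwa [hK', Subgroup.card_map_of_injective (MulAut.conj (n * g⁻¹)).injective] at this

end DuadData

end CfsgLib.JFour
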