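import Cfsg.Agent.Lib.LargeSubgroups.ExtraspecialPlus
import Mathlib

/-!
Two small bounds on elementary abelian 2-subgroups: at most 4 in `A₆`, at most `2 ^ 7` in an
extraspecial group of order `2 ^ 13`.
-/

set_option autoImplicit false

open scoped Pointwise

namespace CfsgLib.JFour

/-- An elementary abelian 2-subgroup of the alternating group of degree 6 has order at most 4. -/
theorem card_elem_alt_six (S : Subgroup ↥(alternatingGroup (Fin 6)))
    (hc : ∀ a ∈ S, ∀ b ∈ S, a * b = b * a) (h2 : ∀ a ∈ S, a * a = 1) : Nat.card ↥S ≤ 4 := by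
  haveI : Fact (Nat.Prime 2) := ⟨Nat.prime_two⟩
  have hp : IsPGroup 2 ↥S := fun a =>
    ⟨1, Subtype.ext (by rw [pow_one, pow_two]; exact h2 a a.2)⟩
  obtain ⟨k, hk⟩ := IsPGroup.iff_card.1 hp
  have hdvd := S.card_subgroup_dvd_card
  have hcard : Nat.card ↥(alternatingGroup (Fin 6)) = 360 := by
    rw [nat_card_alternatingGroup, Nat.card_fin]; rfl
  rw [hcard, hk] at hdvd
  rw [hk]
  by_contra hcon
  have hk3 : k = 3 := by
    have h1 : k ≤ 3 := by
      by_contra h
      exact absurd ((pow_dvd_pow 2 (show 4 ≤ k by omega)).trans hdvd) (by norm_num)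
    by_contra h
    exact hcon (le_trans (Nat.pow_le_pow_right two_pos (show k ≤ 2 by omega)) (by norm_num))
  subst hk3
  let T : Sylow 2 ↥(alternatingGroup (Fin 6)) := Sylow.ofCard S (by
    rw [hk, hcard, show (360 : ℕ) = 45 * 2 ^ 3 by norm_num,
      Nat.factorization_mul (by norm_num) (by norm_num), Finsupp.add_apply,
      Nat.Prime.factorization_pow Nat.prime_two, Finsupp.single_eq_same,
      Nat.factorization_eq_zero_of_not_dvd (by norm_num : ¬ 2 ∣ 45)])
  let x : ↥(alternatingGroup (Fin 6)) :=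
    ⟨Equiv.swap 0 2 * Equiv.swap 2 1 * Equiv.swap 1 3 * Equiv.swap 4 5, by
      rw [Equiv.Perm.mem_alternatingGroup]; decide⟩
  have hx4 : orderOf x = 4 := orderOf_eq_prime_pow (p := 2) (n := 1) (by decide) (by decide)
  have hpx : IsPGroup 2 ↥(Subgroup.zpowers x) :=
    IsPGroup.of_card (n := 2) (by rw [Nat.card_zpowers, hx4]; rfl)
  obtain ⟨Q, hQ⟩ := hpx.exists_le_sylow
  obtain ⟨g, hg⟩ := MulAction.exists_smul_eq ↥(alternatingGroup (Fin 6)) Q T
  have hxT : MulAut.conj g x ∈ S := by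
    have h' : MulAut.conj g x ∈ MulAut.conj g • (Q : Subgroup ↥(alternatingGroup (Fin 6))) :=
      Subgroup.smul_mem_pointwise_smul x (MulAut.conj g) _ (hQ (Subgroup.mem_zpowers x))
    rw [← Sylow.coe_subgroup_smul] at h'
    change MulAut.conj g x ∈ ((g • Q : Sylow 2 ↥(alternatingGroup (Fin 6))) : Subgroup _) at h'
    rw [hg] at h'
    exact h'
  have h3 := h2 _ hxT
  rw [← map_mul, map_eq_one_iff _ (MulAut.conj g).injective, ← pow_two] at h3
  have := orderOf_dvd_of_pow_eq_one h3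
  rw [hx4] at this
  norm_num at this

/-- An abelian subgroup of exponent 2 of an extraspecial group of order `2 ^ 13` has order `≤ 2 ^ 7`. -/
theorem card_elem_extraspecial {E : Type*} [Group E] [Finite E] (hE : Cfsg.IsExtraspecial 2 E)
    (hcard : Nat.card E = 2 ^ 13) (D : Subgroup E) (hc : ∀ a ∈ D, ∀ b ∈ D, a * b = b * a) :
    Nat.card ↥D ≤ 2 ^ 7 := by
  obtain ⟨u, hgood, hcen⟩ := CfsgLib.LargeSubgroups.exists_good_top hE
  haveI : Fact (Nat.Prime 2) := ⟨Nat.prime_two⟩
  set U := D ⊔ Subgroup.zpowers u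
  have hEp : IsPGroup 2 E := IsPGroup.of_card hcard
  obtain ⟨k, hk⟩ := IsPGroup.iff_card.1 (hEp.to_subgroup U)
  have huz : u ∈ Subgroup.center E := (hcen u).2 (Or.inr rfl)
  have hUc : U ≤ Subgroup.centralizer (U : Set E) := by
    refine sup_le (fun a ha => ?_) (Subgroup.zpowers_le.2 (Subgroup.center_le_centralizer _ huz))
    refine Subgroup.mem_centralizer_iff.2 fun y hy => ?_
    have hle : U ≤ Subgroup.centralizer ({a} : Set E) :=
      sup_le (fun b hb => Subgroup.mem_centralizer_singleton_iff.2 (hc b hb a ha))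
        (Subgroup.zpowers_le.2 (Subgroup.center_le_centralizer _ huz))
    exact Subgroup.mem_centralizer_singleton_iff.1 (hle hy)
  have hk1 : 1 ≤ k := by
    by_contra h
    have h1 : Nat.card ↥U = 1 := by rw [hk, show k = 0 by omega, pow_zero]
    have hu : u ∈ U := Subgroup.mem_sup_right (Subgroup.mem_zpowers u)
    have this : u ∈ (⊥ : Subgroup E) := Subgroup.card_eq_one.1 h1 ▸ hu
    exact hgood.ne_one (Subgroup.mem_bot.1 this)
  obtain ⟨j, rfl⟩ : ∃ j, k = j + 1 := ⟨k - 1, by omega⟩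
  have h1 := CfsgLib.LargeSubgroups.card_mul_card_centralizer_le hgood j U
    (Subgroup.mem_sup_right (Subgroup.mem_zpowers u)) hk
  have h2 : Nat.card ↥U * Nat.card ↥U ≤ 2 * Nat.card E :=
    le_trans (Nat.mul_le_mul_left _ (Subgroup.card_le_of_le hUc)) h1
  have h3 : Nat.card ↥D ≤ Nat.card ↥U := Subgroup.card_le_of_le le_sup_left
  rw [hcard] at h2
  norm_num at h2 ⊢
  nlinarith

end CfsgLib.JFour
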