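import Mathlib

/-!
A projective plane of order four with a symmetry group acting like `A₆`: a hyperoval and its fifteen secants.
-/

set_option autoImplicit false

namespace CfsgLib.JFour

namespace Plane

/-- Four distinct points as an embedding. -/
def four {X : Type*} (a b c d : X) (hab : a ≠ b) (hac : a ≠ c) (had : a ≠ d) (hbc : b ≠ c) (hbd : b ≠ d)
    (hcd : c ≠ d) : Fin 4 ↪ X :=
  ⟨![a, b, c, d], by
    intro i j h
    fin_cases i <;> fin_cases j <;> first | rfl | exact absurd h ‹_› | exact absurd h.symm ‹_›⟩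

theorem four_mem {X : Type*} {T : Finset X} {a b c d : X} (hab : a ≠ b) (hac : a ≠ c) (had : a ≠ d) (hbc : b ≠ c)
    (hbd : b ≠ d) (hcd : c ≠ d) (ha : a ∈ T) (hb : b ∈ T) (hc : c ∈ T) (hd : d ∈ T) :
    ∀ i, four a b c d hab hac had hbc hbd hcd i ∈ T := by
  intro i
  fin_cases i
  exacts [ha, hb, hc, hd]

/-- An invariant set of six elements, not fixed pointwise, carries a 4-transitive action. -/
theorem four_trans {X G : Type*} [Group G] [MulAction G X]
    (hsix : ∀ f : G →* Equiv.Perm (Fin 6), f = 1 ∨ alternatingGroup (Fin 6) ≤ f.range)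
    (T : Finset X) (hT : T.card = 6) (hinv : ∀ (g : G) x, x ∈ T → g • x ∈ T)
    (hmove : ∃ x ∈ T, ∃ g : G, g • x ≠ x)
    (u v : Fin 4 ↪ X) (hu : ∀ i, u i ∈ T) (hv : ∀ i, v i ∈ T) : ∃ g : G, ∀ i, g • u i = v i := by
  classical
  let act : G →* Equiv.Perm T :=
    { toFun := fun g =>
        { toFun := fun x => ⟨g • (x : X), hinv g x x.2⟩
          invFun := fun x => ⟨g⁻¹ • (x : X), hinv g⁻¹ x x.2⟩
          left_inv := fun x => Subtype.ext (inv_smul_smul g (x : X))
          right_inv := fun x => Subtype.ext (smul_inv_smul g (x : X)) }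
      map_one' := Equiv.ext fun x => Subtype.ext (one_smul G (x : X))
      map_mul' := fun g h => Equiv.ext fun x => Subtype.ext (mul_smul g h (x : X)) }
  let e : T ≃ Fin 6 := (T.equivFinOfCardEq hT)
  let f : G →* Equiv.Perm (Fin 6) := e.permCongrHom.toMonoidHom.comp act
  have hfe : ∀ g (x : T), f g (e x) = e ⟨g • (x : X), hinv g x x.2⟩ := by
    intro g x
    show e.permCongr (act g) (e x) = _
    rw [Equiv.permCongr_apply, Equiv.symm_apply_apply]
    rfl
  rcases hsix f with hf | hf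
  · obtain ⟨x, hx, g, hg⟩ := hmove
    have h := hfe g ⟨x, hx⟩
    rw [hf] at h
    exact absurd (congrArg Subtype.val (e.injective h)).symm hg
  · let u' : Fin 4 ↪ Fin 6 :=
      ⟨fun i => e ⟨u i, hu i⟩, fun i j h => u.injective (congrArg Subtype.val (e.injective h))⟩
    let v' : Fin 4 ↪ Fin 6 :=
      ⟨fun i => e ⟨v i, hv i⟩, fun i j h => v.injective (congrArg Subtype.val (e.injective h))⟩
    have h4 : MulAction.IsMultiplyPretransitive (alternatingGroup (Fin 6)) (Fin 6) 4 := by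
      have := alternatingGroup.isMultiplyPretransitive (α := Fin 6)
      simpa using this
    obtain ⟨π, hπ⟩ := MulAction.exists_smul_eq (alternatingGroup (Fin 6)) u' v'
    obtain ⟨g, hg⟩ := hf π.2
    refine ⟨g, fun i => ?_⟩
    have h := DFunLike.congr_fun hπ i
    have h1 : (π : Equiv.Perm (Fin 6)) (e ⟨u i, hu i⟩) = e ⟨v i, hv i⟩ := h
    rw [← hg, hfe] at h1
    exact congrArg Subtype.val (e.injective h1)

/-- The same for pairs. -/
theorem two_trans {X G : Type*} [Group G] [MulAction G X]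
    (hsix : ∀ f : G →* Equiv.Perm (Fin 6), f = 1 ∨ alternatingGroup (Fin 6) ≤ f.range)
    (T : Finset X) (hT : T.card = 6) (hinv : ∀ (g : G) x, x ∈ T → g • x ∈ T)
    (hmove : ∃ x ∈ T, ∃ g : G, g • x ≠ x)
    {a b a' b' : X} (ha : a ∈ T) (hb : b ∈ T) (hab : a ≠ b) (ha' : a' ∈ T) (hb' : b' ∈ T) (hab' : a' ≠ b') :
    ∃ g : G, g • a = a' ∧ g • b = b' := by
  classical
  have key : ∀ {p q : X}, p ∈ T → q ∈ T → p ≠ q → ∃ u : Fin 4 ↪ X, (∀ i, u i ∈ T) ∧ u 0 = p ∧ u 1 = q := by
    intro p q hp hq hpq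
    have h : 1 < ((T.erase p).erase q).card := by
      rw [Finset.card_erase_of_mem (Finset.mem_erase.mpr ⟨Ne.symm hpq, hq⟩), Finset.card_erase_of_mem hp, hT]
      norm_num
    obtain ⟨r, hr, s, hs, hrs⟩ := Finset.one_lt_card.mp h
    simp only [Finset.mem_erase] at hr hs
    exact ⟨four p q r s hpq (Ne.symm hr.2.1) (Ne.symm hs.2.1) (Ne.symm hr.1) (Ne.symm hs.1) hrs,
      four_mem _ _ _ _ _ _ hp hq hr.2.2 hs.2.2, rfl, rfl⟩
  obtain ⟨u, hu, hu0, hu1⟩ := key ha hb hab
  obtain ⟨v, hv, hv0, hv1⟩ := key ha' hb' hab'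
  obtain ⟨g, hg⟩ := four_trans hsix T hT hinv hmove u v hu hv
  exact ⟨g, by rw [← hu0, ← hv0]; exact hg 0, by rw [← hu1, ← hv1]; exact hg 1⟩

end Plane

open Plane in
set_option maxHeartbeats 1000000 in
theorem hyperoval {Pt Ln G : Type*} [Finite Pt] [Finite Ln] [Group G] [MulAction G Pt] [MulAction G Ln]
    (mem : Pt → Ln → Prop) (hmem : ∀ (g : G) p l, mem p l → mem (g • p) (g • l))
    (hPt : Nat.card Pt = 21) (hLn : Nat.card Ln = 21)
    (h5 : ∀ l, Nat.card {p : Pt // mem p l} = 5) (h5' : ∀ p, Nat.card {l : Ln // mem p l} = 5)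
    (hmeet : ∀ l m, l ≠ m → ∃! p, mem p l ∧ mem p m)
    (hjoin : ∀ p q, p ≠ q → ∃! l, mem p l ∧ mem q l)
    (S : Set Ln) (hS : Nat.card S = 15) (hSinv : ∀ (g : G) l, l ∈ S → g • l ∈ S)
    (hsix : ∀ f : G →* Equiv.Perm (Fin 6), f = 1 ∨ alternatingGroup (Fin 6) ≤ f.range)
    (hfixP : ∀ p : Pt, ∃ g : G, g • p ≠ p) (hfixL : ∀ l : Ln, ∃ g : G, g • l ≠ l) :
    ∃ five : Set Pt, Nat.card five = 6 ∧
      (∀ p ∈ five, Nat.card {l : Ln // l ∈ S ∧ mem p l} = 5) ∧
      (∀ p, p ∉ five → Nat.card {l : Ln // l ∈ S ∧ mem p l} = 3) ∧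
      (∀ l ∈ S, Nat.card {p : Pt // p ∈ five ∧ mem p l} = 2) ∧
      (∀ p q : Pt, (p ∈ five ↔ q ∈ five) → ∃ g : G, g • p = q) ∧
      (∀ p q l m, l ∈ S → m ∈ S → mem p l → mem q m → (p ∈ five ↔ q ∈ five) →
        ∃ g : G, g • p = q ∧ g • l = m) := by
  classical
  have : Fintype Pt := Fintype.ofFinite Pt
  have : Fintype Ln := Fintype.ofFinite Ln
  have hlp : ∀ l, ({p | mem p l} : Finset Pt).card = 5 := fun l => by
    rw [← Fintype.card_subtype, ← Nat.card_eq_fintype_card]; exact h5 l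
  have hpl : ∀ p, ({l | mem p l} : Finset Ln).card = 5 := fun p => by
    rw [← Fintype.card_subtype, ← Nat.card_eq_fintype_card]; exact h5' p
  let L6 : Finset Ln := {l | l ∉ S}
  have mem6 : ∀ {l}, l ∈ L6 ↔ l ∉ S := by simp [L6]
  have hS' : ({l | l ∈ S} : Finset Ln).card = 15 := by
    rw [← Fintype.card_subtype, ← Nat.card_eq_fintype_card]; exact hS
  have h6 : L6.card = 6 := by
    have h := Finset.card_filter_add_card_filter_not (s := (Finset.univ : Finset Ln)) (fun l => l ∈ S)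
    rw [Finset.card_univ, ← Nat.card_eq_fintype_card, hLn, hS'] at h
    show ({l | l ∉ S} : Finset Ln).card = 6
    omega
  have inv6 : ∀ (g : G) l, l ∈ L6 → g • l ∈ L6 := by
    intro g l hl
    rw [mem6] at hl ⊢
    intro h
    exact hl (by simpa using hSinv g⁻¹ _ h)
  have uniqM : ∀ {l m p q}, l ≠ m → mem p l → mem p m → mem q l → mem q m → p = q :=
    fun {l m p q} h a b c d => (hmeet l m h).unique ⟨a, b⟩ ⟨c, d⟩
  have uniqJ : ∀ {l m p q}, p ≠ q → mem p l → mem q l → mem p m → mem q m → l = m :=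
    fun {l m p q} h a b c d => (hjoin p q h).unique ⟨a, b⟩ ⟨c, d⟩
  -- the six lines are not fixed pointwise
  have move6 : ∃ x ∈ L6, ∃ g : G, g • x ≠ x := by
    obtain ⟨a, ha⟩ := Finset.card_pos.mp (by omega : 0 < L6.card)
    exact ⟨a, ha, hfixL a⟩
  have trans2 := fun {a b a' b'} => two_trans hsix L6 h6 inv6 move6 (a := a) (b := b) (a' := a') (b' := b')
  -- no three of them pass through one point
  have noThree : ∀ {a b c p}, a ∈ L6 → b ∈ L6 → c ∈ L6 → a ≠ b → a ≠ c → b ≠ c →
      mem p a → mem p b → mem p c → False := by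
    intro a b c p ha hb hc hab hac hbc pa pb pc
    have hall : ∀ d ∈ L6, mem p d := by
      intro d hd
      by_cases hda : d = a
      · exact hda ▸ pa
      by_cases hdb : d = b
      · exact hdb ▸ pb
      by_cases hdc : d = c
      · exact hdc ▸ pc
      have he : (((L6.erase a).erase b).erase c).Nonempty := by
        rw [← Finset.card_pos, Finset.card_erase_of_mem, Finset.card_erase_of_mem, Finset.card_erase_of_mem ha, h6]
        · norm_num
        · exact Finset.mem_erase.mpr ⟨Ne.symm hab, hb⟩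
        · exact Finset.mem_erase.mpr ⟨Ne.symm hbc, Finset.mem_erase.mpr ⟨Ne.symm hac, hc⟩⟩
      have he2 : ∃ e ∈ L6, e ≠ a ∧ e ≠ b ∧ e ≠ c ∧ e ≠ d := by
        have h : 1 < (((L6.erase a).erase b).erase c).card := by
          rw [Finset.card_erase_of_mem, Finset.card_erase_of_mem, Finset.card_erase_of_mem ha, h6]
          · norm_num
          · exact Finset.mem_erase.mpr ⟨Ne.symm hab, hb⟩
          · exact Finset.mem_erase.mpr ⟨Ne.symm hbc, Finset.mem_erase.mpr ⟨Ne.symm hac, hc⟩⟩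
        obtain ⟨e, he, hed⟩ := Finset.exists_mem_ne h d
        simp only [Finset.mem_erase] at he
        exact ⟨e, he.2.2.2, he.2.2.1, he.2.1, he.1, hed⟩
      obtain ⟨e, he, hea, heb, hec, hed⟩ := he2
      obtain ⟨g, hg⟩ := four_trans hsix L6 h6 inv6 move6
        (four a b c e hab hac (Ne.symm hea) hbc (Ne.symm heb) (Ne.symm hec))
        (four a b d e hab (Ne.symm hda) (Ne.symm hea) (Ne.symm hdb) (Ne.symm heb) (Ne.symm hed))
        (four_mem _ _ _ _ _ _ ha hb hc he) (four_mem _ _ _ _ _ _ ha hb hd he)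
      have ga : g • a = a := hg 0
      have gb : g • b = b := hg 1
      have gc : g • c = d := hg 2
      have gp : g • p = p := uniqM hab (ga ▸ hmem g p a pa) (gb ▸ hmem g p b pb) pa pb
      exact gp ▸ gc ▸ hmem g p c pc
    have h := Finset.card_le_card (s := L6) (t := {l | mem p l}) (fun d hd => by simpa using hall d hd)
    rw [h6, hpl] at h
    omega
  -- a point of one of the six lines is on exactly one other
  have partner : ∀ {a p}, a ∈ L6 → mem p a → ∃ b ∈ L6, b ≠ a ∧ mem p b := by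
    intro a p ha pa
    have hm : ∀ b ∈ L6.erase a, ∃ q, mem q a ∧ mem q b := fun b hb =>
      (hmeet a b (Ne.symm (Finset.mem_erase.mp hb).1)).exists
    have : Nonempty Pt := ⟨p⟩
    choose! F hF using hm
    have hFi : Set.InjOn F (L6.erase a) := by
      intro b hb c hc h
      by_contra hne
      obtain ⟨hba, hb6⟩ := Finset.mem_erase.mp hb
      obtain ⟨hca, hc6⟩ := Finset.mem_erase.mp hc
      exact noThree ha hb6 hc6 (Ne.symm hba) (Ne.symm hca) hne (hF b hb).1 (hF b hb).2 (h ▸ (hF c hc).2)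
    have himg : (L6.erase a).image F = ({q | mem q a} : Finset Pt) := by
      refine Finset.eq_of_subset_of_card_le ?_ ?_
      · intro q hq
        obtain ⟨b, hb, rfl⟩ := Finset.mem_image.mp hq
        simpa using (hF b hb).1
      · rw [Finset.card_image_of_injOn hFi, hlp, Finset.card_erase_of_mem ha, h6]
    have hp : p ∈ (L6.erase a).image F := by rw [himg]; simpa using pa
    obtain ⟨b, hb, rfl⟩ := Finset.mem_image.mp hp
    exact ⟨b, (Finset.mem_erase.mp hb).2, (Finset.mem_erase.mp hb).1, (hF b hb).2⟩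
  let cov : Finset Pt := {p | ∃ a ∈ L6, mem p a}
  have memc : ∀ {p}, p ∈ cov ↔ ∃ a ∈ L6, mem p a := by simp [cov]
  have two : ∀ p ∈ cov, (L6.filter (fun a => mem p a)).card = 2 := by
    intro p hp
    obtain ⟨a, ha, pa⟩ := memc.mp hp
    obtain ⟨b, hb, hba, pb⟩ := partner ha pa
    have h : L6.filter (fun a => mem p a) = {a, b} := by
      ext c
      simp only [Finset.mem_filter, Finset.mem_insert, Finset.mem_singleton]
      constructor
      · rintro ⟨hc, pc⟩
        by_contra hne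
        push Not at hne
        exact noThree ha hb hc (Ne.symm hba) (Ne.symm hne.1) (Ne.symm hne.2) pa pb pc
      · rintro (rfl | rfl)
        · exact ⟨ha, pa⟩
        · exact ⟨hb, pb⟩
    rw [h, Finset.card_pair (Ne.symm hba)]
  have hcov : cov.card = 15 := by
    have h := Finset.card_mul_eq_card_mul (fun (l : Ln) (p : Pt) => mem p l) (s := L6) (t := cov)
      (m := 5) (n := 2) ?_ ?_
    · rw [h6] at h; omega
    · intro a ha
      rw [← hlp a]
      congr 1
      ext p
      simp only [Finset.bipartiteAbove, Finset.mem_filter, Finset.mem_univ, true_and]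
      exact ⟨fun h => h.2, fun h => ⟨memc.mpr ⟨a, ha, h⟩, h⟩⟩
    · exact two
  let six : Finset Pt := covᶜ
  have hsix6 : six.card = 6 := by
    rw [Finset.card_compl, hcov, ← Nat.card_eq_fintype_card, hPt]
  have mems : ∀ {p}, p ∈ six ↔ ∀ a ∈ L6, ¬ mem p a := by
    intro p; simp [six, memc]
  have invs : ∀ (g : G) p, p ∈ six → g • p ∈ six := by
    intro g p hp
    rw [mems] at hp ⊢
    intro a ha pa
    have h := hmem g⁻¹ _ _ pa
    rw [inv_smul_smul] at h
    exact hp _ (inv6 g⁻¹ a ha) h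
  have moves : ∃ x ∈ six, ∃ g : G, g • x ≠ x := by
    obtain ⟨a, ha⟩ := Finset.card_pos.mp (by omega : 0 < six.card)
    exact ⟨a, ha, hfixP a⟩
  have strans := fun {a b a' b'} => two_trans hsix six hsix6 invs moves (a := a) (b := b) (a' := a') (b' := b')
  have secant : ∀ l ∈ S, (six.filter (fun p => mem p l)).card = 2 := by
    intro l hl
    have h3 : (cov.filter (fun p => mem p l)).card = 3 := by
      have h := Finset.card_mul_eq_card_mul (fun (a : Ln) (p : Pt) => mem p a) (s := L6)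
        (t := cov.filter (fun p => mem p l)) (m := 1) (n := 2) ?_ ?_
      · rw [h6] at h; omega
      · intro a ha
        have hne : l ≠ a := fun h => mem6.mp ha (h ▸ hl)
        obtain ⟨p, ⟨pl, pa⟩, -⟩ := hmeet l a hne
        refine Finset.card_eq_one.mpr ⟨p, ?_⟩
        ext q
        simp only [Finset.bipartiteAbove, Finset.mem_filter, Finset.mem_singleton]
        constructor
        · rintro ⟨⟨-, ql⟩, qa⟩
          exact uniqM hne ql qa pl pa
        · rintro rfl
          exact ⟨⟨memc.mpr ⟨a, ha, pa⟩, pl⟩, pa⟩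
      · intro p hp
        exact two p (Finset.mem_filter.mp hp).1
    have h := Finset.card_filter_add_card_filter_not (s := ({p | mem p l} : Finset Pt)) (fun p => p ∈ cov)
    rw [hlp, Finset.filter_filter, Finset.filter_filter] at h
    have e1 : ({p | mem p l ∧ p ∈ cov} : Finset Pt) = cov.filter (fun p => mem p l) := by
      ext p; simp [and_comm]
    have e2 : ({p | mem p l ∧ p ∉ cov} : Finset Pt) = six.filter (fun p => mem p l) := by
      ext p; simp [six, and_comm]
    rw [e1, e2, h3] at h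
    omega
  have pick : ∀ p ∈ cov, ∃ a ∈ L6, ∃ b ∈ L6, a ≠ b ∧ mem p a ∧ mem p b := by
    intro p hp
    obtain ⟨a, ha, pa⟩ := memc.mp hp
    obtain ⟨b, hb, hba, pb⟩ := partner ha pa
    exact ⟨a, ha, b, hb, Ne.symm hba, pa, pb⟩
  -- a secant through a covered point determines four of the six lines
  have frame : ∀ p ∈ cov, ∀ l ∈ S, mem p l → ∃ (u : Fin 4 ↪ Ln) (r : Pt), (∀ i, u i ∈ L6) ∧
      mem p (u 0) ∧ mem p (u 1) ∧ mem r (u 2) ∧ mem r (u 3) ∧ mem r l ∧ r ≠ p := by
    intro p hp l hl pl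
    obtain ⟨a, ha, b, hb, hab, pa, pb⟩ := pick p hp
    have h : 0 < ((L6.erase a).erase b).card := by
      rw [Finset.card_erase_of_mem (Finset.mem_erase.mpr ⟨Ne.symm hab, hb⟩), Finset.card_erase_of_mem ha, h6]
      norm_num
    obtain ⟨c, hc⟩ := Finset.card_pos.mp h
    obtain ⟨hcb, hc⟩ := Finset.mem_erase.mp hc
    obtain ⟨hca, hc⟩ := Finset.mem_erase.mp hc
    obtain ⟨r, ⟨rl, rc⟩, -⟩ := hmeet l c (fun h => mem6.mp hc (h ▸ hl))
    have hrp : r ≠ p := by
      rintro rfl
      exact noThree ha hb hc hab (Ne.symm hca) (Ne.symm hcb) pa pb rc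
    obtain ⟨d, hd, hdc, rd⟩ := partner hc rc
    have hda : d ≠ a := by
      rintro rfl
      exact mem6.mp ha (uniqJ hrp rd pa rl pl ▸ hl)
    have hdb : d ≠ b := by
      rintro rfl
      exact mem6.mp hb (uniqJ hrp rd pb rl pl ▸ hl)
    exact ⟨four a b c d hab (Ne.symm hca) (Ne.symm hda) (Ne.symm hcb) (Ne.symm hdb) (Ne.symm hdc), r,
      four_mem _ _ _ _ _ _ ha hb hc hd, pa, pb, rc, rd, rl, hrp⟩
  refine ⟨{p | p ∈ six}, ?_, ?_, ?_, ?_, ?_, ?_⟩
  · show Nat.card {p // p ∈ six} = 6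
    rw [Nat.card_eq_finsetCard, hsix6]
  · intro p hp
    rw [← h5' p]
    refine Nat.card_congr (Equiv.subtypeEquivRight fun l => ⟨And.right, fun h => ⟨?_, h⟩⟩)
    by_contra hl
    exact mems.mp hp l (mem6.mpr hl) h
  · intro p hp
    have hpc : p ∈ cov := by simpa [six] using hp
    have h := Finset.card_filter_add_card_filter_not (s := ({l | mem p l} : Finset Ln)) (fun l => l ∈ S)
    rw [hpl, Finset.filter_filter, Finset.filter_filter] at h
    have e2 : ({l | mem p l ∧ l ∉ S} : Finset Ln) = L6.filter (fun a => mem p a) := by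
      ext l; simp [L6, and_comm]
    rw [e2, two p hpc] at h
    rw [Nat.card_eq_fintype_card, Fintype.card_subtype]
    rw [show ({l | l ∈ S ∧ mem p l} : Finset Ln).card = ({l | mem p l ∧ l ∈ S} : Finset Ln).card from
      congrArg Finset.card (Finset.filter_congr fun l _ => and_comm)]
    omega
  · intro l hl
    rw [← secant l hl, Nat.card_eq_fintype_card, Fintype.card_subtype]
    congr 1
    ext p
    simp
  · intro p q hpq
    by_cases hp : p ∈ six
    · have hq : q ∈ six := hpq.mp hp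
      obtain ⟨p', hp', hpp⟩ := Finset.exists_mem_ne (by omega : 1 < six.card) p
      obtain ⟨q', hq', hqq⟩ := Finset.exists_mem_ne (by omega : 1 < six.card) q
      obtain ⟨g, hg, -⟩ := strans hp hp' (Ne.symm hpp) hq hq' (Ne.symm hqq)
      exact ⟨g, hg⟩
    · have hq : q ∉ six := fun h => hp (hpq.mpr h)
      obtain ⟨a, ha, b, hb, hab, pa, pb⟩ := pick p (by simpa [six] using hp)
      obtain ⟨a', ha', b', hb', hab', qa, qb⟩ := pick q (by simpa [six] using hq)
      obtain ⟨g, ga, gb⟩ := trans2 ha hb hab ha' hb' hab'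
      exact ⟨g, uniqM hab' (ga ▸ hmem g p a pa) (gb ▸ hmem g p b pb) qa qb⟩
  · intro p q l m hl hm pl qm hpq
    by_cases hp : p ∈ six
    · have hq : q ∈ six := hpq.mp hp
      have other : ∀ x ∈ six, ∀ k ∈ S, mem x k → ∃ y ∈ six, y ≠ x ∧ mem y k := by
        intro x hx k hk xk
        obtain ⟨y, hy, hyx⟩ := Finset.exists_mem_ne (by rw [secant k hk]; norm_num :
          1 < (six.filter (fun p => mem p k)).card) x
        exact ⟨y, (Finset.mem_filter.mp hy).1, hyx, (Finset.mem_filter.mp hy).2⟩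
      obtain ⟨p', hp', hpp, pl'⟩ := other p hp l hl pl
      obtain ⟨q', hq', hqq, qm'⟩ := other q hq m hm qm
      obtain ⟨g, gp, gp'⟩ := strans hp hp' (Ne.symm hpp) hq hq' (Ne.symm hqq)
      exact ⟨g, gp, uniqJ (Ne.symm hqq) (gp ▸ hmem g p l pl) (gp' ▸ hmem g p' l pl') qm qm'⟩
    · have hq : q ∉ six := fun h => hp (hpq.mpr h)
      obtain ⟨u, r, hu, pu0, pu1, ru2, ru3, rl, hrp⟩ := frame p (by simpa [six] using hp) l hl pl
      obtain ⟨v, s, hv, qv0, qv1, sv2, sv3, sm, hsq⟩ := frame q (by simpa [six] using hq) m hm qm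
      obtain ⟨g, hg⟩ := four_trans hsix L6 h6 inv6 move6 u v hu hv
      have n01 : v 0 ≠ v 1 := fun h => absurd (v.injective h) (by decide)
      have n23 : v 2 ≠ v 3 := fun h => absurd (v.injective h) (by decide)
      have gp : g • p = q := uniqM n01 (hg 0 ▸ hmem g p _ pu0) (hg 1 ▸ hmem g p _ pu1) qv0 qv1
      have gr : g • r = s := uniqM n23 (hg 2 ▸ hmem g r _ ru2) (hg 3 ▸ hmem g r _ ru3) sv2 sv3
      exact ⟨g, gp, uniqJ hsq (gr ▸ hmem g r l rl) (gp ▸ hmem g p l pl) sm qm⟩

end CfsgLib.JFour
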