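import Cfsg.Agent.Lib.JFour.Lines
import Cfsg.Agent.Lib.JFour.Plane

/-!
# Groups of Janko-four type: the six points of `U` on five commutator lines
-/

set_option autoImplicit false
set_option linter.unusedSectionVars false
set_option linter.style.haveILetI false

open Cfsg

namespace CfsgLib.JFour

variable {G : Type*} [Group G]

/-- Every action of `M0` on six letters trivial on `W` and `P` is trivial or contains `A₆`. -/
def SixHyp (P W M0 : Subgroup G) : Prop :=
  ∀ f : ↥M0 →* Equiv.Perm (Fin 6), (∀ m : ↥M0, (m : G) ∈ W → f m = 1) →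
    (∀ m : ↥M0, (m : G) ∈ P → f m = 1) → f = 1 ∨ alternatingGroup (Fin 6) ≤ f.range

/-- A point of the plane `U / ⟨z⟩`. -/
def IsPt (E P W : Subgroup G) (z : G) (S : Subgroup G) : Prop :=
  Between E P W z S ∧ Nat.card ↥S = 8

/-- The data of the six special points. -/
structure FiveData (E P W M0 : Subgroup G) (z : G) (five : Set (Subgroup G)) : Prop where
  isPt : ∀ S ∈ five, IsPt E P W z S
  card : Nat.card five = 6
  five_lines : ∀ S ∈ five, Nat.card {L : Subgroup G // (∃ b ∈ W, b ∉ Subgroup.zpowers z ∧ L = Line E z b) ∧ S ≤ L} = 5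
  three_lines : ∀ S, IsPt E P W z S → S ∉ five →
    Nat.card {L : Subgroup G // (∃ b ∈ W, b ∉ Subgroup.zpowers z ∧ L = Line E z b) ∧ S ≤ L} = 3
  two_points : ∀ b ∈ W, b ∉ Subgroup.zpowers z → Nat.card {S : Subgroup G // S ∈ five ∧ S ≤ Line E z b} = 2
  trans : ∀ S T, IsPt E P W z S → IsPt E P W z T → (S ∈ five ↔ T ∈ five) →
    ∃ m ∈ M0, S.map (MulAut.conj m).toMonoidHom = T
  flags : ∀ S T, IsPt E P W z S → IsPt E P W z T → (S ∈ five ↔ T ∈ five) →
    ∀ a ∈ W, a ∉ Subgroup.zpowers z → ∀ b ∈ W, b ∉ Subgroup.zpowers z →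
      S ≤ Line E z a → T ≤ Line E z b →
      ∃ m ∈ M0, S.map (MulAut.conj m).toMonoidHom = T ∧
        Line E z (m * a * m⁻¹) = Line E z b

namespace HexTransitive

open HexFrame

variable [Finite G] {E R P W M0 : Subgroup G} {z : G} (h : HexTransitive E R P W M0 z)
include h

theorem between_map {m : G} (hm : m ∈ M0) {S : Subgroup G} (hS : Between E P W z S) :
    Between E P W z (S.map (MulAut.conj m).toMonoidHom) := by
  refine ⟨⟨z, hS.z_mem, ?_⟩, ?_, ?_⟩
  · simp only [MulEquiv.coe_toMonoidHom, MulAut.conj_apply]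
    exact mul_inv_eq_iff_eq_mul.mpr (h.M0_z m hm)
  · rintro _ ⟨x, hx, rfl⟩
    refine mem_U (h.M0_E m hm x (U_le (hS.le_U hx))) fun w hw => ?_
    have hw' : m⁻¹ * w * m ∈ W := by simpa using h.M0_W m⁻¹ (inv_mem hm) w hw
    simp only [MulEquiv.coe_toMonoidHom, MulAut.conj_apply]
    calc w * (m * x * m⁻¹) = m * ((m⁻¹ * w * m) * x) * m⁻¹ := by group
      _ = m * (x * (m⁻¹ * w * m)) * m⁻¹ := by rw [U_comm (hS.le_U hx) hw']
      _ = m * x * m⁻¹ * w := by group
  · rintro p hp _ ⟨x, hx, rfl⟩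
    refine ⟨p * x * p⁻¹, hS.inv p hp x hx, ?_⟩
    simp only [MulEquiv.coe_toMonoidHom, MulAut.conj_apply]
    have e : m * p = p * m := h.M0_P m hm p hp
    calc m * (p * x * p⁻¹) * m⁻¹ = (m * p) * x * (m * p)⁻¹ := by group
      _ = p * (m * x * m⁻¹) * p⁻¹ := by rw [e]; group

theorem map_Line {m b : G} (hm : m ∈ M0) (hb : b ∈ W) :
    (Line E z b).map (MulAut.conj m).toMonoidHom = Line E z (m * b * m⁻¹) := by
  refine le_antisymm ?_ ?_
  · rintro _ ⟨x, hx, rfl⟩
    exact h.Line_conj hm hx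
  · intro y hy
    have hy' := h.Line_conj (inv_mem hm) hy
    rw [show m⁻¹ * (m * b * m⁻¹) * m⁻¹⁻¹ = b by group] at hy'
    exact ⟨m⁻¹ * y * m⁻¹⁻¹, hy', by simp [mul_assoc]⟩

/-- The elements outside `⟨z⟩` fall into points, six in each. -/
theorem card_pts_mul {S : Subgroup G} (hS : Between E P W z S) :
    Nat.card {T : Subgroup G // IsPt E P W z T ∧ T ≤ S} * 6 + 2 = Nat.card ↥S := by
  classical
  have hZS : ({1, z} : Set G) ⊆ (S : Set G) := by
    rintro a (rfl | rfl)
    · exact S.one_mem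
    · exact hS.z_mem
  have hc : Nat.card ↥((S : Set G) \ {1, z}) + 2 = Nat.card ↥S := by
    rw [Nat.card_coe_set_eq, Set.ncard_sdiff hZS (Set.toFinite _), Set.ncard_pair h.z_ne.symm]
    have h2 : 2 ≤ Nat.card ↥S := by
      rw [← Set.ncard_pair h.z_ne.symm, ← Nat.card_coe_set_eq ({1, z} : Set G)]
      exact Nat.card_mono (Set.toFinite _) hZS
    have e : Set.ncard (S : Set G) = Nat.card ↥S := (Nat.card_coe_set_eq _).symm
    omega
  have hnot : ∀ x : ↥((S : Set G) \ {1, z}), (x : G) ∉ Subgroup.zpowers z := fun x hx => by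
    rcases h.mem_Z.mp hx with e | e
    · exact x.2.2 (Or.inl e)
    · exact x.2.2 (Or.inr e)
  have hpt : ∀ x : ↥((S : Set G) \ {1, z}), ∃ T, (IsPt E P W z T ∧ T ≤ S) ∧ (x : G) ∈ T := by
    intro x
    obtain ⟨T, hT, hTc, hxT⟩ := h.exists_pt (hS.le_U x.2.1) (hnot x)
    refine ⟨T, ⟨⟨hT, hTc⟩, ?_⟩, hxT⟩
    rcases h.between_card (h.between_inf hT hS) with c | c | c | c
    · exfalso
      exact hnot x (Subgroup.eq_of_le_of_card_ge (Subgroup.zpowers_le.mpr
        (Subgroup.mem_inf.mpr ⟨hT.z_mem, hS.z_mem⟩))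
        (by rw [c, Nat.card_zpowers, h.orderOf_z]) ▸ Subgroup.mem_inf.mpr ⟨hxT, x.2.1⟩)
    all_goals
      exact (Subgroup.eq_of_le_of_card_ge (inf_le_left : T ⊓ S ≤ T) (by omega)).ge.trans inf_le_right
  choose f hf hfx using hpt
  let F : ↥((S : Set G) \ {1, z}) → {T : Subgroup G // IsPt E P W z T ∧ T ≤ S} := fun x => ⟨f x, hf x⟩
  haveI := Fintype.ofFinite {T : Subgroup G // IsPt E P W z T ∧ T ≤ S}
  have hfib : ∀ T, Nat.card {x // F x = T} = 6 := by
    intro T
    have hT8 : Nat.card ↥((T.1 : Set G) \ {1, z}) = 6 := by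
      rw [Nat.card_coe_set_eq, Set.ncard_sdiff ?_ (Set.toFinite _), Set.ncard_pair h.z_ne.symm,
        ← Nat.card_coe_set_eq]
      · show Nat.card ↥T.1 - 2 = 6
        rw [T.2.1.2]
      · rintro a (rfl | rfl)
        · exact T.1.one_mem
        · exact T.2.1.1.z_mem
    rw [← hT8]
    refine Nat.card_congr
      { toFun := fun x => ⟨x.1, ?_, x.1.2.2⟩
        invFun := fun y => ⟨⟨y, T.2.2 y.2.1, y.2.2⟩, ?_⟩
        left_inv := fun x => rfl
        right_inv := fun y => rfl }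
    · have := hfx x.1
      rwa [show f x.1 = T.1 from congrArg Subtype.val x.2] at this
    · apply Subtype.ext
      exact h.pt_unique (hf _).1.1 T.2.1.1 (hf _).1.2 T.2.1.2 (hfx _) y.2.1 (hnot ⟨y, T.2.2 y.2.1, y.2.2⟩)
  rw [← hc, ← Nat.card_congr (Equiv.sigmaFiberEquiv F), Nat.card_sigma,
    Finset.sum_congr rfl (fun T _ => hfib T), Finset.sum_const, Finset.card_univ,
    ← Nat.card_eq_fintype_card, smul_eq_mul]

/-- The six special points. -/
theorem exists_five (hE : IsExtraspecial 2 ↥E) (hsix : SixHyp P W M0) :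
    ∃ five, FiveData E P W M0 z five := by
  classical
  set Pt := {T : Subgroup G // IsPt E P W z T}
  set Ln := {T : Subgroup G // Between E P W z T ∧ Nat.card ↥T = 32}
  have hcardmap : ∀ (m : G) (S : Subgroup G), Nat.card ↥(S.map (MulAut.conj m).toMonoidHom) = Nat.card ↥S :=
    fun m S => Subgroup.card_map_of_injective (MulAut.conj m).injective
  have hmap1 : ∀ S : Subgroup G, S.map (MulAut.conj (1 : G)).toMonoidHom = S := fun S => by
    ext x; simp [Subgroup.mem_map]
  have hmapmul : ∀ (a b : G) (S : Subgroup G), S.map (MulAut.conj (a * b)).toMonoidHom =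
      (S.map (MulAut.conj b).toMonoidHom).map (MulAut.conj a).toMonoidHom := fun a b S => by
    rw [Subgroup.map_map]; congr 1; ext x; simp
  letI : MulAction ↥M0 Pt :=
    { smul := fun m T => ⟨T.1.map (MulAut.conj (m : G)).toMonoidHom, h.between_map m.2 T.2.1,
        (hcardmap _ _).trans T.2.2⟩
      one_smul := fun T => Subtype.ext (hmap1 _)
      mul_smul := fun a b T => Subtype.ext (hmapmul _ _ _) }
  letI : MulAction ↥M0 Ln :=
    { smul := fun m T => ⟨T.1.map (MulAut.conj (m : G)).toMonoidHom, h.between_map m.2 T.2.1,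
        (hcardmap _ _).trans T.2.2⟩
      one_smul := fun T => Subtype.ext (hmap1 _)
      mul_smul := fun a b T => Subtype.ext (hmapmul _ _ _) }
  haveI : Finite Pt := Subtype.finite
  haveI : Finite Ln := Subtype.finite
  haveI := Fintype.ofFinite Pt
  haveI := Fintype.ofFinite Ln
  set mem : Pt → Ln → Prop := fun p l => p.1 ≤ l.1
  have hU : Between E P W z (U E W) :=
    ⟨h.z_U, le_rfl, fun p hp x hx => h.U_norm (h.P_le hp) hx⟩
  have hPt : Nat.card Pt = 21 := by
    have h1 := h.card_pts_mul hU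
    rw [h.card_U] at h1
    have : Nat.card Pt = Nat.card {T : Subgroup G // IsPt E P W z T ∧ T ≤ U E W} :=
      Nat.card_congr (Equiv.subtypeEquivRight fun T => ⟨fun ht => ⟨ht, ht.1.le_U⟩, fun ht => ht.1⟩)
    omega
  have h5 : ∀ l : Ln, Nat.card {p : Pt // mem p l} = 5 := by
    intro l
    have h1 := h.card_pts_mul l.2.1
    rw [l.2.2] at h1
    have : Nat.card {p : Pt // mem p l} = Nat.card {T : Subgroup G // IsPt E P W z T ∧ T ≤ l.1} :=
      Nat.card_congr (Equiv.subtypeSubtypeEquivSubtypeInter _ (fun T : Subgroup G => T ≤ l.1))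
    omega
  have hmeet : ∀ l m : Ln, l ≠ m → ∃! p, mem p l ∧ mem p m := by
    intro l m hne
    have hc := h.meet l.2.1 m.2.1 l.2.2 m.2.2 fun e => hne (Subtype.ext e)
    refine ⟨⟨l.1 ⊓ m.1, h.between_inf l.2.1 m.2.1, hc⟩, ⟨inf_le_left, inf_le_right⟩, fun q hq => ?_⟩
    exact Subtype.ext (Subgroup.eq_of_le_of_card_ge (le_inf hq.1 hq.2) (by rw [hc, q.2.2]))
  have hjoin : ∀ p q : Pt, p ≠ q → ∃! l, mem p l ∧ mem q l := by
    intro p q hne
    have hi : Nat.card ↥(p.1 ⊓ q.1) = 2 := by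
      have hle := Subgroup.card_le_of_le (inf_le_left : p.1 ⊓ q.1 ≤ p.1)
      rw [p.2.2] at hle
      rcases h.between_card (h.between_inf p.2.1 q.2.1) with c | c | c | c
      · exact c
      · exfalso
        exact hne (Subtype.ext ((Subgroup.eq_of_le_of_card_ge inf_le_left (by rw [c, p.2.2]) : p.1 ⊓ q.1 = p.1).symm.trans
          (Subgroup.eq_of_le_of_card_ge inf_le_right (by rw [c, q.2.2]))))
      all_goals omega
    have hs := h.card_sup_mul p.2.1.le_U q.2.1.le_U
    rw [hi, p.2.2, q.2.2] at hs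
    have hc : Nat.card ↥(p.1 ⊔ q.1) = 32 := by omega
    refine ⟨⟨p.1 ⊔ q.1, h.between_sup p.2.1 q.2.1, hc⟩, ⟨le_sup_left, le_sup_right⟩, fun l hl => ?_⟩
    exact Subtype.ext (Subgroup.eq_of_le_of_card_ge (sup_le hl.1 hl.2) (by rw [hc, l.2.2])).symm
  have h5' : ∀ p : Pt, Nat.card {l : Ln // mem p l} = 5 := by
    intro p
    let f : {q : Pt // q ≠ p} → {l : Ln // mem p l} := fun q =>
      ⟨(hjoin p q.1 q.2.symm).exists.choose, (hjoin p q.1 q.2.symm).exists.choose_spec.1⟩
    have hf : ∀ l, Nat.card {q // f q = l} = 4 := by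
      intro l
      have e : {q // f q = l} ≃ ↥({q : Pt | mem q l.1} \ {p}) :=
        { toFun := fun q => ⟨q.1.1, by
            have h1 := (hjoin p q.1.1 q.1.2.symm).exists.choose_spec.2
            rw [show (hjoin p q.1.1 q.1.2.symm).exists.choose = l.1 from congrArg Subtype.val q.2] at h1
            exact h1, q.1.2⟩
          invFun := fun y => ⟨⟨y.1, y.2.2⟩, Subtype.ext ((hjoin p y.1 (Ne.symm y.2.2)).unique
            (hjoin p y.1 (Ne.symm y.2.2)).exists.choose_spec ⟨l.2, y.2.1⟩)⟩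
          left_inv := fun q => rfl
          right_inv := fun y => rfl }
      rw [Nat.card_congr e, Nat.card_coe_set_eq, Set.ncard_sdiff (by simpa using l.2) (Set.toFinite _),
        Set.ncard_singleton, ← Nat.card_coe_set_eq]
      show Nat.card {q : Pt // mem q l.1} - 1 = 4
      rw [h5]
    have h1 : Nat.card {q : Pt // q ≠ p} = 20 := by
      rw [Nat.card_eq_fintype_card, Fintype.card_subtype_compl, Fintype.card_subtype_eq,
        ← Nat.card_eq_fintype_card, hPt]
    rw [← Nat.card_congr (Equiv.sigmaFiberEquiv f), Nat.card_sigma,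
      Finset.sum_congr rfl (fun l _ => hf l), Finset.sum_const, Finset.card_univ,
      ← Nat.card_eq_fintype_card, smul_eq_mul] at h1
    omega
  have hLn : Nat.card Ln = 21 := by
    have e : (Σ l : Ln, {p : Pt // mem p l}) ≃ (Σ p : Pt, {l : Ln // mem p l}) :=
      { toFun := fun x => ⟨x.2.1, x.1, x.2.2⟩
        invFun := fun x => ⟨x.2.1, x.1, x.2.2⟩
        left_inv := fun x => rfl
        right_inv := fun x => rfl }
    have := Nat.card_congr e
    rw [Nat.card_sigma, Nat.card_sigma, Finset.sum_congr rfl (fun l _ => h5 l),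
      Finset.sum_congr rfl (fun p _ => h5' p), Finset.sum_const, Finset.sum_const, Finset.card_univ,
      Finset.card_univ, ← Nat.card_eq_fintype_card, ← Nat.card_eq_fintype_card, hPt, smul_eq_mul,
      smul_eq_mul] at this
    omega
  have hlb : ∀ b ∈ W, b ∉ Subgroup.zpowers z → Between E P W z (Line E z b) ∧ Nat.card ↥(Line E z b) = 32 :=
    fun b hb hbz => ⟨h.Line_between hb, h.card_Line hb hbz⟩
  have hWz : ∀ w ∈ W, w ∉ Subgroup.zpowers z → ∀ m ∈ M0, m * w * m⁻¹ ∉ Subgroup.zpowers z := by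
    intro w _ hwz m hm hx
    apply hwz
    rcases h.mem_Z.mp hx with e | e
    · rw [conj_eq_one_iff.mp e]; exact one_mem _
    · have : w = m⁻¹ * z * m := by rw [← e]; group
      rw [this, mul_assoc, ← h.M0_z m hm, inv_mul_cancel_left]
      exact Subgroup.mem_zpowers z
  let S : Set Ln := {l | ∃ b ∈ W, b ∉ Subgroup.zpowers z ∧ l.1 = Line E z b}
  have hS : Nat.card S = 15 := by
    let Zw : Subgroup ↥W := (Subgroup.zpowers z).subgroupOf W
    haveI : Zw.Normal := ⟨fun n hn g => by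
      rw [Subgroup.mem_subgroupOf] at hn ⊢
      rcases h.mem_Z.mp hn with e | e <;> simp only [Subgroup.coe_mul, Subgroup.coe_inv, e]
      · simp
      · rw [mul_inv_eq_iff_eq_mul.mpr (h.W_z g g.2)]; exact Subgroup.mem_zpowers z⟩
    have hq : Nat.card (↥W ⧸ Zw) = 16 := by
      have := Subgroup.card_eq_card_quotient_mul_card_subgroup Zw
      rw [h.card_W, Nat.card_congr (Subgroup.subgroupOfEquivOfLe (Subgroup.zpowers_le.mpr h.z_W)).toEquiv,
        Nat.card_zpowers, h.orderOf_z] at this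
      omega
    have hsame : ∀ a b : ↥W, (a : ↥W ⧸ Zw) = b → Line E z (a : G) = Line E z (b : G) := by
      intro a b hab
      rw [QuotientGroup.eq, Subgroup.mem_subgroupOf] at hab
      rcases h.mem_Z.mp hab with e | e
      · rw [show (a : G) = b from inv_mul_eq_one.mp e]
      · rw [show (b : G) = z * a by rw [← h.W_z a a.2, ← e]; simp, h.Line_zmul a.2]
    have hout : ∀ q : {q : ↥W ⧸ Zw // q ≠ 1}, ((q.1.out : ↥W) : G) ∉ Subgroup.zpowers z := by
      intro q hx
      apply q.2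
      rw [← QuotientGroup.out_eq' q.1, QuotientGroup.eq_one_iff]
      exact hx
    let f : {q : ↥W ⧸ Zw // q ≠ 1} → S := fun q =>
      ⟨⟨Line E z (q.1.out : G), hlb _ q.1.out.2 (hout q)⟩, _, q.1.out.2, hout q, rfl⟩
    have hf : Function.Bijective f := by
      constructor
      · intro q r e
        have e' : Line E z ((q.1.out : ↥W) : G) = Line E z ((r.1.out : ↥W) : G) :=
          congrArg (fun x : S => x.1.1) e
        apply Subtype.ext
        rw [← QuotientGroup.out_eq' q.1, ← QuotientGroup.out_eq' r.1, QuotientGroup.eq,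
          Subgroup.mem_subgroupOf, Subgroup.coe_mul, Subgroup.coe_inv,
          inv_eq_of_mul_eq_one_right (h.W_sq _ q.1.out.2)]
        exact h.Line_inj hE q.1.out.2 (hout q) r.1.out.2 (hout r) e'
      · rintro ⟨l, b, hb, hbz, e⟩
        refine ⟨⟨QuotientGroup.mk ⟨b, hb⟩, fun e1 => hbz ((QuotientGroup.eq_one_iff (N := Zw) _).mp e1)⟩, ?_⟩
        apply Subtype.ext; apply Subtype.ext
        exact (hsame _ ⟨b, hb⟩ (QuotientGroup.out_eq' _)).trans e.symm
    rw [← Nat.card_congr (Equiv.ofBijective f hf)]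
    haveI := Fintype.ofFinite (↥W ⧸ Zw)
    rw [Nat.card_eq_fintype_card, Fintype.card_subtype_compl, Fintype.card_subtype_eq,
      ← Nat.card_eq_fintype_card, hq]
  have hSinv : ∀ (m : ↥M0) l, l ∈ S → m • l ∈ S := by
    rintro m l ⟨b, hb, hbz, e⟩
    refine ⟨(m : G) * b * (m : G)⁻¹, h.M0_W m m.2 b hb, hWz b hb hbz m m.2, ?_⟩
    show l.1.map (MulAut.conj (m : G)).toMonoidHom = _
    rw [e, h.map_Line m.2 hb]
  have hnofix : ∀ T : Subgroup G, Between E P W z T → Nat.card ↥T ≠ 2 → Nat.card ↥T ≠ 128 →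
      ∃ m : ↥M0, T.map (MulAut.conj (m : G)).toMonoidHom ≠ T := by
    intro T hT h2 h128
    by_contra hcon
    push Not at hcon
    rcases h.irreducible (hT.le_U.trans U_le) hT.z_mem (fun r hr x hx => by
      have := hcon ⟨r, h.R_M0 hr⟩
      rw [← this]
      exact ⟨x, hx, rfl⟩) with c | c | c
    · exact h2 c
    · exact h128 c
    · have := (Subgroup.card_le_of_le hT.le_U).trans_eq h.card_U
      omega
  let Φ : ↥M0 →* Equiv.Perm Pt × Equiv.Perm Ln :=
    (MulAction.toPermHom ↥M0 Pt).prod (MulAction.toPermHom ↥M0 Ln)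
  letI : MulAction ↥Φ.range Pt :=
    MulAction.compHom Pt ((MonoidHom.fst (Equiv.Perm Pt) (Equiv.Perm Ln)).comp Φ.range.subtype)
  letI : MulAction ↥Φ.range Ln :=
    MulAction.compHom Ln ((MonoidHom.snd (Equiv.Perm Pt) (Equiv.Perm Ln)).comp Φ.range.subtype)
  have hsmulP : ∀ (m : ↥M0) (q : Pt), (Φ.rangeRestrict m) • q = m • q := fun m q => rfl
  have hsmulL : ∀ (m : ↥M0) (q : Ln), (Φ.rangeRestrict m) • q = m • q := fun m q => rfl
  have htriv : ∀ m : ↥M0, ((m : G) ∈ W ∨ (m : G) ∈ P) → Φ.rangeRestrict m = 1 := by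
    intro m hm
    have hconj : ∀ T : Subgroup G, Between E P W z T → T.map (MulAut.conj (m : G)).toMonoidHom = T := by
      intro T hT
      refine Subgroup.eq_of_le_of_card_ge ?_ (hcardmap _ _).ge
      rintro _ ⟨x, hx, rfl⟩
      simp only [MulEquiv.coe_toMonoidHom, MulAut.conj_apply]
      rcases hm with hw | hp
      · rw [U_comm (hT.le_U hx) hw, mul_inv_cancel_right]; exact hx
      · exact hT.inv _ hp x hx
    exact Subtype.ext (Prod.ext (Equiv.ext fun q => Subtype.ext (hconj q.1 q.2.1))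
      (Equiv.ext fun q => Subtype.ext (hconj q.1 q.2.1)))
  have hplane := hyperoval (G := ↥Φ.range) mem
    (fun g p l hpl => by
      obtain ⟨m, rfl⟩ := Φ.rangeRestrict_surjective g
      rw [hsmulP, hsmulL]; exact Subgroup.map_mono hpl) hPt hLn h5 h5' hmeet
    hjoin S hS (fun g l hl => by
      obtain ⟨m, rfl⟩ := Φ.rangeRestrict_surjective g
      rw [hsmulL]; exact hSinv m l hl) ?_ ?_ ?_
  · obtain ⟨five, hc, hl5, hl3, hp2, htr, hfl⟩ := hplane
    have eL : ∀ T : Pt, {l : Ln // l ∈ S ∧ mem T l} ≃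
        {L : Subgroup G // (∃ b ∈ W, b ∉ Subgroup.zpowers z ∧ L = Line E z b) ∧ T.1 ≤ L} := fun T =>
      { toFun := fun l => ⟨l.1.1, l.2.1, l.2.2⟩
        invFun := fun L => ⟨⟨L.1, by
          obtain ⟨b, hb, hbz, e⟩ := L.2.1
          exact e.symm ▸ hlb b hb hbz⟩, L.2.1, L.2.2⟩
        left_inv := fun l => rfl
        right_inv := fun l => rfl }
    have hiff : ∀ T : Pt, T.1 ∈ Subtype.val '' five ↔ T ∈ five := fun T =>
      Subtype.val_injective.mem_set_image
    refine ⟨Subtype.val '' five, ⟨?_, ?_, ?_, ?_, ?_, ?_, ?_⟩⟩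
    · rintro _ ⟨T, -, rfl⟩; exact T.2
    · rw [Nat.card_image_of_injective Subtype.val_injective, hc]
    · rintro _ ⟨T, hT, rfl⟩
      rw [← hl5 T hT]
      exact (Nat.card_congr (eL T)).symm
    · intro T hT hnot
      rw [← hl3 ⟨T, hT⟩ fun hh => hnot ⟨_, hh, rfl⟩]
      exact (Nat.card_congr (eL ⟨T, hT⟩)).symm
    · intro b hb hbz
      rw [← hp2 ⟨_, hlb b hb hbz⟩ ⟨b, hb, hbz, rfl⟩]
      refine Nat.card_congr
        { toFun := fun T => ⟨⟨T.1, ?_⟩, ?_, T.2.2⟩
          invFun := fun p => ⟨p.1.1, ⟨p.1, p.2.1, rfl⟩, p.2.2⟩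
          left_inv := fun T => rfl
          right_inv := fun p => rfl }
      · obtain ⟨q, -, e⟩ := T.2.1
        exact e ▸ q.2
      · obtain ⟨q, hq, e⟩ := T.2.1
        exact (Subtype.ext e : q = ⟨T.1, _⟩) ▸ hq
    · intro A B hA hB hiffAB
      rw [hiff ⟨A, hA⟩, hiff ⟨B, hB⟩] at hiffAB
      obtain ⟨g', hg⟩ := htr ⟨A, hA⟩ ⟨B, hB⟩ hiffAB
      obtain ⟨g, rfl⟩ := Φ.rangeRestrict_surjective g'
      rw [hsmulP] at hg
      exact ⟨g, g.2, congrArg Subtype.val hg⟩
    · intro A B hA hB hiffAB a ha haz b hb hbz hAa hBb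
      rw [hiff ⟨A, hA⟩, hiff ⟨B, hB⟩] at hiffAB
      obtain ⟨g', hg, hgl⟩ := hfl ⟨A, hA⟩ ⟨B, hB⟩ ⟨_, hlb a ha haz⟩ ⟨_, hlb b hb hbz⟩
        ⟨a, ha, haz, rfl⟩ ⟨b, hb, hbz, rfl⟩ hAa hBb hiffAB
      obtain ⟨g, rfl⟩ := Φ.rangeRestrict_surjective g'
      rw [hsmulP] at hg
      rw [hsmulL] at hgl
      refine ⟨g, g.2, congrArg Subtype.val hg, ?_⟩
      rw [← h.map_Line g.2 ha]
      exact congrArg Subtype.val hgl
  · intro f
    rcases hsix (f.comp Φ.rangeRestrict) (fun m hm => by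
        rw [MonoidHom.comp_apply, htriv m (Or.inl hm), map_one])
      (fun m hm => by rw [MonoidHom.comp_apply, htriv m (Or.inr hm), map_one]) with e | e
    · left
      ext1 g
      obtain ⟨m, rfl⟩ := Φ.rangeRestrict_surjective g
      exact DFunLike.congr_fun e m
    · exact Or.inr (e.trans (by rintro _ ⟨m, rfl⟩; exact ⟨_, rfl⟩))
  · intro p
    obtain ⟨m, hm⟩ := hnofix p.1 p.2.1 (by rw [p.2.2]; norm_num) (by rw [p.2.2]; norm_num)
    exact ⟨Φ.rangeRestrict m, fun e => hm (congrArg Subtype.val ((hsmulP m p).symm.trans e))⟩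
  · intro l
    obtain ⟨m, hm⟩ := hnofix l.1 l.2.1 (by rw [l.2.2]; norm_num) (by rw [l.2.2]; norm_num)
    exact ⟨Φ.rangeRestrict m, fun e => hm (congrArg Subtype.val ((hsmulL m l).symm.trans e))⟩

end HexTransitive

end CfsgLib.JFour
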