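import Mathlib

/-!
An endomorphism `ψ` with `ψ ^ 4 = 1` of an abelian group of order `2 ^ 12` commuting with a
fixed-point-free automorphism of order 3: the kernel of `ψ ∘ ψ` has order at least `2 ^ 8`.
-/

set_option autoImplicit false

namespace CfsgLib.JFour

variable {V : Type*} [CommGroup V] [Finite V]

/-- A subgroup of a 2-group invariant under a fixed-point-free automorphism of order 3 has order a power of 4. -/
theorem fpf_card (n : ℕ) (hV : Nat.card V = 2 ^ n) (φ : V ≃* V) (h3 : ∀ x, φ (φ (φ x)) = x)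
    (hfix : ∀ x, φ x = x → x = 1) (S : Subgroup V) (hS : ∀ x ∈ S, φ x ∈ S) :
    ∃ a, 2 * a ≤ n ∧ Nat.card ↥S = 2 ^ (2 * a) := by
  classical
  haveI := Fintype.ofFinite ↥S
  haveI : Fact (Nat.Prime 3) := ⟨Nat.prime_three⟩
  let f : Function.End ↥S := fun x => ⟨φ x, hS x x.2⟩
  have hf : f ^ 3 ^ 1 = 1 := by
    funext x
    apply Subtype.ext
    show ((f ^ 3) x : V) = x
    rw [pow_succ, pow_succ, pow_one]
    exact h3 x
  have h := Equiv.Perm.card_fixedPoints_modEq (p := 3) hf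
  have h1 : Fintype.card (Function.fixedPoints f) = 1 := by
    rw [Fintype.card_eq_one_iff]
    refine ⟨⟨1, Subtype.ext (map_one φ)⟩, fun ⟨x, hx⟩ => Subtype.ext (Subtype.ext ?_)⟩
    exact hfix x (congrArg Subtype.val hx)
  rw [h1, ← Nat.card_eq_fintype_card] at h
  obtain ⟨k, hk, hc⟩ := (Nat.dvd_prime_pow Nat.prime_two).mp (hV ▸ S.card_subgroup_dvd_card)
  rcases Nat.even_or_odd k with ⟨a, ha⟩ | ⟨a, ha⟩
  · exact ⟨a, by omega, by rw [hc, ha, two_mul]⟩
  · exfalso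
    rw [hc, ha, pow_succ, pow_mul] at h
    have h4 : (2 ^ 2) ^ a * 2 ≡ 1 ^ a * 2 [MOD 3] :=
      ((show (2 ^ 2 : ℕ) ≡ 1 [MOD 3] by decide).pow a).mul_right 2
    rw [one_pow, one_mul] at h4
    exact absurd (h4.symm.trans h) (by decide)

/-- The kernel of `ψ ∘ ψ` is large. -/
theorem card_ker_sq (hV : Nat.card V = 2 ^ 12) (φ : V ≃* V) (h3 : ∀ x, φ (φ (φ x)) = x)
    (hfix : ∀ x, φ x = x → x = 1) (ψ : V →* V) (hc : ∀ x, ψ (φ x) = φ (ψ x))
    (h4 : ∀ x, ψ (ψ (ψ (ψ x))) = 1) : 2 ^ 8 ≤ Nat.card ↥(ψ.comp ψ).ker := by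
  have hk : ∀ (χ : V →* V), (∀ x, χ (φ x) = φ (χ x)) →
      ∃ a, 2 * a ≤ 12 ∧ Nat.card ↥χ.ker = 2 ^ (2 * a) := fun χ hχ =>
    fpf_card 12 hV φ h3 hfix χ.ker fun x hx => by
      rw [MonoidHom.mem_ker] at hx ⊢
      rw [hχ, hx, map_one]
  have hc2 : ∀ x, (ψ.comp ψ) (φ x) = φ ((ψ.comp ψ) x) := fun x => by simp [hc]
  obtain ⟨a1, -, e1⟩ := hk ψ hc
  obtain ⟨a2, -, e2⟩ := hk (ψ.comp ψ) hc2
  have card_eq : ∀ (χ : V →* V), Nat.card V = Nat.card ↥χ.range * Nat.card ↥χ.ker := fun χ => by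
    rw [← Nat.card_congr (QuotientGroup.quotientKerEquivRange χ).toEquiv,
      ← Subgroup.card_eq_card_quotient_mul_card_subgroup]
  have hle : (ψ.comp ψ).range ≤ (ψ.comp ψ).ker := by
    rintro _ ⟨x, rfl⟩
    exact h4 x
  have hsq : 2 ^ 12 ≤ 2 ^ (2 * a2) * 2 ^ (2 * a2) := by
    rw [← e2, ← hV, card_eq (ψ.comp ψ)]
    exact Nat.mul_le_mul (Subgroup.card_le_of_le hle) le_rfl
  rw [← pow_add] at hsq
  have ha2 : 3 ≤ a2 := by
    have := (Nat.pow_le_pow_iff_right one_lt_two).mp hsq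
    omega
  rcases Nat.lt_or_ge a2 4 with hlt | hge
  · exfalso
    have ha : a2 = 3 := by omega
    have heq : (ψ.comp ψ).range = (ψ.comp ψ).ker := by
      refine Subgroup.eq_of_le_of_card_ge hle ?_
      have h := card_eq (ψ.comp ψ)
      rw [hV, e2, ha] at h
      rw [e2, ha]
      omega
    -- restriction of `ψ` to the kernel of `ψ ∘ ψ` maps onto the kernel of `ψ`
    let r : ↥(ψ.comp ψ).ker →* ↥ψ.ker :=
      (ψ.comp (ψ.comp ψ).ker.subtype).codRestrict ψ.ker fun x => x.2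
    have hr : Function.Surjective r := by
      rintro ⟨k, hk⟩
      have hk2 : k ∈ (ψ.comp ψ).ker := by
        show ψ (ψ k) = 1
        rw [MonoidHom.mem_ker.mp hk, map_one]
      rw [← heq] at hk2
      obtain ⟨y, hy⟩ := hk2
      have hy' : ψ (ψ y) = k := hy
      refine ⟨⟨ψ y, ?_⟩, Subtype.ext hy'⟩
      show ψ (ψ (ψ y)) = 1
      rw [hy']; exact hk
    have hker : Nat.card ↥r.ker = Nat.card ↥ψ.ker := by
      refine Nat.card_congr
        { toFun := fun x => ⟨((x : ↥(ψ.comp ψ).ker) : V), congrArg Subtype.val x.2⟩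
          invFun := fun x => ⟨⟨(x : V), by
            show ψ (ψ (x : V)) = 1
            rw [MonoidHom.mem_ker.mp x.2, map_one]⟩, Subtype.ext x.2⟩
          left_inv := fun x => rfl
          right_inv := fun x => rfl }
    have h := Subgroup.card_eq_card_quotient_mul_card_subgroup r.ker
    rw [Nat.card_congr (QuotientGroup.quotientKerEquivOfSurjective r hr).toEquiv, hker, e1, e2,
      ← pow_add] at h
    have := Nat.pow_right_injective le_rfl h
    omega
  · rw [e2]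
    exact Nat.pow_le_pow_right two_pos (by omega)

end CfsgLib.JFour
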