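import Cfsg.Agent.Lib.JFour.DuadLocal

/-!
# Groups of Janko-four type: the 45 cosets of `U` in `E` fixed by an element of `W`

An element `e ∈ E ∖ U` commuting with `a ∈ A` gives, by conjugation under `M0` and `P`, 45 cosets of
`U`, each with at least 64 elements commuting with their representative.
-/

set_option autoImplicit false
set_option linter.unusedSectionVars false

open Cfsg

namespace CfsgLib.JFour

variable {G : Type*} [Group G]

namespace HexTransitive

open HexFrame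

variable [Finite G] {E R P W M0 : Subgroup G} {z : G} (h : HexTransitive E R P W M0 z)
include h

/-- The elements of `W` centralising an element of `E ∖ U` that centralises `a`. -/
theorem cent_W_cases {e a w : G} (he : e ∈ E) (heU : e ∉ U E W) (ha : a ∈ W)
    (haz : a ∉ Subgroup.zpowers z) (hae : a * e = e * a) (hw : w ∈ W) (hwe : w * e = e * w) :
    w = 1 ∨ w = z ∨ w = a ∨ w = z * a := by
  by_cases hwz : w ∈ Subgroup.zpowers z
  · rcases h.mem_Z.mp hwz with e1 | e1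
    · exact Or.inl e1
    · exact Or.inr (Or.inl e1)
  by_cases hawz : a * w ∈ Subgroup.zpowers z
  · have ha2 := h.W_sq a ha
    have e0 : w = a * (a * w) := by rw [← mul_assoc, ha2, one_mul]
    rcases h.mem_Z.mp hawz with e1 | e1 <;> rw [e1] at e0
    · exact Or.inr (Or.inr (Or.inl (e0.trans (mul_one a))))
    · exact Or.inr (Or.inr (Or.inr (e0.trans (h.W_z a ha))))
  · exact absurd (h.main.2 a ha w hw haz hwz hawz e he hae hwe) heU

/-- A product `e w` of order two commutes. -/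
theorem commute_of_sq {e w : G} (he : e ∈ E) (hw : w ∈ W) (hy : e * w * (e * w) = 1) :
    w * e = e * w ∧ e * e = 1 := by
  have hwi : w⁻¹ = w := inv_eq_of_mul_eq_one_right (h.W_sq w hw)
  have h1 : cmm w e = (e * e)⁻¹ := by
    have h2 : w * e * w = e⁻¹ := eq_inv_of_mul_eq_one_right (by rw [← hy]; group)
    rw [cmm, hwi, h2]; group
  have hz : cmm w e ∈ Subgroup.zpowers z := by
    rw [h1]
    refine inv_mem ?_
    rcases h.sq_E e he with c | c <;> rw [c]
    · exact one_mem _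
    · exact Subgroup.mem_zpowers z
  have hc := h.mem_Z_of_cmm hw he hz
  refine ⟨hc, ?_⟩
  rw [h.cmm_eq_one_iff.mpr hc] at h1
  exact inv_eq_one.mp h1.symm

/-- Half of `U` at least commutes with a given element of `E`. -/
theorem card_U_cent {e : G} (he : e ∈ E) :
    64 ≤ Nat.card ↥(U E W ⊓ Subgroup.centralizer ({e} : Set G)) := by
  classical
  set C := U E W ⊓ Subgroup.centralizer ({e} : Set G) with hC
  have memC : ∀ {u : G}, u ∈ C ↔ u ∈ U E W ∧ e * u = u * e := by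
    intro u
    rw [hC, Subgroup.mem_inf, Subgroup.mem_centralizer_singleton_iff, eq_comm (a := u * e)]
  by_cases hall : ∀ u ∈ U E W, e * u = u * e
  · have hle := Subgroup.card_le_of_le (show U E W ≤ C from fun u hu => memC.mpr ⟨hu, hall u hu⟩)
    rw [h.card_U] at hle
    omega
  push Not at hall
  obtain ⟨u₀, hu₀, hne⟩ := hall
  have hflip : e * u₀ * e⁻¹ = z * u₀ := (h.conj_E_eq he (U_le hu₀)).resolve_left
    fun c => hne (mul_inv_eq_iff_eq_mul.mp c)
  have hsub : (U E W : Set G) ⊆ (C : Set G) ∪ (u₀ * ·) '' (C : Set G) := by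
    intro u hu
    rcases h.conj_E_eq he (U_le hu) with c | c
    · exact Or.inl (memC.mpr ⟨hu, mul_inv_eq_iff_eq_mul.mp c⟩)
    · refine Or.inr ⟨u₀ * u, memC.mpr ⟨mul_mem hu₀ hu, mul_inv_eq_iff_eq_mul.mp ?_⟩, ?_⟩
      · rw [show e * (u₀ * u) * e⁻¹ = e * u₀ * e⁻¹ * (e * u * e⁻¹) by group, hflip, c,
          show z * u₀ * (z * u) = z * (u₀ * z) * u by group, h.E_z (U_le hu₀), ← mul_assoc z,
          h.z_sq, one_mul]
      · show u₀ * (u₀ * u) = u
        rw [← mul_assoc, h.U_sq hu₀, one_mul]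
  have h1 := Set.ncard_le_ncard hsub (Set.toFinite _)
  have h2 := Set.ncard_union_le (C : Set G) ((u₀ * ·) '' (C : Set G))
  rw [Set.ncard_image_of_injective _ (mul_right_injective u₀)] at h2
  rw [← Nat.card_coe_set_eq] at h1
  simp only [← Nat.card_coe_set_eq (C : Set G)] at h2
  rw [show Nat.card ↥(U E W : Set G) = 2 ^ 7 from h.card_U] at h1
  change _ ≤ Nat.card ↥C + Nat.card ↥C at h2
  omega

theorem conjP_pow {p x : G} (hp : p ∈ P) (hx : x ∈ W) (k : ℕ) : p ^ k * x * (p ^ k)⁻¹ = x :=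
  h.conj_P_eq (pow_mem hp k) hx

/-- If all elements `e u` with `u ∈ U` commuting with `e` are conjugate, then some class meets
`E ∖ ⟨z⟩` in at least 2880 involutions. -/
theorem count_cosets {A : Set G} (hA : Section E M0 W z A) {e a : G} (he : e ∈ E)
    (heU : e ∉ U E W) (he2 : e * e = 1) (ha : a ∈ A) (hae : a * e = e * a)
    (hall : ∀ u ∈ U E W, e * u = u * e → IsConj e (e * u)) :
    ∃ T : Set G, (∀ x ∈ T, x ∈ E ∧ x * x = 1 ∧ x ∉ Subgroup.zpowers z) ∧
      (∀ x ∈ T, ∀ y ∈ T, IsConj x y) ∧ 2880 ≤ T.ncard := by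
  classical
  obtain ⟨haW, haz⟩ := hA.sub a ha
  obtain ⟨p, hp, hp1⟩ := h.exists_gen
  have hp3 : p ^ 3 = 1 := by
    have : (⟨p, hp⟩ : ↥P) ^ Nat.card ↥P = 1 := pow_card_eq_one'
    rw [h.card_P] at this
    simpa using congrArg Subtype.val this
  have hm : ∀ b : A, ∃ m ∈ M0, m * a * m⁻¹ = (b : G) ∨ m * a * m⁻¹ = z * b :=
    fun b => h.trans a haW haz b (hA.sub b b.2).1 (hA.sub b b.2).2
  choose m hmM hmb using hm
  set C := U E W ⊓ Subgroup.centralizer ({e} : Set G) with hC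
  have memC : ∀ u : C, (u : G) ∈ U E W ∧ e * u = u * e := fun u =>
    ⟨u.2.1, (Subgroup.mem_centralizer_singleton_iff.mp u.2.2).symm⟩
  have hsq : ∀ u : C, e * (u : G) * (e * u) = 1 := fun u => by
    obtain ⟨huU, hc⟩ := memC u
    rw [show e * (u : G) * (e * u) = e * (u * e) * u by group, ← hc, ← mul_assoc e, he2, one_mul,
      h.U_sq huU]
  have heuU : ∀ u : C, e * (u : G) ∉ U E W := fun u hh =>
    heU (by simpa using mul_mem hh (inv_mem (memC u).1))
  have hxa : ∀ (k : ℕ) (u : C), a * (p ^ k * (e * u) * (p ^ k)⁻¹) =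
      p ^ k * (e * u) * (p ^ k)⁻¹ * a := by
    intro k u
    calc a * (p ^ k * (e * u) * (p ^ k)⁻¹)
        = (p ^ k * a * (p ^ k)⁻¹) * (p ^ k * (e * u) * (p ^ k)⁻¹) := by rw [h.conjP_pow hp haW k]
      _ = p ^ k * (a * e * u) * (p ^ k)⁻¹ := by group
      _ = p ^ k * (e * u * a) * (p ^ k)⁻¹ := by
        rw [hae, mul_assoc e a, U_comm (memC u).1 haW, ← mul_assoc e]
      _ = (p ^ k * (e * u) * (p ^ k)⁻¹) * (p ^ k * a * (p ^ k)⁻¹) := by group
      _ = _ := by rw [h.conjP_pow hp haW k]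
  let f : A × Fin 3 × C → G := fun x =>
    m x.1 * (p ^ (x.2.1 : ℕ) * (e * (x.2.2 : G)) * (p ^ (x.2.1 : ℕ))⁻¹) * (m x.1)⁻¹
  have hfE : ∀ x, f x ∈ E := fun x =>
    h.M0_E _ (hmM x.1) _ (h.R_norm _ (h.P_le (pow_mem hp _)) _ (mul_mem he (U_le (memC x.2.2).1)))
  have hfU : ∀ x, f x ∉ U E W := by
    intro x hx
    refine heuU x.2.2 (mem_U (mul_mem he (U_le (memC x.2.2).1)) fun w hw => ?_)
    set y := e * ((x.2.2 : C) : G) with hy
    set k : ℕ := (x.2.1 : ℕ)
    have hfx : f x = m x.1 * (p ^ k * y * (p ^ k)⁻¹) * (m x.1)⁻¹ := rfl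
    have hw' : m x.1 * w * (m x.1)⁻¹ ∈ W := h.M0_W _ (hmM x.1) w hw
    have hc : m x.1 * w * (m x.1)⁻¹ * f x = f x * (m x.1 * w * (m x.1)⁻¹) := U_comm hx hw'
    have hq : p ^ k * w * (p ^ k)⁻¹ = w := h.conjP_pow hp hw k
    have h2 : w * (p ^ k * y * (p ^ k)⁻¹) = p ^ k * y * (p ^ k)⁻¹ * w := by
      calc w * (p ^ k * y * (p ^ k)⁻¹)
          = (m x.1)⁻¹ * (m x.1 * w * (m x.1)⁻¹ * f x) * m x.1 := by rw [hfx]; group
        _ = (m x.1)⁻¹ * (f x * (m x.1 * w * (m x.1)⁻¹)) * m x.1 := by rw [hc]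
        _ = _ := by rw [hfx]; group
    rw [← hq] at h2
    calc w * y = (p ^ k)⁻¹ * (p ^ k * w * (p ^ k)⁻¹ * (p ^ k * y * (p ^ k)⁻¹)) * p ^ k := by group
      _ = (p ^ k)⁻¹ * (p ^ k * y * (p ^ k)⁻¹ * (p ^ k * w * (p ^ k)⁻¹)) * p ^ k := by rw [h2]
      _ = y * w := by group
  have hfb : ∀ x, (x.1 : G) * f x = f x * x.1 := by
    intro x
    have h1 : m x.1 * a * (m x.1)⁻¹ * f x = f x * (m x.1 * a * (m x.1)⁻¹) := by
      calc m x.1 * a * (m x.1)⁻¹ * f x
          = m x.1 * (a * (p ^ (x.2.1 : ℕ) * (e * (x.2.2 : G)) * (p ^ (x.2.1 : ℕ))⁻¹)) *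
              (m x.1)⁻¹ := by simp only [f]; group
        _ = m x.1 * (p ^ (x.2.1 : ℕ) * (e * (x.2.2 : G)) * (p ^ (x.2.1 : ℕ))⁻¹ * a) *
              (m x.1)⁻¹ := by rw [hxa]
        _ = _ := by simp only [f]; group
    rcases hmb x.1 with c | c <;> rw [c] at h1
    · exact h1
    · rw [mul_assoc, ← mul_assoc (f x), h.E_z (hfE x), mul_assoc z (f x)] at h1
      exact mul_left_cancel h1
  have hne : ∀ u u' : C, p * (e * (u : G)) * p⁻¹ ≠ e * u' := by
    intro u u' heq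
    apply heU
    set v := (u' : G) * (p * (u : G) * p⁻¹)⁻¹ with hv
    have hvU : v ∈ U E W := mul_mem (memC u').1 (inv_mem (h.conjP_U hp (memC u).1))
    have h1 : p * e * p⁻¹ = e * v := by
      rw [hv, ← mul_assoc, ← heq]; group
    have h2 : p * (p * e * p⁻¹) * p⁻¹ = e * v * (p * v * p⁻¹) := by
      rw [h1, show p * (e * v) * p⁻¹ = p * e * p⁻¹ * (p * v * p⁻¹) by group, h1]
    have h3 := h.orbit_prod he hp hp1
    rw [h2, h1] at h3
    have h4 : e * (e * v) * (e * v * (p * v * p⁻¹)) = v * e * (v * (p * v * p⁻¹)) := by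
      rw [← mul_assoc e e, he2, one_mul]; group
    rw [h4] at h3
    have hvv : v * (p * v * p⁻¹) ∈ U E W := mul_mem hvU (h.conjP_U hp hvU)
    have h5 : v * e * (v * (p * v * p⁻¹)) ∈ U E W := by
      rcases h3 with c | c <;> rw [c]
      · exact one_mem _
      · exact h.z_U
    have h6 := mul_mem (mul_mem (inv_mem hvU) h5) (inv_mem hvv)
    rwa [show v⁻¹ * (v * e * (v * (p * v * p⁻¹))) * (v * (p * v * p⁻¹))⁻¹ = e by group] at h6
  have hinj : Function.Injective f := by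
    rintro ⟨b, i, u⟩ ⟨b', j, u'⟩ heq
    have hbb : b = b' := by
      by_contra hbb
      obtain ⟨hbW, hbz⟩ := hA.sub b b.2
      obtain ⟨hbW', hbz'⟩ := hA.sub b' b'.2
      refine hfU ⟨b, i, u⟩ (h.main.2 b hbW b' hbW' hbz hbz' (fun hh => ?_) _ (hfE (b, i, u)) (hfb (b, i, u)) ?_)
      · have hb2 := h.W_sq b hbW
        have e0 : (b' : G) = b * (b * b') := by rw [← mul_assoc, hb2, one_mul]
        rcases h.mem_Z.mp hh with e1 | e1 <;> rw [e1] at e0
        · exact hbb (Subtype.ext (e0.trans (mul_one _)).symm)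
        · rw [h.W_z b hbW] at e0
          exact (hA.one b hbW hbz).mp b.2 (e0 ▸ b'.2)
      · rw [heq]; exact hfb (b', j, u')
    subst hbb
    simp only [f, mul_left_inj, mul_right_inj] at heq
    have hp31 : ∀ k : ℕ, p ^ (k + 3) = p ^ k := fun k => by rw [pow_add, hp3, mul_one]
    have key : ∀ (k : ℕ) (u u' : C), p ^ k * (e * (u : G)) * (p ^ k)⁻¹ =
        p ^ (k + 1) * (e * (u' : G)) * (p ^ (k + 1))⁻¹ → False := by
      intro k u u' hk
      apply hne u' u
      calc p * (e * (u' : G)) * p⁻¹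
          = (p ^ k)⁻¹ * (p ^ (k + 1) * (e * (u' : G)) * (p ^ (k + 1))⁻¹) * p ^ k := by
            rw [pow_succ]; group
        _ = (p ^ k)⁻¹ * (p ^ k * (e * (u : G)) * (p ^ k)⁻¹) * p ^ k := by rw [← hk]
        _ = _ := by group
    have hij : i = j := by
      fin_cases i <;> fin_cases j <;> first
        | rfl
        | exact (key _ _ _ heq).elim
        | exact (key _ _ _ heq.symm).elim
        | exact (key 2 u u' (by rw [hp31 0]; exact heq.symm ▸ rfl)).elim
        | exact (key 2 u' u (by rw [hp31 0]; exact heq ▸ rfl)).elim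
    subst hij
    simp only [mul_left_inj, mul_right_inj] at heq
    obtain rfl : u = u' := Subtype.ext heq
    rfl
  refine ⟨Set.range f, ?_, ?_, ?_⟩
  · rintro _ ⟨x, rfl⟩
    refine ⟨hfE x, ?_, fun hh => hfU x ?_⟩
    · simp only [f]
      set k : ℕ := (x.2.1 : ℕ)
      rw [show m x.1 * (p ^ k * (e * (x.2.2 : G)) * (p ^ k)⁻¹) * (m x.1)⁻¹ *
          (m x.1 * (p ^ k * (e * (x.2.2 : G)) * (p ^ k)⁻¹) * (m x.1)⁻¹) =
        m x.1 * (p ^ k * (e * (x.2.2 : G) * (e * (x.2.2 : G))) * (p ^ k)⁻¹) * (m x.1)⁻¹ by group,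
        hsq]
      group
    · exact (Subgroup.zpowers_le.mpr h.z_U : Subgroup.zpowers z ≤ U E W) hh
  · have hb : ∀ x, IsConj e (f x) := fun x =>
      (hall _ (memC x.2.2).1 (memC x.2.2).2).trans
        (isConj_iff.mpr ⟨m x.1 * p ^ (x.2.1 : ℕ), by simp only [f]; group⟩)
    rintro _ ⟨x, rfl⟩ _ ⟨y, rfl⟩
    exact (hb x).symm.trans (hb y)
  · rw [← Nat.card_coe_set_eq, Nat.card_range_of_injective hinj, Nat.card_prod, Nat.card_prod,
      h.card_A hA, Nat.card_eq_fintype_card (α := Fin 3), Fintype.card_fin]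
    have := h.card_U_cent he
    rw [← hC] at this
    omega

end HexTransitive

end CfsgLib.JFour
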