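import Cfsg.Agent.Lib.JFour.PointCode
import Cfsg.Agent.Lib.Golay.M24
import Cfsg.Agent.Lib.ExtraspecialLarge.LeechMonomial

/-!
The normalizer acts on the 24 labels as the Mathieu group, with kernel `V`.
-/

set_option autoImplicit false
set_option linter.unusedSectionVars false

namespace CfsgLib.JFour.PointData

open Cfsg CfsgLib.ExtraspecialLarge

variable {G : Type*} [Group G] [Finite G] {V : Subgroup G} {D : Set G} {lam : Fin 24 → G}
  (P : PointData V D lam)

include P

theorem meet {a b : Fin 24} (hab : a ≠ b) {y : G} (hy : y ∈ D) (h : lam a * lam b * y ∈ D) :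
    (∃ c, c ≠ a ∧ y = lam a * lam c) ∨ (∃ c, c ≠ b ∧ y = lam b * lam c) := by
  obtain ⟨k, l, hkl, rfl⟩ := P.pair_surj y hy
  by_cases h1 : a = k
  · exact Or.inl ⟨l, fun k' => hkl (k'.trans h1).symm, by rw [h1]⟩
  by_cases h2 : a = l
  · exact Or.inl ⟨k, fun k' => h1 k'.symm, by rw [h2, P.pair_comm]⟩
  by_cases h3 : b = k
  · exact Or.inr ⟨l, fun k' => hkl (k'.trans h3).symm, by rw [h3]⟩
  by_cases h4 : b = l
  · exact Or.inr ⟨k, fun k' => h3 k'.symm, by rw [h4, P.pair_comm]⟩
  exact absurd h (P.disjoint_notMem a b k l hab hkl h1 h2 h3 h4)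

theorem conj_pair_mem {n : G} (hn : n ∈ Subgroup.normalizer (V : Set G)) {i j : Fin 24}
    (hij : i ≠ j) : n * (lam i * lam j) * n⁻¹ ∈ D := P.conj_mem n hn _ (P.pair_mem i j hij)

theorem exists_image {n : G} (hn : n ∈ Subgroup.normalizer (V : Set G)) (i : Fin 24) :
    ∃ a, ∀ j, j ≠ i → ∃ b, b ≠ a ∧ n * (lam i * lam j) * n⁻¹ = lam a * lam b := by
  obtain ⟨j₀, k₀, hj, hk, hjk⟩ : ∃ j₀ k₀ : Fin 24, j₀ ≠ i ∧ k₀ ≠ i ∧ j₀ ≠ k₀ :=
    ⟨i + 1, i + 2, by revert i; decide, by revert i; decide, by revert i; decide⟩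
  obtain ⟨a', b', hab', e₀⟩ := P.pair_surj _ (P.conj_pair_mem hn hj.symm)
  have hprod : ∀ j k, j ≠ k → n * (lam i * lam j) * n⁻¹ * (n * (lam i * lam k) * n⁻¹) ∈ D := by
    intro j k h
    have := P.conj_mem n hn _ (P.share_mem (i := i) h)
    simpa [mul_assoc] using this
  obtain ⟨a, b, c, hab, hac, ej, ek⟩ : ∃ a b c, a ≠ b ∧ a ≠ c ∧
      n * (lam i * lam j₀) * n⁻¹ = lam a * lam b ∧ n * (lam i * lam k₀) * n⁻¹ = lam a * lam c := by
    have h := hprod j₀ k₀ hjk
    rw [e₀] at h
    rcases P.meet hab' (P.conj_pair_mem hn hk.symm) h with ⟨c, hc, hce⟩ | ⟨c, hc, hce⟩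
    · exact ⟨a', b', c, hab', hc.symm, e₀, hce⟩
    · exact ⟨b', a', c, hab'.symm, hc.symm, e₀.trans (P.pair_comm a' b'), hce⟩
  refine ⟨a, fun j hji => ?_⟩
  by_cases h1 : j = j₀
  · exact ⟨b, hab.symm, h1 ▸ ej⟩
  by_cases h2 : j = k₀
  · exact ⟨c, hac.symm, h2 ▸ ek⟩
  have hy := P.conj_pair_mem hn (Ne.symm hji)
  have g1 := hprod j₀ j (Ne.symm h1)
  have g2 := hprod k₀ j (Ne.symm h2)
  rw [ej] at g1
  rw [ek] at g2
  rcases P.meet hab hy g1 with h | ⟨u, hu, eu⟩
  · exact h
  rcases P.meet hac hy g2 with h | ⟨v, hv, ev⟩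
  · exact h
  exfalso
  have hbc : b ≠ c := by
    rintro rfl
    have h0 := ej.trans ek.symm
    simp only [mul_left_inj, mul_right_inj] at h0
    rcases P.pair_inj i j₀ i k₀ hj.symm hk.symm (by rw [h0]) with g | g
    · exact hjk g.2
    · exact hj g.2
  have ebc : n * (lam i * lam j) * n⁻¹ = lam b * lam c := by
    rcases P.pair_inj b u c v hu.symm hv.symm (eu.symm.trans ev) with g | g
    · exact absurd g.1 hbc
    · rw [eu, g.2]
  have e2 : n * (lam i * lam j₀ * (lam i * lam k₀)) * n⁻¹ = lam b * lam c := by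
    have : n * (lam i * lam j₀ * (lam i * lam k₀)) * n⁻¹ =
        n * (lam i * lam j₀) * n⁻¹ * (n * (lam i * lam k₀) * n⁻¹) := by simp [mul_assoc]
    rw [this, ej, ek, P.pair_comm a b, mul_assoc, ← mul_assoc (lam a), P.sq_one (P.lam_mem a),
      one_mul]
  have h3 := ebc.trans e2.symm
  simp only [mul_left_inj, mul_right_inj] at h3
  rw [show lam i * lam j₀ * (lam i * lam k₀) = lam j₀ * lam k₀ by
    rw [P.pair_comm i j₀, mul_assoc, ← mul_assoc (lam i), P.sq_one (P.lam_mem i), one_mul]] at h3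
  rcases P.pair_inj i j j₀ k₀ (Ne.symm hji) hjk h3 with g | g
  · exact hj g.1.symm
  · exact hk g.1.symm

theorem exists_perm {n : G} (hn : n ∈ Subgroup.normalizer (V : Set G)) :
    ∃ s : Equiv.Perm (Fin 24), ∀ i j, i ≠ j →
      n * (lam i * lam j) * n⁻¹ = lam (s i) * lam (s j) := by
  classical
  choose s hs using P.exists_image hn
  have hinj : Function.Injective s := by
    intro i k hik
    by_contra hne
    obtain ⟨l, hli, hlk⟩ : ∃ l : Fin 24, l ≠ i ∧ l ≠ k :=
      (by decide : ∀ a b : Fin 24, ∃ l : Fin 24, l ≠ a ∧ l ≠ b) i k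
    choose b hb hbe using hs i
    obtain ⟨c, hc, hce⟩ := hs k l hlk
    let F : {j : Fin 24 // j ≠ i} → {x : Fin 24 // x ≠ s i} := fun j => ⟨b j.1 j.2, hb j.1 j.2⟩
    have hF : Function.Injective F := by
      intro j j' h
      have h' : b j.1 j.2 = b j'.1 j'.2 := congrArg Subtype.val h
      have e : n * (lam i * lam j.1) * n⁻¹ = n * (lam i * lam j'.1) * n⁻¹ := by
        rw [hbe j.1 j.2, hbe j'.1 j'.2, h']
      simp only [mul_left_inj, mul_right_inj] at e
      rcases P.pair_inj i j.1 i j'.1 (Ne.symm j.2) (Ne.symm j'.2) (by rw [e]) with g | g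
      · exact Subtype.ext g.2
      · exact absurd g.2 j.2
    obtain ⟨j, hj⟩ := ((Fintype.bijective_iff_injective_and_card F).mpr
      ⟨hF, by simp [Fintype.card_subtype_compl]⟩).2 ⟨c, hik ▸ hc⟩
    have hjc : b j.1 j.2 = c := congrArg Subtype.val hj
    have e := hbe j.1 j.2
    rw [hjc, hik, ← hce] at e
    simp only [mul_left_inj, mul_right_inj] at e
    rcases P.pair_inj i j.1 k l (Ne.symm j.2) hlk.symm e with g | g
    · exact hne g.1
    · exact hli g.1.symm
  refine ⟨Equiv.ofBijective s (Finite.injective_iff_bijective.mp hinj), fun i j hij => ?_⟩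
  obtain ⟨b, hb, hbe⟩ := hs i j hij.symm
  obtain ⟨c, hc, hce⟩ := hs j i hij
  rw [P.pair_comm j i, hbe] at hce
  rcases P.pair_inj (s i) b (s j) c hb.symm hc.symm hce with g | g
  · exact absurd (hinj g.1) hij
  · simp only [Equiv.ofBijective_apply]
    rw [hbe, g.2]

theorem perm_unique {s t : Equiv.Perm (Fin 24)}
    (h : ∀ i j, i ≠ j → lam (s i) * lam (s j) = lam (t i) * lam (t j)) : s = t := by
  refine Equiv.ext fun i => ?_
  obtain ⟨j, k, hj, hk, hjk⟩ : ∃ j k : Fin 24, i ≠ j ∧ i ≠ k ∧ j ≠ k := by revert i; decide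
  rcases P.pair_inj _ _ _ _ (s.injective.ne hj) (t.injective.ne hj) (h i j hj) with g | g
  · exact g.1
  rcases P.pair_inj _ _ _ _ (s.injective.ne hk) (t.injective.ne hk) (h i k hk) with g' | g'
  · exact g'.1
  exact absurd (t.injective (g.1.symm.trans g'.1)) hjk

/-- The permutation of the labels induced by a normalizing element. -/
noncomputable def perm (n : ↥(Subgroup.normalizer (V : Set G))) : Equiv.Perm (Fin 24) :=
  (P.exists_perm n.2).choose

theorem perm_spec (n : ↥(Subgroup.normalizer (V : Set G))) {i j : Fin 24} (h : i ≠ j) :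
    (n : G) * (lam i * lam j) * (n : G)⁻¹ = lam (P.perm n i) * lam (P.perm n j) :=
  (P.exists_perm n.2).choose_spec i j h

theorem perm_mul (m n : ↥(Subgroup.normalizer (V : Set G))) :
    P.perm (m * n) = P.perm m * P.perm n := by
  refine P.perm_unique fun i j h => ?_
  rw [← P.perm_spec (m * n) h, Equiv.Perm.mul_apply, Equiv.Perm.mul_apply,
    ← P.perm_spec m ((P.perm n).injective.ne h), ← P.perm_spec n h]
  simp [mul_assoc]

/-- The action on the labels. -/
noncomputable def permHom : ↥(Subgroup.normalizer (V : Set G)) →* Equiv.Perm (Fin 24) :=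
  MonoidHom.mk' P.perm P.perm_mul

theorem conj_pair_eq_of_mem {n : G} (hn : n ∈ V) {x : G} (hx : x ∈ V) : n * x * n⁻¹ = x := by
  rw [P.comm hn hx, mul_inv_cancel_right]

theorem ker_permHom : (P.permHom).ker = V.subgroupOf (Subgroup.normalizer (V : Set G)) := by
  ext n
  rw [MonoidHom.mem_ker, Subgroup.mem_subgroupOf]
  constructor
  · intro h
    have hfix : ∀ y ∈ V, (n : G) * y * (n : G)⁻¹ = y := by
      intro y hy
      rw [P.gen] at hy
      induction hy using Subgroup.closure_induction with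
      | mem y hy =>
        obtain ⟨i, j, hij, rfl⟩ := P.pair_surj y hy
        rw [P.perm_spec n hij]
        have h1 : P.perm n = 1 := h
        simp [h1]
      | one => simp
      | mul a b _ _ ha hb =>
        calc (n : G) * (a * b) * (n : G)⁻¹
            = (n : G) * a * (n : G)⁻¹ * ((n : G) * b * (n : G)⁻¹) := by simp [mul_assoc]
          _ = a * b := by rw [ha, hb]
      | inv a _ ha => rw [← conj_inv, ha]
    refine P.cent_V (Subgroup.mem_centralizer_iff.mpr fun y hy => ?_)
    have e := mul_inv_eq_iff_eq_mul.mp (hfix y hy)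
    exact e.symm
  · intro hn
    show P.perm n = 1
    refine P.perm_unique fun i j h => ?_
    rw [← P.perm_spec n h, P.conj_pair_eq_of_mem hn (V.mul_mem (P.lam_mem i) (P.lam_mem j))]
    simp

/-- The code is invariant. -/
theorem code_perm (n : ↥(Subgroup.normalizer (V : Set G))) {t : Finset (Fin 24)}
    (h : vec t ∈ P.code) : vec (t.image (P.perm n)) ∈ P.code := by
  classical
  rw [P.vec_mem_code] at h ⊢
  rw [Finset.card_image_of_injective _ (P.perm n).injective]
  refine ⟨h.1, ?_⟩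
  have hmem : ∀ x ∈ V, (n : G) * x * (n : G)⁻¹ ∈ V := fun x hx =>
    (Subgroup.mem_normalizer_iff.mp n.2 x).mp hx
  obtain ⟨d, hd⟩ : ∃ d, d = lam (P.perm n 0) * ((n : G) * lam 0 * (n : G)⁻¹) := ⟨_, rfl⟩
  have hdV : d ∈ V := hd ▸ V.mul_mem (P.lam_mem _) (hmem _ (P.lam_mem 0))
  have hone : ∀ i, (n : G) * lam i * (n : G)⁻¹ = lam (P.perm n i) * d := by
    intro i
    by_cases hi : i = 0
    · subst hi
      rw [hd, ← mul_assoc, P.sq_one (P.lam_mem _), one_mul]
    · rw [hd, ← mul_assoc, ← P.perm_spec n hi]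
      calc (n : G) * lam i * (n : G)⁻¹
          = (n : G) * (lam i * (lam 0 * lam 0)) * (n : G)⁻¹ := by
            rw [P.sq_one (P.lam_mem 0), mul_one]
        _ = _ := by simp [mul_assoc]
  have hall : ∀ u : Finset (Fin 24), (n : G) * P.val (vec u) * (n : G)⁻¹ =
      P.val (vec (u.image (P.perm n))) * d ^ u.card := by
    intro u
    induction u using Finset.induction_on with
    | empty =>
      have e0 : vec (∅ : Finset (Fin 24)) = 0 := by funext a; simp [vec]
      simp [e0, P.val_zero]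
    | insert a u ha ih =>
      have ha' : P.perm n a ∉ u.image (P.perm n) := by simpa using ha
      rw [P.val_insert ha, Finset.image_insert, P.val_insert ha', Finset.card_insert_of_notMem ha]
      calc (n : G) * (lam a * P.val (vec u)) * (n : G)⁻¹
          = (n : G) * lam a * (n : G)⁻¹ * ((n : G) * P.val (vec u) * (n : G)⁻¹) := by
            simp [mul_assoc]
        _ = _ := by
            rw [hone, ih, mul_assoc, ← mul_assoc d, P.comm hdV (P.val_mem _), pow_succ',
              mul_assoc (P.val _), ← mul_assoc (lam _)]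
  have h2 := hall t
  rw [h.2, mul_one, mul_inv_cancel] at h2
  obtain ⟨m, hm⟩ := h.1
  rw [hm, ← two_mul, pow_mul, pow_two, P.sq_one hdV, one_pow, mul_one] at h2
  exact h2.symm

/-- `N(V)/V` is the Mathieu group, acting on the labels. -/
theorem exists_quotient : ∃ (e : GolayPt ≃ Fin 24)
    (q : ↥(Subgroup.normalizer (V : Set G)) →* Equiv.Perm GolayPt),
    q.range = Cfsg.M24 ∧ q.ker = V.subgroupOf (Subgroup.normalizer (V : Set G)) ∧
    (∀ (n : ↥(Subgroup.normalizer (V : Set G))) (x y : GolayPt), x ≠ y →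
      (n : G) * (lam (e x) * lam (e y)) * (n : G)⁻¹ = lam (e (q n x)) * lam (e (q n y))) ∧
    ∀ w : Fin 24 → ZMod 2, w ∈ P.code ↔ (fun x => w (e x)) ∈ golayCode := by
  classical
  obtain ⟨e, he⟩ := P.exists_golay
  let q : ↥(Subgroup.normalizer (V : Set G)) →* Equiv.Perm GolayPt :=
    (e.symm.permCongrHom.toMonoidHom).comp P.permHom
  have hq : ∀ n x, q n x = e.symm (P.perm n (e x)) := fun n x => rfl
  have hker : q.ker = V.subgroupOf (Subgroup.normalizer (V : Set G)) := by
    rw [← P.ker_permHom]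
    ext n
    simp only [MonoidHom.mem_ker, q, MonoidHom.comp_apply]
    exact EmbeddingLike.map_eq_one_iff (f := e.symm.permCongrHom)
  have hle : q.range ≤ Cfsg.M24 := by
    rintro _ ⟨n, rfl⟩
    refine CfsgLib.ExtraspecialLarge.smul_supports_of_comp fun w hw => ?_
    have hw' : (fun i => w (e.symm i)) ∈ P.code := by
      rw [he]; simpa using hw
    rw [← vec_supp (fun i => w (e.symm i))] at hw'
    have h := (he _).mp (P.code_perm n hw')
    convert h using 1
    funext x
    have hx : ((q n).symm x) = e.symm ((P.perm n).symm (e x)) := by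
      rw [Equiv.symm_apply_eq, hq]; simp
    rw [hx]
    simp only [vec, Finset.mem_image]
    by_cases hz : w (e.symm ((P.perm n).symm (e x))) = 0
    · rw [hz, if_neg]
      rintro ⟨a, ha, hax⟩
      rw [← hax, Equiv.symm_apply_apply] at hz
      simp [supp, hz] at ha
    · rw [if_pos ⟨(P.perm n).symm (e x), by simp [supp, hz], by simp⟩]
      rcases zmod_two_cases (w (e.symm ((P.perm n).symm (e x)))) with h0 | h0
      · exact absurd h0 hz
      · exact h0
  refine ⟨e, q, ?_, hker, fun n x y hxy => ?_, he⟩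
  · refine Subgroup.eq_of_le_of_card_ge hle (le_of_eq ?_)
    have h1 := q.ker.card_eq_card_quotient_mul_card_subgroup
    rw [Nat.card_congr (QuotientGroup.quotientKerEquivRange q).toEquiv, hker,
      Nat.card_congr (Subgroup.subgroupOfEquivOfLe (Subgroup.le_normalizer)).toEquiv,
      P.card_N, P.card_V] at h1
    rw [CfsgLib.Golay.natCard_M24]
    omega
  · rw [P.perm_spec n (e.injective.ne hxy), hq, hq]
    simp

/-- The quotient of the normalizer is isomorphic to the Mathieu group. -/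
theorem exists_surjection : ∃ q : ↥(Subgroup.normalizer (V : Set G)) →* ↥Cfsg.M24,
    Function.Surjective q ∧ q.ker = V.subgroupOf (Subgroup.normalizer (V : Set G)) := by
  obtain ⟨e, q, hr, hk, -, -⟩ := P.exists_quotient
  refine ⟨(MulEquiv.subgroupCongr hr).toMonoidHom.comp q.rangeRestrict, ?_, ?_⟩
  · exact (MulEquiv.subgroupCongr hr).surjective.comp q.rangeRestrict_surjective
  · rw [← hk]
    ext n
    simp only [MonoidHom.mem_ker, MonoidHom.comp_apply]
    refine (EmbeddingLike.map_eq_one_iff (f := MulEquiv.subgroupCongr hr)).trans ?_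
    exact ⟨fun h => congrArg Subtype.val h, fun h => Subtype.ext h⟩

end CfsgLib.JFour.PointData
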