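import Cfsg.Agent.Lib.JFour.FuseCount
import Cfsg.Agent.Lib.JFour.DuadPure
import Cfsg.Agent.Lib.JFour.PointIso

/-!
# Groups of Janko-four type: the two kinds of elements of `E` on the 24 points

An element of `E` commuting with some `a ∈ A` fixes the two ends of the duad `a`; there is also an
element of `E` commuting with no element of `W ∖ ⟨z⟩`.
-/

set_option autoImplicit false
set_option linter.unusedSectionVars false

open Cfsg

namespace CfsgLib.JFour

/-- A permutation of eight points of order seven fixes one point and permutes the others cyclically. -/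
theorem seven_on_eight {α : Type*} [Fintype α] [DecidableEq α] (hcard : Fintype.card α = 8)
    {σ : Equiv.Perm α} (h7 : σ ^ 7 = 1) (h1 : σ ≠ 1) :
    ∃ m, σ m = m ∧ ∀ x y, x ≠ m → y ≠ m → ∃ k : ℕ, (σ ^ k) x = y := by
  haveI : Fact (Nat.Prime 7) := ⟨by norm_num⟩
  have ho : orderOf σ = 7 := orderOf_eq_prime h7 h1
  have hcyc : σ.IsCycle :=
    Equiv.Perm.isCycle_of_prime_order' (by rw [ho]; norm_num) (by rw [ho, hcard]; norm_num)
  have hsupp : σ.support.card = 7 := by rw [← hcyc.orderOf, ho]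
  have hc1 : σ.supportᶜ.card = 1 := by rw [Finset.card_compl, hcard, hsupp]
  obtain ⟨m, hm⟩ := Finset.card_eq_one.1 hc1
  have hmem : ∀ x, σ x = x ↔ x = m := fun x => by
    simpa using Finset.ext_iff.1 hm x
  refine ⟨m, (hmem m).2 rfl, fun x y hx hy => ?_⟩
  exact hcyc.exists_pow_eq (fun e => hx ((hmem x).1 e)) (fun e => hy ((hmem y).1 e))

variable {G : Type*} [Group G]

namespace DuadData

open HexFrame

variable [Finite G] {E R P W M0 : Subgroup G} {z : G} {five : Set (Subgroup G)} {A : Set G}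
  (D : DuadData E R P W M0 z five A)
include D

theorem mem_U_of_mem_V {x : G} (hxE : x ∈ E) (hxV : x ∈ U E W ⊔ W) : x ∈ U E W := by
  obtain ⟨u, hu, w, hw, rfl⟩ := D.hT.mem_sup_iff.mp hxV
  refine mul_mem hu ((Subgroup.zpowers_le.mpr D.hT.z_U : Subgroup.zpowers z ≤ U E W) ?_)
  refine D.hT.mem_Z.mpr (D.hT.W_inf_E hw ?_)
  simpa using mul_mem (inv_mem (U_le hu)) hxE

/-- An element of `E ∖ U` commuting with `a ∈ A`. -/
theorem exists_comm_A : ∃ a ∈ A, ∃ e ∈ E, e ∉ U E W ∧ a * e = e * a := by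
  obtain ⟨a, ha⟩ : A.Nonempty := by
    refine Set.nonempty_coe_sort.1 (Nat.card_pos_iff.1 ?_).1
    rw [D.hT.card_A D.sect]; norm_num
  obtain ⟨haW, haz⟩ := D.sect.sub a ha
  refine ⟨a, ha, ?_⟩
  by_contra hcon
  push Not at hcon
  have hle : E ⊓ Subgroup.centralizer ({a} : Set G) ≤ U E W := fun e he => by
    by_contra heU
    exact hcon e he.1 heU (Subgroup.mem_centralizer_singleton_iff.mp he.2).symm
  have h1 := Subgroup.card_le_of_le hle
  rw [D.hT.main.1 a haW haz, D.hT.card_U] at h1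
  norm_num at h1

/-- An element of `E` centralising no element of `W ∖ ⟨z⟩`. -/
theorem exists_comm_none :
    ∃ f ∈ E, ∀ w ∈ W, w * f = f * w → w ∈ Subgroup.zpowers z := by
  classical
  haveI := Fintype.ofFinite A
  haveI := Fintype.ofFinite G
  by_contra hcon
  push Not at hcon
  let s : Finset G := (Finset.univ : Finset A).biUnion fun b =>
    Finset.univ.filter fun f => f ∈ E ∧ (b : G) * f = f * b
  have hsub : (E : Set G) ⊆ (s : Set G) := by
    intro f hf
    obtain ⟨w, hw, hwf, hwz⟩ := hcon f hf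
    simp only [s, Finset.coe_biUnion, Finset.coe_univ, Set.mem_univ, Set.iUnion_true,
      Finset.coe_filter, Finset.mem_univ, true_and, Set.mem_iUnion, Set.mem_ofPred_eq]
    by_cases hwA : w ∈ A
    · exact ⟨⟨w, hwA⟩, hf, hwf⟩
    · refine ⟨⟨z * w, ?_⟩, hf, ?_⟩
      · by_contra hh
        exact hwA ((D.sect.one w hw hwz).mpr hh)
      · show z * w * f = f * (z * w)
        rw [mul_assoc, hwf, ← mul_assoc, ← mul_assoc, D.hT.E_z hf]
  have h1 := Set.ncard_le_ncard hsub (Set.toFinite _)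
  rw [Set.ncard_coe_finset, ← Nat.card_coe_set_eq,
    show Nat.card ↥(E : Set G) = 2 ^ 13 from D.hT.card_E] at h1
  have h2 : s.card ≤ (Finset.univ : Finset A).card * 512 := by
    refine Finset.card_biUnion_le_card_mul _ _ _ fun b _ => le_of_eq ?_
    rw [show (512 : ℕ) = 2 ^ 9 by norm_num, ← D.hT.main.1 b (D.sect.sub b b.2).1 (D.sect.sub b b.2).2,
      Nat.card_eq_fintype_card, Fintype.card_subtype]
    congr 1
    ext f
    simp [Subgroup.mem_inf, Subgroup.mem_centralizer_singleton_iff, eq_comm]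
  rw [Finset.card_univ, ← Nat.card_eq_fintype_card, D.hT.card_A D.sect] at h2
  omega

/-- `U` meets the centralizer of an element of `E ∖ U` in exactly 64 elements. -/
theorem card_U_cent_eq {e : G} (he : e ∈ E) (heU : e ∉ U E W) :
    Nat.card ↥(U E W ⊓ Subgroup.centralizer ({e} : Set G)) = 64 := by
  refine le_antisymm ?_ (D.hT.card_U_cent he)
  set C := U E W ⊓ Subgroup.centralizer ({e} : Set G) with hC
  obtain ⟨k, hk, hCk⟩ := (Nat.dvd_prime_pow Nat.prime_two).1
    (D.hT.card_U ▸ Subgroup.card_dvd_of_le (inf_le_left : C ≤ U E W))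
  rw [hCk]
  have hk7 : k ≠ 7 := by
    rintro rfl
    apply heU
    have heq : C = U E W := Subgroup.eq_of_le_of_card_ge inf_le_left (by rw [hCk, D.hT.card_U])
    refine D.hT.cent_U he fun u hu => ?_
    exact (Subgroup.mem_centralizer_singleton_iff.mp (heq.symm ▸ hu : u ∈ C).2).symm
  interval_cases k <;> first | exact absurd rfl hk7 | norm_num

/-- An element of `E ∖ U` commuting with `a ∈ A` centralises exactly 128 elements of `V`. -/
theorem card_V_cent {e a : G} (he : e ∈ E) (heU : e ∉ U E W) (ha : a ∈ A) (hae : a * e = e * a) :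
    Nat.card ↥((U E W ⊔ W) ⊓ Subgroup.centralizer ({e} : Set G)) = 128 := by
  classical
  obtain ⟨haW, haz⟩ := D.sect.sub a ha
  set Cu := U E W ⊓ Subgroup.centralizer ({e} : Set G) with hCu
  set C := (U E W ⊔ W) ⊓ Subgroup.centralizer ({e} : Set G) with hC
  have memC : ∀ {x : G}, x ∈ C ↔ x ∈ U E W ⊔ W ∧ x * e = e * x := by
    intro x
    rw [hC, Subgroup.mem_inf, Subgroup.mem_centralizer_singleton_iff]
  have hset : (C : Set G) = (Cu : Set G) ∪ (a * ·) '' (Cu : Set G) := by
    ext x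
    constructor
    · intro hx
      obtain ⟨hxV, hxe⟩ := memC.mp hx
      obtain ⟨u, hu, w, hw, rfl⟩ := D.hT.mem_sup_iff.mp hxV
      have hwe : w * e = e * w := by
        refine D.hT.mem_Z_of_cmm hw he ?_
        have h1 : w * e * w⁻¹ = u⁻¹ * e * u := by
          calc w * e * w⁻¹ = u⁻¹ * (u * w * e) * w⁻¹ := by group
            _ = u⁻¹ * (e * (u * w)) * w⁻¹ := by rw [hxe]
            _ = _ := by group
        rw [cmm, h1]
        rcases D.hT.conj_E_eq (inv_mem (U_le hu)) he with c | c <;> rw [inv_inv] at c <;> rw [c]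
        · simp
        · simp
      have hue : u * e = e * u := by
        calc u * e = u * (w * e) * w⁻¹ * (e⁻¹ * e) := by rw [hwe]; group
          _ = (u * w * e) * w⁻¹ := by group
          _ = e * (u * w) * w⁻¹ := by rw [hxe]
          _ = e * u := by group
      rcases D.hT.cent_W_cases he heU haW haz hae hw hwe with rfl | rfl | rfl | rfl
      · refine Or.inl ?_
        rw [mul_one]
        exact Subgroup.mem_inf.mpr ⟨hu, Subgroup.mem_centralizer_singleton_iff.mpr hue⟩
      · refine Or.inl (Subgroup.mem_inf.mpr ⟨mul_mem hu D.hT.z_U,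
          Subgroup.mem_centralizer_singleton_iff.mpr ?_⟩)
        rw [mul_assoc, ← D.hT.E_z he, ← mul_assoc, hue, mul_assoc]
      · exact Or.inr ⟨u, Subgroup.mem_inf.mpr ⟨hu, Subgroup.mem_centralizer_singleton_iff.mpr hue⟩,
          U_comm hu haW⟩
      · refine Or.inr ⟨u * z, Subgroup.mem_inf.mpr ⟨mul_mem hu D.hT.z_U,
          Subgroup.mem_centralizer_singleton_iff.mpr ?_⟩, ?_⟩
        · rw [mul_assoc, ← D.hT.E_z he, ← mul_assoc, hue, mul_assoc]
        · show a * (u * z) = u * (z * a)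
          rw [← mul_assoc, U_comm hu haW, mul_assoc, D.hT.W_z a haW]
    · rintro (hx | ⟨x, hx, rfl⟩)
      · exact memC.mpr ⟨Subgroup.mem_sup_left hx.1, Subgroup.mem_centralizer_singleton_iff.mp hx.2⟩
      · exact mul_mem (memC.mpr ⟨Subgroup.mem_sup_right haW, hae⟩)
          (memC.mpr ⟨Subgroup.mem_sup_left hx.1, Subgroup.mem_centralizer_singleton_iff.mp hx.2⟩)
  have hdisj : Disjoint (Cu : Set G) ((a * ·) '' (Cu : Set G)) := by
    rw [Set.disjoint_left]
    rintro x hx ⟨y, hy, rfl⟩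
    apply haz
    refine D.hT.mem_Z.mpr (D.hT.W_inf_E haW (U_le (W := W) ?_))
    simpa using mul_mem (Subgroup.mem_inf.mp hx).1 (inv_mem (Subgroup.mem_inf.mp hy).1)
  have h64 := D.card_U_cent_eq he heU
  rw [← hCu] at h64
  change Nat.card ↥(C : Set G) = 128
  rw [Nat.card_coe_set_eq, hset, Set.ncard_union_eq hdisj (Set.toFinite _) (Set.toFinite _),
    Set.ncard_image_of_injective _ (mul_right_injective a), ← Nat.card_coe_set_eq]
  change Nat.card ↥Cu + Nat.card ↥Cu = 128
  omega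

variable {lam : Fin 24 → G} {ε : GolayPt ≃ Fin 24}
  {q : ↥(Subgroup.normalizer ((U E W ⊔ W : Subgroup G) : Set G)) →* Equiv.Perm GolayPt}

/-- An element of `E` commuting with `a ∈ A` fixes a point. -/
theorem exists_fixed (PD : PointData (U E W ⊔ W) (Duads E W z five A) lam)
    (hq : ∀ (n : ↥(Subgroup.normalizer ((U E W ⊔ W : Subgroup G) : Set G))) (x y : GolayPt), x ≠ y →
      (n : G) * (lam (ε x) * lam (ε y)) * (n : G)⁻¹ = lam (ε (q n x)) * lam (ε (q n y)))
    {e a : G} (he : e ∈ E) (hen : e ∈ Subgroup.normalizer ((U E W ⊔ W : Subgroup G) : Set G))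
    (ha : a ∈ A) (hae : a * e = e * a) : ∃ x, q ⟨e, hen⟩ x = x := by
  classical
  obtain ⟨haW, haz⟩ := D.sect.sub a ha
  have haU : a ∉ U E W := fun hh =>
    haz (D.hT.mem_Z.mpr (D.hT.W_inf_E haW (U_le hh)))
  have horb : ∀ f ∈ E, cmm a f * a ∈ Duads E W z five A := fun f hf => Or.inr ⟨a, ha, f, hf, rfl⟩
  have haD : a ∈ Duads E W z five A := by simpa [cmm] using horb 1 (one_mem _)
  obtain ⟨S, hS, hSa⟩ : ∃ S, S ∈ five ∧ S ≤ Line E z a := by
    have h2 := D.fiveData.two_points a haW haz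
    obtain ⟨⟨S, hS⟩⟩ := (Nat.card_pos_iff.1 (by rw [h2]; norm_num :
      0 < Nat.card {S : Subgroup G // S ∈ five ∧ S ≤ Line E z a})).1
    exact ⟨S, hS⟩
  obtain ⟨f, hf, hs⟩ : ∃ f ∈ E, cmm a f ∈ specU E W z five := by
    obtain ⟨d, hd, hdz⟩ : ∃ d ∈ S, d ∉ Subgroup.zpowers z := by
      by_contra hcon
      push Not at hcon
      have h1 := Subgroup.card_le_of_le (show S ≤ Subgroup.zpowers z from hcon)
      rw [(D.fiveData.isPt S hS).2, Nat.card_zpowers, D.hT.orderOf_z] at h1
      norm_num at h1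
    have hzS := (D.fiveData.isPt S hS).1.z_mem
    obtain ⟨f, hf, c⟩ := (D.hT.mem_Line haW).mp (hSa hd)
    refine ⟨f, hf, D.hT.cmm_mem_U haW hf, fun hh => hdz ?_, S, hS, ?_⟩
    · rcases c with rfl | rfl
      · exact hh
      · exact mul_mem (Subgroup.mem_zpowers z) hh
    · rcases c with rfl | rfl
      · exact hd
      · simpa [← mul_assoc, D.hT.z_sq] using mul_mem hzS hd
  set s := cmm a f with hsdef
  have hsU : s ∈ U E W := hs.1
  have hes : e * s = s * e := D.hT.comm_Line haW he hae s (D.hT.cmm_mem_Line hf)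
  obtain ⟨i, j, hij, hae'⟩ := PD.pair_surj a haD
  obtain ⟨x, rfl⟩ := ε.surjective i
  obtain ⟨y, rfl⟩ := ε.surjective j
  have hxy : x ≠ y := fun h => hij (h ▸ rfl)
  set t := q ⟨e, hen⟩ with ht
  have hfix : ∀ x' y' : GolayPt, x' ≠ y' →
      lam (ε x') * lam (ε y') * e = e * (lam (ε x') * lam (ε y')) →
      (t x' = x' ∧ t y' = y') ∨ (t x' = y' ∧ t y' = x') := by
    intro x' y' hne hc
    have h1 := hq ⟨e, hen⟩ x' y' hne
    rw [← ht] at h1
    simp only at h1
    rw [← hc, mul_inv_cancel_right] at h1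
    rcases PD.pair_inj _ _ _ _ (ε.injective.ne (t.injective.ne hne)) (ε.injective.ne hne) h1.symm
      with ⟨g1, g2⟩ | ⟨g1, g2⟩
    · exact Or.inl ⟨ε.injective g1, ε.injective g2⟩
    · exact Or.inr ⟨ε.injective g1, ε.injective g2⟩
  rcases hfix x y hxy (by rw [← hae']; exact hae) with ⟨g1, -⟩ | ⟨g1, g2⟩
  · exact ⟨x, g1⟩
  exfalso
  have hsD : s ∈ Duads E W z five A := Or.inl hs
  have hprod : lam (ε x) * lam (ε y) * s ∈ Duads E W z five A := by
    rw [← hae', U_comm hsU haW]
    exact horb f hf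
  have key : ∀ (x' y' : GolayPt), a = lam (ε x') * lam (ε y') → t x' = y' →
      ∀ c, c ≠ ε x' → s = lam (ε x') * lam c → False := by
    intro x' y' ha' hxy' c hc hsc
    obtain ⟨c', rfl⟩ := ε.surjective c
    have hne : x' ≠ c' := fun h => hc (h ▸ rfl)
    rcases hfix x' c' hne (by rw [← hsc]; exact hes.symm) with ⟨k1, -⟩ | ⟨k1, -⟩
    · have hxx : y' = x' := hxy'.symm.trans k1
      subst hxx
      exact PD.one_notMem (by
        rw [show (1 : G) = a by rw [ha', PD.sq_one (PD.lam_mem _)]]; exact haD)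
    · refine haU ?_
      rw [ha', ← (hxy'.symm.trans k1 : y' = c').symm, ← hsc]
      exact hsU
  rcases PD.meet hij hsD hprod with ⟨c, hc, hcs⟩ | ⟨c, hc, hcs⟩
  · exact key x y hae' g1 c hc hcs
  · exact key y x (hae'.trans (PD.pair_comm _ _)) g2 c hc hcs

/-- An element of `E` commuting with no element of `W ∖ ⟨z⟩` is, modulo `V`, not conjugate to one
commuting with some `a ∈ A`. -/
theorem not_conj_none (hV : ∀ x ∈ U E W ⊔ W, ∀ y ∈ U E W ⊔ W, x * y = y * x) {e a f : G}
    (he : e ∈ E) (heU : e ∉ U E W) (ha : a ∈ A) (hae : a * e = e * a) (hf : f ∈ E)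
    (hfW : ∀ w ∈ W, w * f = f * w → w ∈ Subgroup.zpowers z) {n v : G}
    (hn : n ∈ Subgroup.normalizer ((U E W ⊔ W : Subgroup G) : Set G)) (hv : v ∈ U E W ⊔ W)
    (hc : n * e * n⁻¹ = f * v) : False := by
  classical
  obtain ⟨haW, haz⟩ := D.sect.sub a ha
  have hfU : f ∉ U E W := fun hh => haz (hfW a haW (U_comm hh haW))
  have h128 := D.card_V_cent he heU ha hae
  have h64 := D.card_U_cent_eq hf hfU
  have hle : Nat.card ↥((U E W ⊔ W) ⊓ Subgroup.centralizer ({e} : Set G)) ≤
      Nat.card ↥(U E W ⊓ Subgroup.centralizer ({f} : Set G)) := by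
    refine Nat.card_le_card_of_injective (fun c => ⟨n * (c : G) * n⁻¹, ?_⟩)
      (fun c c' hh => Subtype.ext (by simpa using congrArg Subtype.val hh))
    obtain ⟨hcV, hce⟩ := Subgroup.mem_inf.mp c.2
    rw [Subgroup.mem_centralizer_singleton_iff] at hce
    set c' := n * (c : G) * n⁻¹ with hc'
    have hc'V : c' ∈ U E W ⊔ W := (Subgroup.mem_normalizer_iff.mp hn _).mp hcV
    have hc'f : c' * f = f * c' := by
      have h1 : c' * (f * v) = f * v * c' := by
        rw [← hc, hc', show n * (c : G) * n⁻¹ * (n * e * n⁻¹) = n * ((c : G) * e) * n⁻¹ by group,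
          hce]
        group
      calc c' * f = c' * (f * v) * v⁻¹ := by group
        _ = f * (v * c') * v⁻¹ := by rw [h1]; group
        _ = f * c' := by rw [hV v hv c' hc'V]; group
    obtain ⟨u, hu, w, hw, hcw⟩ := D.hT.mem_sup_iff.mp hc'V
    have hwz : w ∈ Subgroup.zpowers z := by
      refine hfW w hw (D.hT.mem_Z_of_cmm hw hf ?_)
      have h1 : w * f * w⁻¹ = u⁻¹ * f * u := by
        calc w * f * w⁻¹ = u⁻¹ * (u * w * f) * w⁻¹ := by group
          _ = u⁻¹ * (f * (u * w)) * w⁻¹ := by rw [← hcw, hc'f]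
          _ = _ := by group
      rw [cmm, h1]
      rcases D.hT.conj_E_eq (inv_mem (U_le hu)) hf with k | k <;> rw [inv_inv] at k <;> rw [k] <;> simp
    refine Subgroup.mem_inf.mpr ⟨?_, Subgroup.mem_centralizer_singleton_iff.mpr hc'f⟩
    rw [hcw]
    exact mul_mem hu ((Subgroup.zpowers_le.mpr D.hT.z_U : Subgroup.zpowers z ≤ U E W) hwz)
  omega

end DuadData

end CfsgLib.JFour
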