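import Cfsg.Agent.Lib.JFour.Irred
import Cfsg.Prelude.Def_Transfer
import Cfsg.Agent.Lib.ThompsonJ.Replacement

/-!
A 2-group `W` of order 32 centralised by `P` and normalised by `R` acting faithfully on the
extraspecial group `E`: `U = C_E(W)` is elementary of order `2 ^ 7`, self-centralising in `E`,
contains `[E, W]`, and `U W` is elementary of order `2 ^ 11`.
-/

set_option autoImplicit false
open scoped commutatorElement

namespace CfsgLib.JFour

variable {G : Type*} [Group G]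

/-- In a nilpotent group `T`, a `T`-invariant `E` not inside `Z` has an element outside `Z` central modulo `Z`. -/
theorem exists_central_mod {T E Z : Subgroup G} (hT : Group.IsNilpotent ↥T) (hET : E ≤ T)
    (hE : ∀ e ∈ E, ∀ t ∈ T, ⁅e, t⁆ ∈ E) (hne : ∃ e ∈ E, e ∉ Z) :
    ∃ e ∈ E, e ∉ Z ∧ ∀ t ∈ T, ⁅e, t⁆ ∈ Z := by
  by_contra hcon
  push Not at hcon
  have hall : ∀ n, ∃ e ∈ E, e ∉ Z ∧ e ∈ T.lowerCentralSeries n := by
    intro n
    induction n with
    | zero =>
      obtain ⟨e, he, hez⟩ := hne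
      exact ⟨e, he, hez, hET he⟩
    | succ n ih =>
      obtain ⟨e, he, hez, hen⟩ := ih
      obtain ⟨t, ht, htz⟩ := hcon e he hez
      exact ⟨⁅e, t⁆, hE e he t ht, htz, Subgroup.commutator_mem_commutator hen ht⟩
  obtain ⟨n, hn⟩ := (Subgroup.isNilpotent_iff_lowerCentralSeries T).mp hT
  obtain ⟨e, -, hez, hen⟩ := hall n
  rw [hn, Subgroup.mem_bot] at hen
  exact hez (hen ▸ Z.one_mem)

/-- The setting: a `Triad` with `E` extraspecial-like, and `W` of order 32 over `⟨z⟩`. -/
structure HexFrame (E R P W : Subgroup G) (z : G) : Prop extends Triad E R P z where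
  comm_E : ∀ a ∈ E, ∀ b ∈ E, ⁅a, b⁆ = 1 ∨ ⁅a, b⁆ = z
  sq_E : ∀ a ∈ E, a * a = 1 ∨ a * a = z
  center_E : ∀ a ∈ E, (∀ b ∈ E, a * b = b * a) → a = 1 ∨ a = z
  z_W : z ∈ W
  card_W : Nat.card ↥W = 32
  W_norm : ∀ w ∈ W, ∀ e ∈ E, w * e * w⁻¹ ∈ E
  W_z : ∀ w ∈ W, w * z = z * w
  W_P : ∀ w ∈ W, ∀ p ∈ P, w * p = p * w
  R_W : ∀ r ∈ R, ∀ w ∈ W, r * w * r⁻¹ ∈ W
  W_faith : ∀ w ∈ W, (∀ e ∈ E, w * e = e * w) → w = 1 ∨ w = z

namespace HexFrame

variable {E R P W : Subgroup G} {z : G} (h : HexFrame E R P W z)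
include h

theorem mem_Z {x : G} : x ∈ Subgroup.zpowers z ↔ x = 1 ∨ x = z := by
  constructor
  · intro hx
    obtain ⟨n, rfl⟩ := Subgroup.mem_zpowers_iff.mp hx
    have h2 : z ^ (2 : ℤ) = 1 := by rw [zpow_two]; exact h.z_sq
    rcases Int.emod_two_eq_zero_or_one n with e | e
    · left
      rw [← Int.emod_add_mul_ediv n 2, e, zero_add, zpow_mul, h2, one_zpow]
    · right
      rw [← Int.emod_add_mul_ediv n 2, e, zpow_add, zpow_mul, h2, one_zpow, mul_one, zpow_one]
  · rintro (rfl | rfl)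
    · exact one_mem _
    · exact Subgroup.mem_zpowers x

theorem E_z {e : G} (he : e ∈ E) : e * z = z * e := by
  rcases h.comm_E e he z h.z_mem with c | c
  · exact commutatorElement_eq_one_iff_mul_comm.mp c
  · exfalso
    rw [commutatorElement_def] at c
    have : e * z * e⁻¹ = z * z := mul_inv_eq_iff_eq_mul.mp c
    rw [h.z_sq] at this
    exact h.z_ne (by simpa using this)

/-- The product of the three conjugates of `e` under `p` lies in `⟨z⟩`. -/
theorem orbit_prod [Finite G] {e p : G} (he : e ∈ E) (hp : p ∈ P) (hp1 : p ≠ 1) :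
    e * (p * e * p⁻¹) * (p * (p * e * p⁻¹) * p⁻¹) = 1 ∨
      e * (p * e * p⁻¹) * (p * (p * e * p⁻¹) * p⁻¹) = z := by
  set a := p * e * p⁻¹ with ha
  set b := p * a * p⁻¹ with hb
  have hp3 : p * p * p = 1 := by
    have : (⟨p, hp⟩ : ↥P) ^ Nat.card ↥P = 1 := pow_card_eq_one'
    rw [h.card_P] at this
    have := congrArg Subtype.val this
    simpa [pow_succ, mul_assoc] using this
  have haE : a ∈ E := h.R_norm p (h.P_le hp) e he
  have hbE : b ∈ E := h.R_norm p (h.P_le hp) a haE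
  have hs : e * a * b ∈ E := E.mul_mem (E.mul_mem he haE) hbE
  have hbp : p * b * p⁻¹ = e := by
    rw [hb, ha]
    calc p * (p * (p * e * p⁻¹) * p⁻¹) * p⁻¹ = (p * p * p) * e * (p * p * p)⁻¹ := by group
      _ = e := by rw [hp3]; simp
  have hconj : p * (e * a * b) * p⁻¹ = a * b * e := by
    calc p * (e * a * b) * p⁻¹ = (p * e * p⁻¹) * (p * a * p⁻¹) * (p * b * p⁻¹) := by group
      _ = a * b * e := by rw [hbp]
  have habe : a * b * e = e * a * b ∨ a * b * e = z * (e * a * b) := by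
    rcases h.comm_E (a * b) (E.mul_mem haE hbE) e he with c | c
    · left
      rw [commutatorElement_eq_one_iff_mul_comm.mp c]
      group
    · right
      rw [commutatorElement_def] at c
      calc a * b * e = (a * b * e * (a * b)⁻¹ * e⁻¹) * (e * (a * b)) := by group
        _ = z * (e * a * b) := by rw [c]; group
  have hcomm : p * (e * a * b) = (e * a * b) * p := by
    rcases habe with c | c
    · exact mul_inv_eq_iff_eq_mul.mp (hconj.trans c)
    · exfalso
      have hz : p * z * p⁻¹ = z := mul_inv_eq_iff_eq_mul.mpr (h.R_z p (h.P_le hp))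
      have h1 : p * (e * a * b) * p⁻¹ = z * (e * a * b) := hconj.trans c
      set s := e * a * b with hsdef
      have h3 : (p * p * p) * s * (p * p * p)⁻¹ = z * s := by
        calc (p * p * p) * s * (p * p * p)⁻¹ = p * (p * (p * s * p⁻¹) * p⁻¹) * p⁻¹ := by group
          _ = p * (p * (z * s) * p⁻¹) * p⁻¹ := by rw [h1]
          _ = p * ((p * z * p⁻¹) * (p * s * p⁻¹)) * p⁻¹ := by group
          _ = p * (z * z * s) * p⁻¹ := by rw [hz, h1]; group
          _ = z * s := by rw [h.z_sq, one_mul, h1]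
      rw [hp3] at h3
      exact h.z_ne (by simpa using h3)
  refine h.fix _ hs fun q hq => ?_
  have hle : P ≤ Subgroup.centralizer ({e * a * b} : Set G) := by
    have hzp : P = Subgroup.zpowers p := by
      symm
      refine Subgroup.eq_of_le_of_card_ge (Subgroup.zpowers_le.mpr hp) ?_
      have hd := Subgroup.card_dvd_of_le (Subgroup.zpowers_le.mpr hp)
      rw [h.card_P] at hd
      rcases (Nat.dvd_prime Nat.prime_three).mp hd with h2 | h2
      · exact absurd (Subgroup.zpowers_eq_bot.mp (Subgroup.eq_bot_of_card_eq _ h2)) hp1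
      · rw [h.card_P]; exact ge_of_eq h2
    rw [hzp, Subgroup.zpowers_le, Subgroup.mem_centralizer_singleton_iff]
    exact hcomm
  exact Subgroup.mem_centralizer_singleton_iff.mp (hle hq)


theorem exists_gen [Finite G] : ∃ p ∈ P, p ≠ 1 := by
  haveI : Nontrivial ↥P := Finite.one_lt_card_iff_nontrivial.mp (by rw [h.card_P]; norm_num)
  obtain ⟨⟨p, hp⟩, hp1⟩ := exists_ne (1 : ↥P)
  exact ⟨p, hp, fun e => hp1 (Subtype.ext e)⟩

theorem orderOf_z : orderOf z = 2 := orderOf_eq_prime (by rw [pow_two]; exact h.z_sq) h.z_ne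

/-- Anything commuting with `P` and fixing `e` modulo `⟨z⟩` fixes `e`. -/
theorem comm_of_mod [Finite G] {w e : G} (hwP : ∀ p ∈ P, w * p = p * w) (hwz : w * z = z * w)
    (he : e ∈ E) (hmod : w * e * w⁻¹ = e ∨ w * e * w⁻¹ = z * e) : w * e = e * w := by
  rcases hmod with c | c
  · exact mul_inv_eq_iff_eq_mul.mp c
  exfalso
  obtain ⟨p, hp, hp1⟩ := h.exists_gen
  have hpz : p * z * p⁻¹ = z := mul_inv_eq_iff_eq_mul.mpr (h.R_z p (h.P_le hp))
  have hcp : ∀ x : G, w * (p * x * p⁻¹) * w⁻¹ = p * (w * x * w⁻¹) * p⁻¹ := by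
    intro x
    calc w * (p * x * p⁻¹) * w⁻¹ = (w * p) * x * (w * p)⁻¹ := by group
      _ = (p * w) * x * (p * w)⁻¹ := by rw [hwP p hp]
      _ = p * (w * x * w⁻¹) * p⁻¹ := by group
  have hflip : ∀ x, w * x * w⁻¹ = z * x → w * (p * x * p⁻¹) * w⁻¹ = z * (p * x * p⁻¹) := by
    intro x hx
    rw [hcp, hx]
    calc p * (z * x) * p⁻¹ = (p * z * p⁻¹) * (p * x * p⁻¹) := by group
      _ = _ := by rw [hpz]
  set a := p * e * p⁻¹ with ha
  set b := p * a * p⁻¹ with hb
  have hwa : w * a * w⁻¹ = z * a := hflip e c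
  have hwb : w * b * w⁻¹ = z * b := hflip a hwa
  have haE : a ∈ E := h.R_norm p (h.P_le hp) e he
  have hw : w * (e * a * b) * w⁻¹ = z * (e * a * b) := by
    calc w * (e * a * b) * w⁻¹ = (w * e * w⁻¹) * (w * a * w⁻¹) * (w * b * w⁻¹) := by group
      _ = z * (e * z) * (a * z) * b := by rw [c, hwa, hwb]; group
      _ = z * (z * e) * (z * a) * b := by rw [h.E_z he, h.E_z haE]
      _ = (z * z) * (e * z) * a * b := by group
      _ = z * (e * a * b) := by rw [h.z_sq, one_mul, h.E_z he]; group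
  have hs : w * (e * a * b) * w⁻¹ = e * a * b := by
    have s := h.orbit_prod he hp hp1
    rw [← ha, ← hb] at s
    rcases s with s | s <;> rw [s]
    · simp
    · exact mul_inv_eq_iff_eq_mul.mpr hwz
  rw [hs] at hw
  exact h.z_ne (by simpa using hw)

omit h in
variable (E W) in
/-- `C_E(W)`. -/
def U : Subgroup G := E ⊓ Subgroup.centralizer (W : Set G)

omit h in
theorem U_le : U E W ≤ E := inf_le_left

omit h in
theorem U_comm {u w : G} (hu : u ∈ U E W) (hw : w ∈ W) : w * u = u * w :=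
  Subgroup.mem_centralizer_iff.mp hu.2 w hw

omit h in
theorem mem_U {u : G} (hu : u ∈ E) (hc : ∀ w ∈ W, w * u = u * w) : u ∈ U E W :=
  ⟨hu, Subgroup.mem_centralizer_iff.mpr hc⟩

theorem z_U : z ∈ U E W := mem_U h.z_mem h.W_z

theorem U_norm {r : G} (hr : r ∈ R) {u : G} (hu : u ∈ U E W) : r * u * r⁻¹ ∈ U E W := by
  refine mem_U (h.R_norm r hr u hu.1) fun w hw => ?_
  have hw' : r⁻¹ * w * r ∈ W := by simpa using h.R_W r⁻¹ (inv_mem hr) w hw
  calc w * (r * u * r⁻¹) = r * ((r⁻¹ * w * r) * u) * r⁻¹ := by group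
    _ = r * (u * (r⁻¹ * w * r)) * r⁻¹ := by rw [U_comm hu hw']
    _ = r * u * r⁻¹ * w := by group

theorem W_le_normalizer : W ≤ Subgroup.normalizer (E : Set G) := by
  intro w hw
  rw [Subgroup.mem_normalizer_iff]
  refine fun x => ⟨h.W_norm w hw x, fun hx => ?_⟩
  have := h.W_norm w⁻¹ (inv_mem hw) _ hx
  simpa [mul_assoc] using this

theorem isNilpotent_sup [Finite G] : Group.IsNilpotent ↥(E ⊔ W) :=
  haveI : Fact (Nat.Prime 2) := ⟨Nat.prime_two⟩
  (IsPGroup.to_sup_of_normal_left' (IsPGroup.of_card h.card_E)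
    (IsPGroup.of_card (n := 5) h.card_W) h.W_le_normalizer).isNilpotent

theorem E_norm_sup {e t : G} (he : e ∈ E) (ht : t ∈ E ⊔ W) : ⁅e, t⁆ ∈ E := by
  have h1 := (Subgroup.mem_normalizer_iff.mp
    (sup_le Subgroup.le_normalizer h.W_le_normalizer ht) e⁻¹).mp (inv_mem he)
  rw [commutatorElement_def, show e * t * e⁻¹ * t⁻¹ = e * (t * e⁻¹ * t⁻¹) by group]
  exact mul_mem he h1

theorem card_U [Finite G] : Nat.card ↥(U E W) = 2 ^ 7 := by
  rcases h.irreducible U_le h.z_U (fun r hr u hu => h.U_norm hr hu) with c | c | c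
  · exfalso
    have hUz : U E W = Subgroup.zpowers z :=
      (Subgroup.eq_of_le_of_card_ge (Subgroup.zpowers_le.mpr h.z_U)
        (by rw [c, Nat.card_zpowers, h.orderOf_z])).symm
    have hne : ∃ e ∈ E, e ∉ Subgroup.zpowers z := by
      by_contra hcon
      push Not at hcon
      have := Nat.le_of_dvd Nat.card_pos (Subgroup.card_dvd_of_le hcon)
      rw [h.card_E, Nat.card_zpowers, h.orderOf_z] at this
      norm_num at this
    obtain ⟨e, he, hez, het⟩ := exists_central_mod h.isNilpotent_sup le_sup_left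
      (fun e he t ht => h.E_norm_sup he ht) hne
    apply hez
    rw [← hUz]
    refine mem_U he fun w hw => h.comm_of_mod (fun p hp => h.W_P w hw p hp) (h.W_z w hw) he ?_
    have hwe := h.mem_Z.mp (inv_mem (het w (Subgroup.mem_sup_right hw)))
    rw [commutatorElement_inv, commutatorElement_def] at hwe
    rcases hwe with d | d
    · exact Or.inl (mul_inv_eq_one.mp d)
    · exact Or.inr (mul_inv_eq_iff_eq_mul.mp d)
  · exact c
  · exfalso
    have hUE : U E W = E := Subgroup.eq_of_le_of_card_ge U_le (by rw [c, h.card_E])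
    have hsub : W ≤ Subgroup.zpowers z := fun w hw =>
      h.mem_Z.mpr (h.W_faith w hw fun e he => U_comm (hUE.symm ▸ he) hw)
    have := Nat.le_of_dvd Nat.card_pos (Subgroup.card_dvd_of_le hsub)
    rw [h.card_W, Nat.card_zpowers, h.orderOf_z] at this
    norm_num at this

theorem U_normal {e u : G} (he : e ∈ E) (hu : u ∈ U E W) : e * u * e⁻¹ ∈ U E W := by
  rcases h.comm_E e he u (U_le hu) with c | c
  · rw [commutatorElement_def] at c
    rw [mul_inv_eq_one.mp c]; exact hu
  · rw [commutatorElement_def] at c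
    rw [mul_inv_eq_iff_eq_mul.mp c]; exact mul_mem h.z_U hu

theorem conj_W {r w e : G} (hr : r ∈ R) (hw : w ∈ W) :
    w * (r * e * r⁻¹) * w⁻¹ * (r * e * r⁻¹)⁻¹ =
      r * ((r⁻¹ * w * r) * e * (r⁻¹ * w * r)⁻¹ * e⁻¹) * r⁻¹ := by group

theorem mem_W_conj {r w : G} (hr : r ∈ R) (hw : w ∈ W) : r⁻¹ * w * r ∈ W := by
  simpa using h.R_W r⁻¹ (inv_mem hr) w hw

/-- `[E, W] ≤ U`. -/
theorem comm_mem_U [Finite G] {w e : G} (hw : w ∈ W) (he : e ∈ E) :
    w * e * w⁻¹ * e⁻¹ ∈ U E W := by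
  let X : Subgroup G :=
    { carrier := {x | x ∈ E ∧ ∀ v ∈ W, v * x * v⁻¹ * x⁻¹ ∈ U E W}
      one_mem' := ⟨one_mem _, fun v _ => by simp⟩
      mul_mem' := by
        rintro a b ⟨ha, ha'⟩ ⟨hb, hb'⟩
        refine ⟨mul_mem ha hb, fun v hv => ?_⟩
        have : v * (a * b) * v⁻¹ * (a * b)⁻¹ =
            (v * a * v⁻¹ * a⁻¹) * (a * (v * b * v⁻¹ * b⁻¹) * a⁻¹) := by group
        rw [this]
        exact mul_mem (ha' v hv) (h.U_normal ha (hb' v hv))
      inv_mem' := by
        rintro a ⟨ha, ha'⟩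
        refine ⟨inv_mem ha, fun v hv => ?_⟩
        have : v * a⁻¹ * v⁻¹ * a⁻¹⁻¹ = a⁻¹ * (v * a * v⁻¹ * a⁻¹)⁻¹ * a⁻¹⁻¹ := by group
        rw [this]
        exact h.U_normal (inv_mem ha) (inv_mem (ha' v hv)) }
  have hUX : U E W ≤ X := fun u hu => ⟨U_le hu, fun v hv => by
    rw [U_comm hu hv, mul_inv_cancel_right, mul_inv_cancel]; exact one_mem _⟩
  have hcard : Nat.card ↥X = 2 ^ 13 := by
    have hlt : ∃ x ∈ X, x ∉ U E W := by
      obtain ⟨a, ha, haU, hat⟩ := exists_central_mod (Z := U E W) h.isNilpotent_sup le_sup_left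
        (fun e he t ht => h.E_norm_sup he ht) (by
          by_contra hcon
          push Not at hcon
          have := Nat.le_of_dvd Nat.card_pos (Subgroup.card_dvd_of_le hcon)
          rw [h.card_E, h.card_U] at this
          norm_num at this)
      refine ⟨a, ⟨ha, fun v hv => ?_⟩, haU⟩
      have h1 := inv_mem (hat v (Subgroup.mem_sup_right hv))
      rwa [commutatorElement_inv, commutatorElement_def] at h1
    rcases h.irreducible (S := X) (fun x hx => hx.1) (hUX h.z_U) (fun r hr x hx =>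
      ⟨h.R_norm r hr x hx.1, fun v hv => by
        rw [h.conj_W hr hv]
        exact h.U_norm hr (hx.2 _ (h.mem_W_conj hr hv))⟩) with c | c | c
    · have := Nat.le_of_dvd Nat.card_pos (Subgroup.card_dvd_of_le hUX)
      rw [h.card_U, c] at this
      norm_num at this
    · obtain ⟨x, hx, hxU⟩ := hlt
      exact absurd ((Subgroup.eq_of_le_of_card_ge hUX (by rw [h.card_U, c])) ▸ hx) hxU
    · exact c
  have hXE : X = E := Subgroup.eq_of_le_of_card_ge (fun x hx => hx.1) (by rw [hcard, h.card_E])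
  exact (hXE.symm ▸ he : e ∈ X).2 w hw

theorem exists_comm_notMem [Finite G] :
    ∃ w ∈ W, ∃ e ∈ E, w * e * w⁻¹ * e⁻¹ ∉ Subgroup.zpowers z := by
  by_contra hcon
  push Not at hcon
  have hsub : W ≤ Subgroup.zpowers z := fun w hw => h.mem_Z.mpr (h.W_faith w hw fun e he => by
    refine h.comm_of_mod (fun p hp => h.W_P w hw p hp) (h.W_z w hw) he ?_
    rcases h.mem_Z.mp (hcon w hw e he) with d | d
    · exact Or.inl (mul_inv_eq_one.mp d)
    · exact Or.inr (mul_inv_eq_iff_eq_mul.mp d))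
  have := Nat.le_of_dvd Nat.card_pos (Subgroup.card_dvd_of_le hsub)
  rw [h.card_W, Nat.card_zpowers, h.orderOf_z] at this
  norm_num at this

theorem U_comm_U [Finite G] {u v : G} (hu : u ∈ U E W) (hv : v ∈ U E W) : u * v = v * u := by
  set S : Subgroup G := U E W ⊓ Subgroup.centralizer (U E W : Set G)
  have hzS : z ∈ S := ⟨h.z_U, Subgroup.mem_centralizer_iff.mpr fun x hx => h.E_z (U_le hx)⟩
  have hS : S = U E W := by
    rcases h.irreducible (S := S) (inf_le_left.trans U_le) hzS (fun r hr x hx =>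
      ⟨h.U_norm hr hx.1, Subgroup.mem_centralizer_iff.mpr fun y hy => by
        have hy' : r⁻¹ * y * r ∈ U E W := by simpa using h.U_norm (inv_mem hr) hy
        calc y * (r * x * r⁻¹) = r * ((r⁻¹ * y * r) * x) * r⁻¹ := by group
          _ = r * (x * (r⁻¹ * y * r)) * r⁻¹ := by
            rw [Subgroup.mem_centralizer_iff.mp hx.2 _ hy']
          _ = r * x * r⁻¹ * y := by group⟩) with c | c | c
    · exfalso
      obtain ⟨w, hw, e, he, hne⟩ := h.exists_comm_notMem
      have hSz : S = Subgroup.zpowers z :=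
        (Subgroup.eq_of_le_of_card_ge (Subgroup.zpowers_le.mpr hzS)
          (by rw [c, Nat.card_zpowers, h.orderOf_z])).symm
      apply hne
      rw [← hSz]
      refine ⟨h.comm_mem_U hw he, Subgroup.mem_centralizer_iff.mpr fun y hy => ?_⟩
      refine mul_inv_eq_iff_eq_mul.mp ?_
      calc y * (w * e * w⁻¹ * e⁻¹) * y⁻¹
          = (y * w * y⁻¹) * (y * e * y⁻¹) * (y * w * y⁻¹)⁻¹ * (y * e * y⁻¹)⁻¹ := by group
        _ = w * (y * e * y⁻¹) * w⁻¹ * (y * e * y⁻¹)⁻¹ := by
          rw [← U_comm hy hw, mul_inv_cancel_right]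
        _ = w * e * w⁻¹ * e⁻¹ := by
          rcases h.comm_E y (U_le hy) e he with d | d <;> rw [commutatorElement_def] at d
          · rw [mul_inv_eq_one.mp d]
          · rw [mul_inv_eq_iff_eq_mul.mp d]
            calc w * (z * e) * w⁻¹ * (z * e)⁻¹ = (w * z) * e * w⁻¹ * e⁻¹ * z⁻¹ := by group
              _ = z * (w * e * w⁻¹ * e⁻¹) * z⁻¹ := by rw [h.W_z w hw]; group
              _ = w * e * w⁻¹ * e⁻¹ := by
                rw [← h.E_z (U_le (h.comm_mem_U hw he)), mul_inv_cancel_right]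
    · exact Subgroup.eq_of_le_of_card_ge inf_le_left (by rw [h.card_U, c])
    · have := Nat.le_of_dvd Nat.card_pos (Subgroup.card_dvd_of_le (inf_le_left : S ≤ U E W))
      rw [h.card_U, c] at this
      norm_num at this
  exact (Subgroup.mem_centralizer_iff.mp ((hS.symm ▸ hu : u ∈ S).2) v hv).symm

theorem U_sq [Finite G] {u : G} (hu : u ∈ U E W) : u * u = 1 := by
  rcases h.sq_E u (U_le hu) with c | c
  · exact c
  exfalso
  obtain ⟨p, hp, hp1⟩ := h.exists_gen
  have hsq : ∀ x, x * x = z → (p * x * p⁻¹) * (p * x * p⁻¹) = z := by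
    intro x hx
    calc (p * x * p⁻¹) * (p * x * p⁻¹) = p * (x * x) * p⁻¹ := by group
      _ = z := by rw [hx]; exact mul_inv_eq_iff_eq_mul.mpr (h.R_z p (h.P_le hp))
  set a := p * u * p⁻¹ with ha
  set b := p * a * p⁻¹ with hb
  have haU : a ∈ U E W := h.U_norm (h.P_le hp) hu
  have hbU : b ∈ U E W := h.U_norm (h.P_le hp) haU
  have h1 : u * a * b * (u * a * b) = z := by
    calc u * a * b * (u * a * b) = u * (a * (b * u)) * (a * b) := by group
      _ = u * (a * (u * b)) * (a * b) := by rw [h.U_comm_U hbU hu]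
      _ = u * (a * u) * (b * a) * b := by group
      _ = u * (u * a) * (a * b) * b := by rw [h.U_comm_U haU hu, h.U_comm_U hbU haU]
      _ = (u * u) * (a * a) * (b * b) := by group
      _ = z := by rw [c, hsq u c, hsq a (hsq u c), h.z_sq, one_mul]
  have s := h.orbit_prod (U_le hu) hp hp1
  rw [← ha, ← hb] at s
  rcases s with s | s <;> rw [s] at h1
  · exact h.z_ne (by simpa using h1.symm)
  · exact h.z_ne (h1.symm.trans h.z_sq)

theorem cent_U [Finite G] {e : G} (he : e ∈ E) (hc : ∀ u ∈ U E W, e * u = u * e) : e ∈ U E W := by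
  set S : Subgroup G := E ⊓ Subgroup.centralizer (U E W : Set G)
  have hUS : U E W ≤ S := fun u hu =>
    ⟨U_le hu, Subgroup.mem_centralizer_iff.mpr fun v hv => h.U_comm_U hv hu⟩
  have heS : e ∈ S := ⟨he, Subgroup.mem_centralizer_iff.mpr fun v hv => (hc v hv).symm⟩
  rcases h.irreducible (S := S) inf_le_left (hUS h.z_U) (fun r hr x hx =>
      ⟨h.R_norm r hr x hx.1, Subgroup.mem_centralizer_iff.mpr fun y hy => by
        have hy' : r⁻¹ * y * r ∈ U E W := by simpa using h.U_norm (inv_mem hr) hy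
        calc y * (r * x * r⁻¹) = r * ((r⁻¹ * y * r) * x) * r⁻¹ := by group
          _ = r * (x * (r⁻¹ * y * r)) * r⁻¹ := by
            rw [Subgroup.mem_centralizer_iff.mp hx.2 _ hy']
          _ = r * x * r⁻¹ * y := by group⟩) with c | c | c
  · have := Nat.le_of_dvd Nat.card_pos (Subgroup.card_dvd_of_le hUS)
    rw [h.card_U, c] at this
    norm_num at this
  · exact (Subgroup.eq_of_le_of_card_ge hUS (by rw [h.card_U, c])).symm ▸ heS
  · exfalso
    have hSE : S = E := Subgroup.eq_of_le_of_card_ge inf_le_left (by rw [c, h.card_E])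
    have hsub : U E W ≤ Subgroup.zpowers z := fun u hu =>
      h.mem_Z.mpr (h.center_E u (U_le hu) fun b hb =>
        Subgroup.mem_centralizer_iff.mp ((hSE.symm ▸ hb : b ∈ S).2) u hu)
    have := Nat.le_of_dvd Nat.card_pos (Subgroup.card_dvd_of_le hsub)
    rw [h.card_U, Nat.card_zpowers, h.orderOf_z] at this
    norm_num at this

theorem W_inf_E [Finite G] {w : G} (hw : w ∈ W) (he : w ∈ E) : w = 1 ∨ w = z :=
  h.fix w he fun p hp => (h.W_P w hw p hp).symm

theorem mem_sup_iff {x : G} : x ∈ U E W ⊔ W ↔ ∃ u ∈ U E W, ∃ w ∈ W, x = u * w := by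
  constructor
  · intro hx
    have hle : W ≤ Subgroup.normalizer (U E W : Set G) := by
      refine le_trans (fun w hw => Subgroup.mem_centralizer_iff.mpr fun u hu => ?_)
        (Subgroup.centralizer_le_normalizer _)
      exact (U_comm hu hw).symm
    rw [← SetLike.mem_coe, Subgroup.coe_mul_of_right_le_normalizer_left _ _ hle] at hx
    obtain ⟨u, hu, w, hw, rfl⟩ := hx
    exact ⟨u, hu, w, hw, rfl⟩
  · rintro ⟨u, hu, w, hw, rfl⟩
    exact Subgroup.mul_mem_sup hu hw

/-- `V = U W` is elementary abelian when `W` has exponent 2. -/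
theorem V_elem [Finite G] (hW : ∀ w ∈ W, w * w = 1) :
    Cfsg.IsElementaryAbelian 2 (U E W ⊔ W) := by
  have hWc : ∀ a ∈ W, ∀ b ∈ W, a * b = b * a := by
    intro a ha b hb
    have h1 := hW _ (mul_mem ha hb)
    calc a * b = (a * b)⁻¹ := (inv_eq_of_mul_eq_one_right h1).symm
      _ = b⁻¹ * a⁻¹ := mul_inv_rev a b
      _ = b * a := by
        rw [inv_eq_of_mul_eq_one_right (hW b hb), inv_eq_of_mul_eq_one_right (hW a ha)]
  refine ⟨⟨⟨?_⟩⟩, ?_⟩
  · rintro ⟨x, hx⟩ ⟨y, hy⟩
    apply Subtype.ext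
    obtain ⟨u, hu, w, hw, rfl⟩ := h.mem_sup_iff.mp hx
    obtain ⟨v, hv, t, ht, rfl⟩ := h.mem_sup_iff.mp hy
    change u * w * (v * t) = v * t * (u * w)
    calc u * w * (v * t) = u * (w * v) * t := by group
      _ = u * (v * w) * t := by rw [U_comm hv hw]
      _ = (u * v) * (w * t) := by group
      _ = (v * u) * (t * w) := by rw [h.U_comm_U hu hv, hWc w hw t ht]
      _ = v * (u * t) * w := by group
      _ = v * (t * u) * w := by rw [U_comm hu ht]
      _ = v * t * (u * w) := by group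
  · intro x hx
    obtain ⟨u, hu, w, hw, rfl⟩ := h.mem_sup_iff.mp hx
    calc (u * w) ^ 2 = u * (w * u) * w := by rw [pow_two]; group
      _ = (u * u) * (w * w) := by rw [U_comm hu hw]; group
      _ = 1 := by rw [h.U_sq hu, hW w hw, one_mul]

theorem card_V [Finite G] : Nat.card ↥(U E W ⊔ W) = 2 ^ 11 := by
  have hle : W ≤ Subgroup.normalizer (U E W : Set G) := by
    refine le_trans (fun w hw => Subgroup.mem_centralizer_iff.mpr fun u hu => ?_)
      (Subgroup.centralizer_le_normalizer _)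
    exact (U_comm hu hw).symm
  have hinf : U E W ⊓ W = Subgroup.zpowers z := by
    refine le_antisymm (fun x hx => h.mem_Z.mpr (h.W_inf_E hx.2 (U_le hx.1))) ?_
    exact Subgroup.zpowers_le.mpr ⟨h.z_U, h.z_W⟩
  have := CfsgLib.ThompsonJ.card_sup_mul_card_inf W (U E W) hle
  rw [sup_comm, inf_comm] at this
  rw [hinf, h.card_U, h.card_W, Nat.card_zpowers, h.orderOf_z] at this
  omega

end HexFrame

end CfsgLib.JFour
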