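import Mathlib
import Cfsg.Prelude.Def_Transfer

/-!
The small facts about the automorphism group of `M22` used for groups of Janko-four type:
a hexad subgroup `B ≅ 2^4`, its normalizer `M = 2^4:S6` and a Sylow 3-subgroup.
-/

set_option autoImplicit false

namespace CfsgLib.JFour

open Cfsg

/-- `I` plays the role of the inner automorphisms, `B` of the hexad group, `M` of its normalizer. -/
structure HexadData {A : Type*} [Group A] (I M B : Subgroup A) : Prop where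
  I_index : I.index = 2
  I_simple : IsSimpleGroup ↥I
  I_card : Nat.card ↥I = 443520
  M_eq : M = Subgroup.normalizer (B : Set A)
  M_index : M.index = 77
  B_le : B ≤ I
  B_card : Nat.card ↥B = 16
  B_elem : Cfsg.IsElementaryAbelian 2 B
  cen_B : Subgroup.centralizer (B : Set A) ≤ B
  conj_B : ∀ a ∈ B, a ≠ 1 → ∀ b ∈ B, b ≠ 1 → ∃ g ∈ M ⊓ I, g * a * g⁻¹ = b
  cen_inv : ∀ b ∈ B, b ≠ 1 → Subgroup.centralizer ({b} : Set A) ≤ M
  conj_inv : ∀ a ∈ I, orderOf a = 2 → ∃ g ∈ I, g * a * g⁻¹ ∈ B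
  exists_four : ∃ v ∈ I, orderOf v = 4
  hexad : ∃ f : ↥M →* Equiv.Perm (Fin 6), Function.Surjective f ∧ f.ker = B.subgroupOf M ∧
    (I.subgroupOf M).map f = alternatingGroup (Fin 6)
  fix_two : ∀ a ∈ M ⊓ I, a ∉ B → a * a ∈ B →
    Nat.card ↥(B ⊓ Subgroup.centralizer ({a} : Set A)) = 4
  fix_three : ∀ p ∈ M ⊓ I, orderOf p = 3 →
    Nat.card ↥(B ⊓ Subgroup.centralizer ({p} : Set A)) = 1 ∨
      Nat.card ↥(B ⊓ Subgroup.centralizer ({p} : Set A)) = 4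
  syl_three : ∃ R : Subgroup A, R ≤ M ⊓ I ∧ Nat.card ↥R = 9 ∧ (∀ r ∈ R, r ^ 3 = 1) ∧
    Subgroup.centralizer (R : Set A) ≤ R ∧ Nat.card ↥(Subgroup.normalizer (R : Set A)) = 144 ∧
    ∀ a ∈ R, a ≠ 1 → ∀ b ∈ R, b ≠ 1 → ∃ g ∈ Subgroup.normalizer (R : Set A) ⊓ I, g * a * g⁻¹ = b

end CfsgLib.JFour
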