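import Mathlib

/-!
A group `R` of order 27 with centre inside `P` of order 3 acting on a 2-group `E` of order `2 ^ 13`
such that `P` fixes only `⟨z⟩`: invariant subgroups containing `z` have order `2`, `2 ^ 7` or `2 ^ 13`.
-/

set_option autoImplicit false

namespace CfsgLib.JFour

variable {G : Type*} [Group G]

/-- A group of order 27 with centre `≤ P` acting on `E` of order `2 ^ 13`, `P` fixing only `⟨z⟩`. -/
structure Triad (E R P : Subgroup G) (z : G) : Prop where
  z_ne : z ≠ 1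
  z_sq : z * z = 1
  z_mem : z ∈ E
  card_E : Nat.card ↥E = 2 ^ 13
  P_le : P ≤ R
  card_R : Nat.card ↥R = 27
  card_P : Nat.card ↥P = 3
  centre : ∀ r ∈ R, (∀ s ∈ R, r * s = s * r) → r ∈ P
  P_central : ∀ p ∈ P, ∀ s ∈ R, p * s = s * p
  R_norm : ∀ r ∈ R, ∀ e ∈ E, r * e * r⁻¹ ∈ E
  R_z : ∀ r ∈ R, r * z = z * r
  fix : ∀ e ∈ E, (∀ p ∈ P, p * e = e * p) → e = 1 ∨ e = z

namespace Triad

variable {E R P : Subgroup G} {z : G} (h : Triad E R P z)
include h

/-- A subgroup of `R` not containing a nontrivial element of `P` has order at most 3. -/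
theorem card_le_three [Finite G] {K : Subgroup G} (hK : K ≤ R)
    (hP : ∀ p ∈ P, p ∈ K → p = 1) : Nat.card ↥K ∣ 3 := by
  have hd : Nat.card ↥K ∣ 3 ^ 3 := by
    have := Subgroup.card_dvd_of_le hK
    rwa [h.card_R] at this
  obtain ⟨i, hi, hKi⟩ := (Nat.dvd_prime_pow Nat.prime_three).mp hd
  rcases (show i ≤ 1 ∨ i = 2 ∨ i = 3 by omega) with h1 | h2 | h3
  · rw [hKi]; exact (Nat.pow_dvd_pow 3 h1).trans (by norm_num)
  · exfalso
    subst h2
    haveI : Fact (Nat.Prime 3) := ⟨Nat.prime_three⟩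
    haveI hc : IsMulCommutative ↥K := ⟨⟨IsPGroup.commutative_of_card_eq_prime_sq hKi⟩⟩
    have hJ : Nat.card ↥(K ⊔ P) = 27 := by
      have h1 : Nat.card ↥K ∣ Nat.card ↥(K ⊔ P) := Subgroup.card_dvd_of_le le_sup_left
      have h2 : Nat.card ↥(K ⊔ P) ∣ 27 := h.card_R ▸ Subgroup.card_dvd_of_le (sup_le hK h.P_le)
      rw [hKi] at h1
      have h3 : Nat.card ↥(K ⊔ P) ≠ 9 := by
        intro h9
        have heq : K = K ⊔ P :=
          Subgroup.eq_of_le_of_card_ge le_sup_left (by rw [h9, hKi]; norm_num)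
        haveI : Nontrivial ↥P := Finite.one_lt_card_iff_nontrivial.mp (by rw [h.card_P]; norm_num)
        obtain ⟨⟨p, hp⟩, hp1⟩ := exists_ne (1 : ↥P)
        exact hp1 (Subtype.ext (hP p hp (heq ▸ le_sup_right (α := Subgroup G) hp)))
      obtain ⟨j, hj, hJj⟩ := (Nat.dvd_prime_pow Nat.prime_three).mp (h2.trans (by norm_num : 27 ∣ 3 ^ 3))
      rw [hJj] at h1 h3 ⊢
      interval_cases j <;> simp_all
    have hR : R ≤ K ⊔ P :=
      (Subgroup.eq_of_le_of_card_ge (sup_le hK h.P_le) (by rw [hJ, h.card_R])).ge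
    have hKP : K ≤ P := by
      intro k hk
      refine h.centre k (hK hk) fun s hs => ?_
      have hle : K ⊔ P ≤ Subgroup.centralizer ({k} : Set G) := by
        refine sup_le (fun a ha => ?_) fun a ha => ?_
        · rw [Subgroup.mem_centralizer_singleton_iff]
          exact congrArg Subtype.val (hc.is_comm.comm ⟨a, ha⟩ ⟨k, hk⟩)
        · rw [Subgroup.mem_centralizer_singleton_iff]
          exact h.P_central a ha k (hK hk)
      exact (Subgroup.mem_centralizer_singleton_iff.mp (hle (hR hs))).symm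
    haveI : Nontrivial ↥K := Finite.one_lt_card_iff_nontrivial.mp (by rw [hKi]; norm_num)
    obtain ⟨⟨k, hk⟩, hk1⟩ := exists_ne (1 : ↥K)
    exact hk1 (Subtype.ext (hP k (hKP hk) hk))
  · exfalso
    subst h3
    have hKR : K = R := Subgroup.eq_of_le_of_card_ge hK (by rw [hKi, h.card_R]; norm_num)
    haveI : Nontrivial ↥P := Finite.one_lt_card_iff_nontrivial.mp (by rw [h.card_P]; norm_num)
    obtain ⟨⟨p, hp⟩, hp1⟩ := exists_ne (1 : ↥P)
    exact hp1 (Subtype.ext (hP p hp (hKR ▸ h.P_le hp)))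

/-- An `R`-invariant set of elements of `E` outside `⟨z⟩` has size divisible by 9. -/
theorem nine_dvd [Finite G] (X : Set G) (hX : ∀ x ∈ X, x ∈ E ∧ x ≠ 1 ∧ x ≠ z)
    (hinv : ∀ r ∈ R, ∀ x ∈ X, r * x * r⁻¹ ∈ X) : 9 ∣ Nat.card ↥X := by
  letI : MulAction ↥R ↥X :=
    { smul := fun r x => ⟨(r : G) * (x : G) * (r : G)⁻¹, hinv _ r.2 _ x.2⟩
      one_smul := fun x => Subtype.ext (by change (1 : G) * x * (1 : G)⁻¹ = x; simp)
      mul_smul := fun a b x => Subtype.ext (by
        change ((a : G) * b) * x * ((a : G) * b)⁻¹ = (a : G) * ((b : G) * x * (b : G)⁻¹) * (a : G)⁻¹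
        group) }
  classical
  haveI := Fintype.ofFinite ↥X
  haveI := Fintype.ofFinite ↥R
  haveI := Fintype.ofFinite (MulAction.orbitRel.Quotient ↥R ↥X)
  rw [Nat.card_congr (MulAction.selfEquivSigmaOrbits ↥R ↥X), Nat.card_sigma]
  refine Finset.dvd_sum fun ω _ => ?_
  set x : ↥X := ω.out
  have hst := MulAction.card_orbit_mul_card_stabilizer_eq_card_group ↥R x
  have h3 : Nat.card ↥(MulAction.stabilizer ↥R x) ∣ 3 := by
    rw [← Subgroup.card_map_of_injective (K := MulAction.stabilizer ↥R x) R.subtype_injective]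
    refine h.card_le_three (Subgroup.map_subtype_le _) fun p hp hpK => ?_
    by_contra hp1
    obtain ⟨⟨r, hr⟩, hfix, rfl⟩ := Subgroup.mem_map.mp hpK
    have hfix' : r * (x : G) * r⁻¹ = (x : G) := congrArg Subtype.val hfix
    have hrP : P = Subgroup.zpowers r := by
      symm
      refine Subgroup.eq_of_le_of_card_ge (Subgroup.zpowers_le.mpr hp) ?_
      have h1 := Subgroup.card_dvd_of_le (Subgroup.zpowers_le.mpr hp)
      rw [h.card_P] at h1
      rcases (Nat.dvd_prime Nat.prime_three).mp h1 with h2 | h2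
      · exact absurd (Subgroup.zpowers_eq_bot.mp (Subgroup.eq_bot_of_card_eq _ h2)) hp1
      · rw [h.card_P]; exact ge_of_eq h2
    have hc : ∀ p ∈ P, p * (x : G) = (x : G) * p := by
      intro p hp'
      rw [hrP] at hp'
      obtain ⟨n, rfl⟩ := Subgroup.mem_zpowers_iff.mp hp'
      have hcm : Commute r (x : G) := mul_inv_eq_iff_eq_mul.mp hfix'
      exact hcm.zpow_left n
    obtain ⟨hxE, hx1, hxz⟩ := hX _ x.2
    rcases h.fix _ hxE hc with e | e
    · exact hx1 e
    · exact hxz e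
  simp only [← Nat.card_eq_fintype_card] at hst
  rw [h.card_R] at hst
  rcases (Nat.dvd_prime Nat.prime_three).mp h3 with e | e <;> rw [e] at hst
  · exact ⟨3, by omega⟩
  · exact ⟨1, by omega⟩

/-- `R`-invariant subgroups of `E` containing `z` have order `2`, `2 ^ 7` or `2 ^ 13`. -/
theorem irreducible [Finite G] {S : Subgroup G} (hS : S ≤ E) (hz : z ∈ S)
    (hinv : ∀ r ∈ R, ∀ s ∈ S, r * s * r⁻¹ ∈ S) :
    Nat.card ↥S = 2 ∨ Nat.card ↥S = 2 ^ 7 ∨ Nat.card ↥S = 2 ^ 13 := by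
  obtain ⟨k, hk, hSk⟩ := (Nat.dvd_prime_pow Nat.prime_two).mp
    (h.card_E ▸ Subgroup.card_dvd_of_le hS)
  have h2 : ({1, z} : Set G) ⊆ (S : Set G) := by
    rintro a (rfl | rfl)
    · exact S.one_mem
    · exact hz
  have hc : Nat.card ↥((S : Set G) \ {1, z}) = Nat.card ↥S - 2 := by
    rw [Nat.card_coe_set_eq, Set.ncard_sdiff h2 (Set.toFinite _), Set.ncard_pair h.z_ne.symm,
      ← Nat.card_coe_set_eq]
    rfl
  have h9 : 9 ∣ Nat.card ↥((S : Set G) \ {1, z}) := by
    refine h.nine_dvd _ (fun x hx => ⟨hS hx.1, fun e => hx.2 (by simp [e]), fun e => hx.2 (by simp [e])⟩)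
      fun r hr x hx => ⟨hinv r hr x hx.1, fun e => hx.2 ?_⟩
    rcases e with e | e
    · left
      simpa using e
    · right
      have hr' : r * z * r⁻¹ = z := mul_inv_eq_iff_eq_mul.mpr (h.R_z r hr)
      have e' : r * x * r⁻¹ = r * z * r⁻¹ := e.trans hr'.symm
      simpa using e'
  have hk0 : 2 ≤ Nat.card ↥S := by
    rw [← Set.ncard_pair h.z_ne.symm, ← Nat.card_coe_set_eq ({1, z} : Set G)]
    exact Nat.card_mono (Set.toFinite _) h2
  rw [hc, hSk] at h9
  rw [hSk] at hk0 ⊢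
  interval_cases k <;> simp_all

end Triad

end CfsgLib.JFour
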