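import Cfsg.Agent.Lib.JFour.Hexad
import Cfsg.Agent.Lib.JFour.FpfEndo

/-!
In a `HexFrame` with a transitive group `M0` and a square root in `W`: every `b ∈ W ∖ ⟨z⟩`
centralises exactly `2 ^ 9` elements of `E`, and two independent ones only `U`.
-/

set_option autoImplicit false
set_option linter.unusedSectionVars false

namespace CfsgLib.JFour

variable {G : Type*} [Group G]

/-- A `HexFrame` with `W` of exponent 2, a square root and a group permuting `W` transitively. -/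
structure HexTransitive (E R P W M0 : Subgroup G) (z : G) : Prop extends HexFrame E R P W z where
  W_sq : ∀ w ∈ W, w * w = 1
  R_M0 : R ≤ M0
  W_M0 : W ≤ M0
  M0_P : ∀ m ∈ M0, ∀ p ∈ P, m * p = p * m
  M0_z : ∀ m ∈ M0, m * z = z * m
  M0_E : ∀ m ∈ M0, ∀ e ∈ E, m * e * m⁻¹ ∈ E
  M0_W : ∀ m ∈ M0, ∀ w ∈ W, m * w * m⁻¹ ∈ W
  root : ∃ v ∈ M0, v * v ∈ W ∧ v * v ∉ Subgroup.zpowers z
  trans : ∀ a ∈ W, a ∉ Subgroup.zpowers z → ∀ b ∈ W, b ∉ Subgroup.zpowers z →
    ∃ m ∈ M0, m * a * m⁻¹ = b ∨ m * a * m⁻¹ = z * b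
  small : ∀ n < 6, ∀ f : ↥M0 →* Equiv.Perm (Fin n),
    (∀ m : ↥M0, (m : G) ∈ W → f m = 1) → (∀ m : ↥M0, (m : G) ∈ P → f m = 1) → f = 1

namespace HexTransitive

open HexFrame

variable [Finite G] {E R P W M0 : Subgroup G} {z : G} (h : HexTransitive E R P W M0 z)
include h

omit h in
variable (E z) in
/-- `⟨z⟩` inside `E`. -/
abbrev Zs : Subgroup ↥E := (Subgroup.zpowers z).subgroupOf E

theorem normal_Zs : (Zs E z).Normal := by
  refine ⟨fun n hn g => ?_⟩
  rw [Subgroup.mem_subgroupOf] at hn ⊢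
  push_cast
  rcases h.mem_Z.mp hn with e | e <;> rw [e]
  · simp
  · rw [mul_inv_eq_iff_eq_mul.mpr (h.E_z g.2)]
    exact Subgroup.mem_zpowers z

theorem mk_comm (a b : ↥E) : haveI := h.normal_Zs; (a : ↥E ⧸ Zs E z) * b = b * a := by
  haveI := h.normal_Zs
  rw [← QuotientGroup.mk_mul, ← QuotientGroup.mk_mul, QuotientGroup.eq, Subgroup.mem_subgroupOf]
  push_cast
  rw [h.mem_Z]
  rcases h.comm_E _ (inv_mem b.2) _ (inv_mem a.2) with c | c <;>
    rw [commutatorElement_def] at c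
  · left
    rw [← c]; group
  · right
    rw [← c]; group

omit h in
variable (M0 E) in
/-- Elements normalising `E` and commuting with `z` act on `E / ⟨z⟩`. -/
def conjE (m : G) (hm : ∀ e ∈ E, m * e * m⁻¹ ∈ E) : ↥E →* ↥E where
  toFun e := ⟨m * e * m⁻¹, hm e e.2⟩
  map_one' := Subtype.ext (by simp)
  map_mul' a b := Subtype.ext (by simp [mul_assoc])

theorem conjE_Zs {m : G} (hm : ∀ e ∈ E, m * e * m⁻¹ ∈ E) (hz : m * z = z * m) :
    Zs E z ≤ (Zs E z).comap (conjE E m hm) := by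
  intro x hx
  rw [Subgroup.mem_comap, Subgroup.mem_subgroupOf]
  rw [Subgroup.mem_subgroupOf] at hx
  show m * (x : G) * m⁻¹ ∈ Subgroup.zpowers z
  rcases h.mem_Z.mp hx with e | e <;> rw [e]
  · simp
  · rw [mul_inv_eq_iff_eq_mul.mpr hz]; exact Subgroup.mem_zpowers z

theorem mem_Cb {b : G} (hb : b ∈ W) {e : ↥E}
    (he : b * (e : G) * b⁻¹ * (e : G)⁻¹ ∈ Subgroup.zpowers z) : b * (e : G) = e * b := by
  refine h.comm_of_mod (fun p hp => h.W_P b hb p hp) (h.W_z b hb) e.2 ?_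
  rcases h.mem_Z.mp he with d | d
  · exact Or.inl (mul_inv_eq_one.mp d)
  · exact Or.inr (mul_inv_eq_iff_eq_mul.mp d)

/-- Every `b ∈ W ∖ ⟨z⟩` centralises exactly `2 ^ 9` elements of `E`, independent ones share only `U`. -/
theorem main :
    (∀ b ∈ W, b ∉ Subgroup.zpowers z →
      Nat.card ↥(E ⊓ Subgroup.centralizer ({b} : Set G)) = 2 ^ 9) ∧
    (∀ a ∈ W, ∀ b ∈ W, a ∉ Subgroup.zpowers z → b ∉ Subgroup.zpowers z →
      a * b ∉ Subgroup.zpowers z → ∀ f ∈ E, a * f = f * a → b * f = f * b → f ∈ U E W) := by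
  classical
  haveI := h.normal_Zs
  letI : CommGroup (↥E ⧸ Zs E z) :=
    { (inferInstance : Group (↥E ⧸ Zs E z)) with
      mul_comm := fun x y => QuotientGroup.induction_on x fun a =>
        QuotientGroup.induction_on y fun b => h.mk_comm a b }
  have hzE : Subgroup.zpowers z ≤ E := Subgroup.zpowers_le.mpr h.z_mem
  have hV : Nat.card (↥E ⧸ Zs E z) = 2 ^ 12 := by
    have h1 := Subgroup.card_eq_card_quotient_mul_card_subgroup (Zs E z)
    rw [h.card_E, Nat.card_congr (Subgroup.subgroupOfEquivOfLe hzE).toEquiv, Nat.card_zpowers,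
      h.orderOf_z] at h1
    change 2 ^ 13 = Nat.card (↥E ⧸ Zs E z) * 2 at h1
    omega
  have hsq : ∀ x : (↥E ⧸ Zs E z), x * x = 1 := fun x => QuotientGroup.induction_on x fun a => by
    rw [← QuotientGroup.mk_mul, QuotientGroup.eq_one_iff, Subgroup.mem_subgroupOf]
    push_cast
    exact h.mem_Z.mpr (h.sq_E _ a.2)
  -- the action of elements normalising `E` and fixing `z`
  let act : ∀ m : G, (∀ e ∈ E, m * e * m⁻¹ ∈ E) ∧ m * z = z * m → ((↥E ⧸ Zs E z) →* (↥E ⧸ Zs E z)) := fun m hh =>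
    QuotientGroup.map (Zs E z) (Zs E z) (conjE E m hh.1) (h.conjE_Zs hh.1 hh.2)
  have act_mk : ∀ m hh (e : ↥E), act m hh (e : (↥E ⧸ Zs E z)) = ((conjE E m hh.1 e : ↥E) : (↥E ⧸ Zs E z)) :=
    fun m hh e => rfl
  obtain ⟨p, hp, hp1⟩ := h.exists_gen
  have hpE : ∀ e ∈ E, p * e * p⁻¹ ∈ E := fun e he => h.R_norm p (h.P_le hp) e he
  have hp3 : p ^ 3 = 1 := by
    have : (⟨p, hp⟩ : ↥P) ^ Nat.card ↥P = 1 := pow_card_eq_one'
    rw [h.card_P] at this
    simpa using congrArg Subtype.val this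
  set φ₀ := act p ⟨hpE, h.R_z p (h.P_le hp)⟩ with hφ₀
  have hφ3 : ∀ x, φ₀ (φ₀ (φ₀ x)) = x := fun x => QuotientGroup.induction_on x fun a => by
    rw [hφ₀, act_mk p ⟨hpE, h.R_z p (h.P_le hp)⟩, act_mk p ⟨hpE, h.R_z p (h.P_le hp)⟩, act_mk p ⟨hpE, h.R_z p (h.P_le hp)⟩]
    congr 1
    apply Subtype.ext
    show p * (p * (p * (a : G) * p⁻¹) * p⁻¹) * p⁻¹ = a
    calc p * (p * (p * (a : G) * p⁻¹) * p⁻¹) * p⁻¹ = p ^ 3 * (a : G) * (p ^ 3)⁻¹ := by
          rw [pow_succ, pow_two]; group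
      _ = a := by rw [hp3]; simp
  let φ : (↥E ⧸ Zs E z) ≃* (↥E ⧸ Zs E z) :=
    { φ₀ with
      invFun := fun x => φ₀ (φ₀ x)
      left_inv := hφ3
      right_inv := hφ3 }
  have hφapply : ∀ x, φ x = φ₀ x := fun x => rfl
  have hfix : ∀ x, φ x = x → x = 1 := fun x => QuotientGroup.induction_on x fun a ha => by
    rw [hφapply, hφ₀, act_mk p ⟨hpE, h.R_z p (h.P_le hp)⟩, QuotientGroup.eq, Subgroup.mem_subgroupOf] at ha
    rw [QuotientGroup.eq_one_iff, Subgroup.mem_subgroupOf]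
    push_cast at ha
    have ha' : (a : G) = p * a * p⁻¹ ∨ (a : G) = p * a * p⁻¹ * z := by
      rcases h.mem_Z.mp ha with c | c
      · exact Or.inl (inv_mul_eq_one.mp c).symm
      · exact Or.inr (inv_mul_eq_iff_eq_mul.mp c)
    have hpz := mul_inv_eq_iff_eq_mul.mpr (h.R_z p (h.P_le hp))
    have hcomm : p * (a : G) = a * p := by
      rcases ha' with c | c
      · exact mul_inv_eq_iff_eq_mul.mp c.symm
      · exfalso
        have hap : p * (a : G) * p⁻¹ = a * z := by
          calc p * (a : G) * p⁻¹ = p * a * p⁻¹ * z * z := by rw [mul_assoc _ z z, h.z_sq, mul_one]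
            _ = a * z := by rw [← c]
        have step : ∀ x : G, p * x * p⁻¹ = a * z → p * (x * z) * p⁻¹ = a := by
          intro x hx
          calc p * (x * z) * p⁻¹ = (p * x * p⁻¹) * (p * z * p⁻¹) := by group
            _ = a := by rw [hx, hpz, mul_assoc, h.z_sq, mul_one]
        have h3' : p ^ 3 * (a : G) * (p ^ 3)⁻¹ = a * z := by
          calc p ^ 3 * (a : G) * (p ^ 3)⁻¹ = p * (p * (p * a * p⁻¹) * p⁻¹) * p⁻¹ := by
                rw [pow_succ, pow_two]; group
            _ = a * z := by rw [hap, step _ hap, hap]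
        rw [hp3] at h3'
        exact h.z_ne (by simpa using h3'.symm)
    have hP : P = Subgroup.zpowers p := by
      symm
      refine Subgroup.eq_of_le_of_card_ge (Subgroup.zpowers_le.mpr hp) ?_
      rw [h.card_P, Nat.card_zpowers, orderOf_eq_prime hp3 hp1]
    refine h.mem_Z.mpr (h.fix _ a.2 fun q hq => ?_)
    rw [hP] at hq
    obtain ⟨n, rfl⟩ := Subgroup.mem_zpowers_iff.mp hq
    exact (show Commute p (a : G) from hcomm).zpow_left n
  have hfour : ∀ S : Subgroup (↥E ⧸ Zs E z), (∀ x ∈ S, φ x ∈ S) → ∃ a, 2 * a ≤ 12 ∧ Nat.card ↥S = 2 ^ (2 * a) :=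
    fpf_card 12 hV φ hφ3 hfix
  -- the maps `χ b`
  have hWE : ∀ w ∈ W, ∀ e ∈ E, w * e * w⁻¹ ∈ E := h.W_norm
  let A : ↥W → ((↥E ⧸ Zs E z) →* (↥E ⧸ Zs E z)) := fun b => act b ⟨hWE b b.2, h.W_z b b.2⟩
  let χ : ↥W → ((↥E ⧸ Zs E z) →* (↥E ⧸ Zs E z)) := fun b => A b / MonoidHom.id (↥E ⧸ Zs E z)
  have χ_mk : ∀ (b : ↥W) (e : ↥E), χ b (e : (↥E ⧸ Zs E z)) =
      ((⟨(b : G) * e * (b : G)⁻¹ * (e : G)⁻¹,
        mul_mem (hWE b b.2 e e.2) (inv_mem e.2)⟩ : ↥E) : (↥E ⧸ Zs E z)) := by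
    intro b e
    rw [MonoidHom.div_apply, MonoidHom.id_apply, act_mk _ ⟨hWE _ (b).2, h.W_z _ (b).2⟩, ← QuotientGroup.mk_div]
    congr 1
    apply Subtype.ext
    simp [div_eq_mul_inv, conjE]
  set Ub : Subgroup (↥E ⧸ Zs E z) := ((U E W).subgroupOf E).map (QuotientGroup.mk' (Zs E z)) with hUb
  have hUcard : ∀ (S : Subgroup (↥E ⧸ Zs E z)), 2 * Nat.card ↥S =
      Nat.card ↥((S.comap (QuotientGroup.mk' (Zs E z))).map E.subtype) := by
    intro S
    rw [Subgroup.card_map_of_injective E.subtype_injective]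
    have h1 := (S.comap (QuotientGroup.mk' (Zs E z))).card_mul_index
    have h2 := S.card_mul_index
    rw [Subgroup.index_comap_of_surjective _ (QuotientGroup.mk'_surjective _)] at h1
    rw [h.card_E] at h1
    rw [show Nat.card (↥E ⧸ Zs E z) = 2 ^ 12 from hV] at h2
    have hpos : 0 < S.index := Nat.pos_of_ne_zero S.index_ne_zero_of_finite
    exact Nat.eq_of_mul_eq_mul_right hpos (by rw [h1, mul_assoc, h2]; norm_num)
  have hirr : ∀ S : Subgroup (↥E ⧸ Zs E z), (∀ r (hr : r ∈ R), ∀ x ∈ S,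
      act r ⟨h.R_norm r hr, h.R_z r hr⟩ x ∈ S) →
      Nat.card ↥S = 1 ∨ Nat.card ↥S = 2 ^ 6 ∨ Nat.card ↥S = 2 ^ 12 := by
    intro S hS
    set S' := (S.comap (QuotientGroup.mk' (Zs E z))).map E.subtype
    have hzS : z ∈ S' := ⟨⟨z, h.z_mem⟩, by
      rw [SetLike.mem_coe, Subgroup.mem_comap, QuotientGroup.mk'_apply,
        (QuotientGroup.eq_one_iff (⟨z, h.z_mem⟩ : ↥E)).mpr (Subgroup.mem_zpowers z)]
      exact one_mem S, rfl⟩
    have := h.irreducible (S := S') (Subgroup.map_subtype_le _) hzS (by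
      rintro r hr _ ⟨e, he, rfl⟩
      exact ⟨conjE E r (h.R_norm r hr) e, hS r hr _ he, rfl⟩)
    rw [← hUcard S] at this
    omega
  have hUb6 : Nat.card ↥Ub = 2 ^ 6 := by
    have h1 := hUcard Ub
    have h2 : (Ub.comap (QuotientGroup.mk' (Zs E z))).map E.subtype = U E W := by
      rw [hUb, Subgroup.comap_map_eq, QuotientGroup.ker_mk', sup_eq_left.mpr
        (fun x hx => Subgroup.mem_subgroupOf.mpr (Subgroup.zpowers_le.mpr h.z_U hx)),
        Subgroup.subgroupOf_map_subtype, inf_eq_left.mpr U_le]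
    rw [h2, h.card_U] at h1
    omega
  have hχU : ∀ b, (χ b).range ≤ Ub := by
    rintro b _ ⟨x, rfl⟩
    induction x using QuotientGroup.induction_on with
    | H e =>
      rw [χ_mk]
      exact Subgroup.mem_map_of_mem _ (Subgroup.mem_subgroupOf.mpr (h.comm_mem_U b.2 e.2))
  have hUχ : ∀ b, Ub ≤ (χ b).ker := by
    rintro b _ ⟨u, hu, rfl⟩
    rw [MonoidHom.mem_ker, QuotientGroup.mk'_apply, χ_mk, QuotientGroup.eq_one_iff,
      Subgroup.mem_subgroupOf]
    show (b : G) * u * (b : G)⁻¹ * (u : G)⁻¹ ∈ Subgroup.zpowers z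
    rw [U_comm (Subgroup.mem_subgroupOf.mp hu) b.2, mul_inv_cancel_right, mul_inv_cancel]
    exact one_mem _
  have hφχ : ∀ b x, χ b (φ x) = φ (χ b x) := by
    intro b x
    induction x using QuotientGroup.induction_on with
    | H e =>
      rw [hφapply, hφapply, hφ₀, act_mk p ⟨hpE, h.R_z p (h.P_le hp)⟩, χ_mk, χ_mk, act_mk p ⟨hpE, h.R_z p (h.P_le hp)⟩]
      congr 1
      apply Subtype.ext
      show (b : G) * (p * e * p⁻¹) * (b : G)⁻¹ * (p * (e : G) * p⁻¹)⁻¹ =
        p * ((b : G) * e * (b : G)⁻¹ * (e : G)⁻¹) * p⁻¹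
      calc (b : G) * (p * e * p⁻¹) * (b : G)⁻¹ * (p * (e : G) * p⁻¹)⁻¹
          = ((b : G) * p) * e * ((b : G) * p)⁻¹ * p * (e : G)⁻¹ * p⁻¹ := by group
        _ = (p * (b : G)) * e * (p * (b : G))⁻¹ * p * (e : G)⁻¹ * p⁻¹ := by rw [h.W_P b b.2 p hp]
        _ = _ := by group
  have hK4 : ∀ b, ∃ a, 2 * a ≤ 12 ∧ Nat.card ↥(χ b).ker = 2 ^ (2 * a) := fun b =>
    hfour _ fun x hx => by rw [MonoidHom.mem_ker] at hx ⊢; rw [hφχ, hx, map_one]
  have hI4 : ∀ b, ∀ x ∈ (χ b).range, φ x ∈ (χ b).range := by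
    rintro b _ ⟨x, rfl⟩
    exact ⟨φ x, hφχ b x⟩
  have hrk : ∀ b, Nat.card ↥(χ b).range * Nat.card ↥(χ b).ker = 2 ^ 12 := fun b => by
    rw [← hV, ← Nat.card_congr (QuotientGroup.quotientKerEquivRange (χ b)).toEquiv,
      ← Subgroup.card_eq_card_quotient_mul_card_subgroup]
  -- a member of `ker χ b` is centralised by `b`
  have hker : ∀ (b : ↥W) (e : ↥E), χ b (e : (↥E ⧸ Zs E z)) = 1 ↔ (b : G) * e = e * b := by
    intro b e
    rw [χ_mk, QuotientGroup.eq_one_iff, Subgroup.mem_subgroupOf]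
    exact ⟨fun he => h.mem_Cb b.2 he, fun he => by
      show (b : G) * e * (b : G)⁻¹ * (e : G)⁻¹ ∈ _
      rw [he, mul_inv_cancel_right, mul_inv_cancel]; exact one_mem _⟩
  have hCb : ∀ b : ↥W, Nat.card ↥(E ⊓ Subgroup.centralizer ({(b : G)} : Set G)) =
      2 * Nat.card ↥(χ b).ker := by
    intro b
    rw [hUcard]
    congr 2
    ext x
    constructor
    · rintro ⟨hx, hxb⟩
      exact ⟨⟨x, hx⟩, (hker b ⟨x, hx⟩).mpr (Subgroup.mem_centralizer_iff.mp hxb _ rfl), rfl⟩
    · rintro ⟨e, he, rfl⟩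
      refine ⟨e.2, Subgroup.mem_centralizer_iff.mpr ?_⟩
      rintro y rfl
      exact (hker b e).mp he
  have hχne : ∀ b : ↥W, (b : G) ∉ Subgroup.zpowers z → Nat.card ↥(χ b).ker ≠ 2 ^ 12 := by
    intro b hb hc
    apply hb
    refine h.mem_Z.mpr (h.W_faith b b.2 fun e he => (hker b ⟨e, he⟩).mp ?_)
    rw [← MonoidHom.mem_ker, Subgroup.eq_top_of_card_eq _ (hc.trans hV.symm)]
    exact Subgroup.mem_top _
  have hχmul : ∀ a b : ↥W, ∀ x, χ (a * b) x = χ a x * χ b x := by
    intro a b x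
    induction x using QuotientGroup.induction_on with
    | H e =>
      have h2 : χ a (χ b (e : (↥E ⧸ Zs E z))) = 1 := MonoidHom.mem_ker.mp (hUχ a (hχU b ⟨_, rfl⟩))
      have h1 : A a (χ b (e : (↥E ⧸ Zs E z))) = χ b (e : (↥E ⧸ Zs E z)) := by
        have : χ a (χ b (e : (↥E ⧸ Zs E z))) = A a (χ b (e : (↥E ⧸ Zs E z))) / χ b (e : (↥E ⧸ Zs E z)) := rfl
        rw [h2] at this
        exact div_eq_one.mp this.symm
      have h3 : A (a * b) (e : (↥E ⧸ Zs E z)) = A a (A b (e : (↥E ⧸ Zs E z))) := by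
        rw [act_mk _ ⟨hWE _ ((a * b)).2, h.W_z _ ((a * b)).2⟩, act_mk _ ⟨hWE _ (b).2, h.W_z _ (b).2⟩, act_mk _ ⟨hWE _ (a).2, h.W_z _ (a).2⟩]
        congr 1
        apply Subtype.ext
        simp [conjE, mul_assoc]
      have h4 : A b (e : (↥E ⧸ Zs E z)) = χ b (e : (↥E ⧸ Zs E z)) * (e : (↥E ⧸ Zs E z)) := (div_mul_cancel _ _).symm
      show A (a * b) (e : (↥E ⧸ Zs E z)) / (e : (↥E ⧸ Zs E z)) = A a (e : (↥E ⧸ Zs E z)) / (e : (↥E ⧸ Zs E z)) * χ b (e : (↥E ⧸ Zs E z))
      rw [h3, h4, map_mul, h1, mul_comm (χ b (e : (↥E ⧸ Zs E z))), mul_div_right_comm]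
  -- lower bound for the square `b₀`
  obtain ⟨v, hvM, hvW, hvZ⟩ := h.root
  have h28 : 2 ^ 8 ≤ Nat.card ↥(χ ⟨v * v, hvW⟩).ker := by
    let Av := act v ⟨h.M0_E v hvM, h.M0_z v hvM⟩
    let ψ : (↥E ⧸ Zs E z) →* (↥E ⧸ Zs E z) := Av / MonoidHom.id (↥E ⧸ Zs E z)
    have hψψ : ∀ x, ψ (ψ x) = χ ⟨v * v, hvW⟩ x := by
      intro x
      induction x using QuotientGroup.induction_on with
      | H e =>
        have h3 : A ⟨v * v, hvW⟩ (e : (↥E ⧸ Zs E z)) = Av (Av (e : (↥E ⧸ Zs E z))) := by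
          rw [act_mk _ ⟨hWE _ ((⟨v * v, hvW⟩ : ↥W)).2, h.W_z _ ((⟨v * v, hvW⟩ : ↥W)).2⟩, act_mk v ⟨h.M0_E v hvM, h.M0_z v hvM⟩, act_mk v ⟨h.M0_E v hvM, h.M0_z v hvM⟩]
          congr 1
          apply Subtype.ext
          simp [conjE, mul_assoc]
        show Av (Av (e : (↥E ⧸ Zs E z)) / (e : (↥E ⧸ Zs E z))) / (Av (e : (↥E ⧸ Zs E z)) / (e : (↥E ⧸ Zs E z))) = A ⟨v * v, hvW⟩ (e : (↥E ⧸ Zs E z)) / (e : (↥E ⧸ Zs E z))
        rw [map_div, h3, div_div_div_eq, div_eq_div_iff_mul_eq_mul]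
        have := hsq (Av (e : (↥E ⧸ Zs E z)))
        calc Av (Av (e : (↥E ⧸ Zs E z))) * (e : (↥E ⧸ Zs E z)) * (e : (↥E ⧸ Zs E z)) = Av (Av (e : (↥E ⧸ Zs E z))) * ((e : (↥E ⧸ Zs E z)) * (e : (↥E ⧸ Zs E z))) := mul_assoc _ _ _
          _ = Av (Av (e : (↥E ⧸ Zs E z))) * (Av (e : (↥E ⧸ Zs E z)) * Av (e : (↥E ⧸ Zs E z))) := by rw [hsq, this]
    refine le_of_le_of_eq (card_ker_sq hV φ hφ3 hfix ψ (fun x => ?_) fun x => ?_) ?_
    · induction x using QuotientGroup.induction_on with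
      | H e =>
        show Av (φ (e : (↥E ⧸ Zs E z))) / φ (e : (↥E ⧸ Zs E z)) = φ (Av (e : (↥E ⧸ Zs E z)) / (e : (↥E ⧸ Zs E z)))
        rw [map_div]
        congr 1
        rw [hφapply, hφapply, hφ₀, act_mk p ⟨hpE, h.R_z p (h.P_le hp)⟩, act_mk v ⟨h.M0_E v hvM, h.M0_z v hvM⟩, act_mk v ⟨h.M0_E v hvM, h.M0_z v hvM⟩, act_mk p ⟨hpE, h.R_z p (h.P_le hp)⟩]
        congr 1
        apply Subtype.ext
        show v * (p * e * p⁻¹) * v⁻¹ = p * (v * e * v⁻¹) * p⁻¹
        calc v * (p * e * p⁻¹) * v⁻¹ = (v * p) * e * (v * p)⁻¹ := by group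
          _ = (p * v) * e * (p * v)⁻¹ := by rw [h.M0_P v hvM p hp]
          _ = _ := by group
    · rw [hψψ, hψψ]
      exact MonoidHom.mem_ker.mp (hUχ _ (hχU _ ⟨_, rfl⟩))
    · congr 2
      ext x
      rw [MonoidHom.mem_ker, MonoidHom.mem_ker, MonoidHom.comp_apply, hψψ]
  have hzW : ∀ w : ↥W, (w : G) ∈ Subgroup.zpowers z → ∀ x, χ w x = 1 := by
    intro w hw x
    induction x using QuotientGroup.induction_on with
    | H e =>
      refine (hker w e).mpr ?_
      rcases h.mem_Z.mp hw with c | c <;> rw [c]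
      · simp
      · exact (h.E_z e.2).symm
  have hconj : ∀ m (hm : m ∈ M0), ∀ a : ↥W, ∀ x,
      χ ⟨m * a * m⁻¹, h.M0_W m hm a a.2⟩ (act m ⟨h.M0_E m hm, h.M0_z m hm⟩ x) =
        act m ⟨h.M0_E m hm, h.M0_z m hm⟩ (χ a x) := by
    intro m hm a x
    induction x using QuotientGroup.induction_on with
    | H e =>
      rw [act_mk m ⟨h.M0_E m hm, h.M0_z m hm⟩, χ_mk, χ_mk, act_mk m ⟨h.M0_E m hm, h.M0_z m hm⟩]
      congr 1
      apply Subtype.ext
      simp [conjE, mul_assoc]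
  -- all kernels have the same order
  have hsame : ∀ a b : ↥W, (a : G) ∉ Subgroup.zpowers z → (b : G) ∉ Subgroup.zpowers z →
      Nat.card ↥(χ a).ker ≤ Nat.card ↥(χ b).ker := by
    intro a b ha hb
    obtain ⟨m, hm, hmab⟩ := h.trans a a.2 ha b b.2 hb
    have hinj : Function.Injective (act m ⟨h.M0_E m hm, h.M0_z m hm⟩) := by
      intro x y hxy
      have : ∀ x, act m⁻¹ ⟨h.M0_E m⁻¹ (inv_mem hm), h.M0_z m⁻¹ (inv_mem hm)⟩
          (act m ⟨h.M0_E m hm, h.M0_z m hm⟩ x) = x := fun x =>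
        QuotientGroup.induction_on x fun e => by
          rw [act_mk m ⟨h.M0_E m hm, h.M0_z m hm⟩, act_mk m⁻¹ ⟨h.M0_E m⁻¹ (inv_mem hm), h.M0_z m⁻¹ (inv_mem hm)⟩]
          congr 1
          apply Subtype.ext
          simp [conjE, mul_assoc]
      rw [← this x, hxy, this y]
    have hkey : ∀ x, χ b (act m ⟨h.M0_E m hm, h.M0_z m hm⟩ x) =
        act m ⟨h.M0_E m hm, h.M0_z m hm⟩ (χ a x) := by
      intro x
      rw [← hconj m hm a x]
      rcases hmab with c | c
      · congr 2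
        exact Subtype.ext c.symm
      · have : (⟨m * a * m⁻¹, h.M0_W m hm a a.2⟩ : ↥W) = ⟨z, h.z_W⟩ * b := Subtype.ext c
        rw [this, hχmul, hzW ⟨z, h.z_W⟩ (Subgroup.mem_zpowers z), one_mul]
    refine Nat.card_le_card_of_injective
      (fun x => (⟨act m ⟨h.M0_E m hm, h.M0_z m hm⟩ (x : (↥E ⧸ Zs E z)), by
        rw [MonoidHom.mem_ker, hkey, MonoidHom.mem_ker.mp x.2, map_one]⟩ : ↥(χ b).ker))
      fun x y e => Subtype.ext (hinj (congrArg Subtype.val e))
  set b₀ : ↥W := ⟨v * v, hvW⟩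
  obtain ⟨a₀, ha₀, hK₀⟩ := hK4 b₀
  have ha₀' : a₀ = 4 ∨ a₀ = 5 := by
    rw [hK₀] at h28
    have h1 := (Nat.pow_le_pow_iff_right one_lt_two).mp h28
    have h2 : a₀ ≠ 6 := fun e => hχne b₀ hvZ (by rw [hK₀, e])
    omega
  have hall : ∀ b : ↥W, (b : G) ∉ Subgroup.zpowers z → Nat.card ↥(χ b).ker = 2 ^ (2 * a₀) :=
    fun b hb => hK₀ ▸ le_antisymm (hsame b b₀ hb hvZ) (hsame b₀ b hvZ hb)
  have hRK : ∀ r (hr : r ∈ R) (b : ↥W) (x : (↥E ⧸ Zs E z)), x ∈ (χ b).ker →
      act r ⟨h.R_norm r hr, h.R_z r hr⟩ x ∈ (χ ⟨r * b * r⁻¹, h.R_W r hr b b.2⟩).ker := by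
    intro r hr b x hx
    rw [MonoidHom.mem_ker] at hx ⊢
    rw [hconj r (h.R_M0 hr) b x, hx, map_one]
  have hno : ∀ (n : ℕ) (f : ↥W → Subgroup (↥E ⧸ Zs E z)), (∀ r (hr : r ∈ R) (b : ↥W) (x : (↥E ⧸ Zs E z)), x ∈ f b →
      act r ⟨h.R_norm r hr, h.R_z r hr⟩ x ∈ f ⟨r * b * r⁻¹, h.R_W r hr b b.2⟩) →
      (∀ b : ↥W, (b : G) ∉ Subgroup.zpowers z → Nat.card ↥(f b) = n) →
      (∀ a b : ↥W, (a : G) ∉ Subgroup.zpowers z → (b : G) ∉ Subgroup.zpowers z → f a = f b) →
      n = 1 ∨ n = 2 ^ 6 ∨ n = 2 ^ 12 := by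
    intro n f hf hn heq
    have := hirr (f b₀) fun r hr x hx => by
      rw [heq b₀ ⟨r * b₀ * r⁻¹, h.R_W r hr b₀ b₀.2⟩ hvZ ?_]
      · exact hf r hr b₀ x hx
      · intro hz
        apply hvZ
        rcases h.mem_Z.mp hz with c | c
        · exact h.mem_Z.mpr (Or.inl (conj_eq_one_iff.mp c))
        · refine h.mem_Z.mpr (Or.inr ?_)
          have hrz : r * z * r⁻¹ = z := mul_inv_eq_iff_eq_mul.mpr (h.R_z r hr)
          have := c.trans hrz.symm
          simpa using this
    rwa [hn b₀ hvZ] at this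
  have hne : ∀ a b : ↥W, (a : G) * b ∈ Subgroup.zpowers z → ∀ x, χ a x = χ b x := by
    intro a b hab x
    have h1 := hzW (a * b) hab x
    rw [hχmul] at h1
    calc χ a x = χ a x * (χ b x * χ b x) := by rw [hsq, mul_one]
      _ = χ b x := by rw [← mul_assoc, h1, one_mul]
  have ha4 : a₀ = 4 := by
    rcases ha₀' with e | e
    · exact e
    exfalso
    subst e
    have hI : ∀ b : ↥W, (b : G) ∉ Subgroup.zpowers z → Nat.card ↥(χ b).range = 4 := fun b hb => by
      have := hrk b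
      rw [hall b hb] at this
      omega
    have hIK : ∀ a b : ↥W, (a : G) ∉ Subgroup.zpowers z → (b : G) ∉ Subgroup.zpowers z →
        (χ a).range ≠ (χ b).range → (χ a).ker = (χ b).ker := by
      intro a b ha hb hne'
      have hab : (a : G) * b ∉ Subgroup.zpowers z := fun hc =>
        hne' (congrArg MonoidHom.range (MonoidHom.ext (hne a b hc)))
      have hinf : (χ a).range ⊓ (χ b).range = ⊥ := by
        obtain ⟨i, hi, hcard⟩ := hfour ((χ a).range ⊓ (χ b).range) fun x hx =>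
          ⟨hI4 a x hx.1, hI4 b x hx.2⟩
        have hle := Subgroup.card_le_of_le (inf_le_left : (χ a).range ⊓ (χ b).range ≤ (χ a).range)
        rw [hI a ha, hcard] at hle
        have hi1 : i ≤ 1 := by
          have := (Nat.pow_le_pow_iff_right one_lt_two).mp (hle.trans_eq (show (4 : ℕ) = 2 ^ 2 from rfl))
          omega
        rcases Nat.le_one_iff_eq_zero_or_eq_one.mp hi1 with c | c
        · exact Subgroup.card_eq_one.mp (by rw [hcard, c]; rfl)
        · exfalso
          apply hne'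
          have h1 : (χ a).range ⊓ (χ b).range = (χ a).range :=
            Subgroup.eq_of_le_of_card_ge inf_le_left (by rw [hI a ha, hcard, c]; norm_num)
          exact Subgroup.eq_of_le_of_card_ge (h1 ▸ inf_le_right) (by rw [hI a ha, hI b hb])
      have hle : ∀ x ∈ (χ (a * b)).ker, χ a x = 1 ∧ χ b x = 1 := by
        intro x hx
        rw [MonoidHom.mem_ker, hχmul] at hx
        have h1 : χ a x = χ b x := by
          calc χ a x = χ a x * (χ b x * χ b x) := by rw [hsq, mul_one]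
            _ = χ b x := by rw [← mul_assoc, hx, one_mul]
        have h2 : χ a x ∈ (χ a).range ⊓ (χ b).range := ⟨⟨x, rfl⟩, x, h1.symm⟩
        rw [hinf, Subgroup.mem_bot] at h2
        exact ⟨h2, h1 ▸ h2⟩
      have e1 : (χ (a * b)).ker = (χ a).ker := Subgroup.eq_of_le_of_card_ge
        (fun x hx => (hle x hx).1) (by rw [hall a ha, hall (a * b) hab])
      have e2 : (χ (a * b)).ker = (χ b).ker := Subgroup.eq_of_le_of_card_ge
        (fun x hx => (hle x hx).2) (by rw [hall b hb, hall (a * b) hab])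
      rw [← e1, e2]
    by_cases hex : ∃ a b : ↥W, (a : G) ∉ Subgroup.zpowers z ∧ (b : G) ∉ Subgroup.zpowers z ∧
        (χ a).range ≠ (χ b).range
    · obtain ⟨a, b, ha, hb, hab⟩ := hex
      have hKeq : ∀ c : ↥W, (c : G) ∉ Subgroup.zpowers z → (χ c).ker = (χ a).ker := by
        intro c hc
        by_cases hca : (χ c).range = (χ a).range
        · rw [hIK c b hc hb (hca ▸ hab), hIK a b ha hb hab]
        · exact hIK c a hc ha hca
      rcases hno _ (fun b => (χ b).ker) hRK hall (fun c d hc hd => (hKeq c hc).trans (hKeq d hd).symm)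
        with c | c | c <;> norm_num at c
    · push Not at hex
      rcases hno 4 (fun b => (χ b).range) (fun r hr b x hx => by
          obtain ⟨y, rfl⟩ := hx
          exact ⟨act r ⟨h.R_norm r hr, h.R_z r hr⟩ y, hconj r (h.R_M0 hr) b y⟩)
          hI (fun c d hc hd => hex c d hc hd) with c | c | c <;> norm_num at c
  subst ha4
  refine ⟨fun b hb hbz => by rw [hCb ⟨b, hb⟩, hall ⟨b, hb⟩ hbz]; norm_num, ?_⟩
  -- distinct kernels for independent elements
  have hdist : ∀ a b : ↥W, (a : G) ∉ Subgroup.zpowers z → (b : G) ∉ Subgroup.zpowers z →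
      (χ a).ker = (χ b).ker → (a : G) * b ∈ Subgroup.zpowers z := by
    haveI := Fintype.ofFinite ↥W
    let actM : ↥M0 → ((↥E ⧸ Zs E z) →* (↥E ⧸ Zs E z)) := fun m =>
      act m ⟨h.M0_E m m.2, h.M0_z m m.2⟩
    have actM_mk : ∀ (m : ↥M0) (e : ↥E), actM m (e : (↥E ⧸ Zs E z)) =
        ((conjE E (m : G) (h.M0_E m m.2) e : ↥E) : (↥E ⧸ Zs E z)) := fun m e => rfl
    have actM_mul : ∀ (m n : ↥M0), actM (m * n) = (actM m).comp (actM n) := by
      intro m n
      ext x
      show actM (m * n) (x : (↥E ⧸ Zs E z)) = actM m (actM n (x : (↥E ⧸ Zs E z)))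
      rw [actM_mk, actM_mk, actM_mk]
      congr 1
      apply Subtype.ext
      simp [conjE, mul_assoc]
    have actM_one : actM 1 = MonoidHom.id _ := by
      ext x
      show actM 1 (x : (↥E ⧸ Zs E z)) = (x : (↥E ⧸ Zs E z))
      rw [actM_mk]
      congr 1
      apply Subtype.ext
      simp [conjE]
    have actM_inj : ∀ m, Function.Injective (actM m) := by
      intro m x y hxy
      have := congrArg (actM m⁻¹) hxy
      rwa [← MonoidHom.comp_apply, ← MonoidHom.comp_apply, ← actM_mul, inv_mul_cancel,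
        actM_one] at this
    let cj : ↥M0 → ↥W → ↥W := fun m c => ⟨m * c * (m : G)⁻¹, h.M0_W m m.2 c c.2⟩
    have hcj : ∀ (m : ↥M0) (c : ↥W), (c : G) ∉ Subgroup.zpowers z → (cj m c : G) ∉ Subgroup.zpowers z := by
      intro m c hc hm'
      apply hc
      rcases h.mem_Z.mp hm' with d | d
      · exact h.mem_Z.mpr (Or.inl (conj_eq_one_iff.mp d))
      · refine h.mem_Z.mpr (Or.inr ?_)
        have hmz : (m : G) * z * (m : G)⁻¹ = z := mul_inv_eq_iff_eq_mul.mpr (h.M0_z m m.2)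
        simpa using (show (m : G) * c * (m : G)⁻¹ = z from d).trans hmz.symm
    let K' : ↥W → Subgroup (↥E ⧸ Zs E z) := fun c => (χ c).ker
    have hKmap : ∀ (m : ↥M0) (c : ↥W), (c : G) ∉ Subgroup.zpowers z → (K' c).map (actM m) = K' (cj m c) := by
      intro m c hc
      refine Subgroup.eq_of_le_of_card_ge ?_ ?_
      · rintro _ ⟨x, hx, rfl⟩
        show χ (cj m c) (actM m x) = 1
        rw [hconj m m.2 c x, show χ c x = 1 from hx, map_one]
      · rw [Subgroup.card_map_of_injective (actM_inj m), hall c hc, hall (cj m c) (hcj m c hc)]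
    set S : Finset ↥W := Finset.univ.filter fun c => (c : G) ∉ Subgroup.zpowers z with hSdef
    have hSmem : ∀ c, c ∈ S ↔ (c : G) ∉ Subgroup.zpowers z := fun c => by simp [hSdef]
    set Zw : Finset ↥W := Finset.univ.filter fun c => (c : G) ∈ Subgroup.zpowers z with hZwdef
    have hZw : Zw.card = 2 := by
      have : Zw = {1, ⟨z, h.z_W⟩} := by
        ext c
        simp only [hZwdef, Finset.mem_filter, Finset.mem_univ, true_and, Finset.mem_insert,
          Finset.mem_singleton, h.mem_Z]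
        exact ⟨fun d => d.imp Subtype.ext Subtype.ext,
          fun d => d.imp (fun e => by rw [e]; rfl) (fun e => by rw [e])⟩
      rw [this, Finset.card_pair]
      intro e
      exact h.z_ne (congrArg Subtype.val e).symm
    have hS30 : S.card = 30 := by
      have h1 := Finset.card_filter_add_card_filter_not (s := (Finset.univ : Finset ↥W))
        (fun c => (c : G) ∈ Subgroup.zpowers z)
      rw [← hZwdef, ← hSdef, hZw, Finset.card_univ, ← Nat.card_eq_fintype_card, h.card_W] at h1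
      omega
    set 𝒦 : Finset (Subgroup (↥E ⧸ Zs E z)) := S.image K' with h𝒦
    let fib : Subgroup (↥E ⧸ Zs E z) → Finset ↥W := fun K => S.filter fun c => K' c = K
    have hfib : ∀ c ∈ S, ∀ d ∈ S, (fib (K' c)).card ≤ (fib (K' d)).card := by
      intro c hc d hd
      obtain ⟨m, hm, hmcd⟩ := h.trans c c.2 ((hSmem c).mp hc) d d.2 ((hSmem d).mp hd)
      have hKd : K' (cj ⟨m, hm⟩ c) = K' d := by
        rcases hmcd with e | e
        · exact congrArg K' (Subtype.ext e)
        · refine congrArg MonoidHom.ker (MonoidHom.ext (hne _ d ?_))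
          show m * c * m⁻¹ * (d : G) ∈ Subgroup.zpowers z
          rw [e, mul_assoc, h.W_sq d d.2, mul_one]
          exact Subgroup.mem_zpowers z
      refine Finset.card_le_card_of_injOn (cj ⟨m, hm⟩) ?_ ?_
      · intro e he
        simp only [fib, Finset.coe_filter, Set.mem_setOf_eq] at he ⊢
        refine ⟨(hSmem _).mpr (hcj _ e ((hSmem e).mp he.1)), ?_⟩
        rw [← hKmap _ e ((hSmem e).mp he.1), he.2, hKmap _ c ((hSmem c).mp hc), hKd]
      · intro e _ e' _ hee
        have := congrArg Subtype.val hee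
        exact Subtype.ext (by simpa [cj] using this)
    have hb₀S : b₀ ∈ S := (hSmem b₀).mpr hvZ
    set k := (fib (K' b₀)).card with hk
    set n := 𝒦.card with hn
    have hnk : n * k = 30 := by
      rw [← hS30, Finset.card_eq_sum_card_image K' S, ← h𝒦]
      rw [Finset.sum_congr rfl (g := fun _ => k) ?_, Finset.sum_const, smul_eq_mul]
      intro K hK
      obtain ⟨c, hc, rfl⟩ := Finset.mem_image.mp hK
      exact le_antisymm (hfib c hc b₀ hb₀S) (hfib b₀ hb₀S c hc)
    have hdvd : k + 2 ∣ 32 := by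
      let F : Subgroup ↥W :=
        { carrier := {c | (c : G) ∈ Subgroup.zpowers z ∨ K' c = K' b₀}
          one_mem' := Or.inl (one_mem _)
          inv_mem' := fun {c} hc => by
            have : c⁻¹ = c := Subtype.ext (inv_eq_of_mul_eq_one_right (h.W_sq c c.2))
            rwa [this]
          mul_mem' := by
            intro c d hc hd
            by_cases hcd : ((c * d : ↥W) : G) ∈ Subgroup.zpowers z
            · exact Or.inl hcd
            refine Or.inr ?_
            rcases hc with hc | hc <;> rcases hd with hd | hd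
            · exact absurd (mul_mem hc hd) hcd
            · rw [← hd]
              exact congrArg MonoidHom.ker (MonoidHom.ext fun x => by
                rw [hχmul, hzW c hc, one_mul])
            · rw [← hc]
              exact congrArg MonoidHom.ker (MonoidHom.ext fun x => by
                rw [hχmul, hzW d hd, mul_one])
            · have hc' : (c : G) ∉ Subgroup.zpowers z := by
                intro hz
                have h1 : (K' b₀) = ⊤ := by
                  rw [← hc]; ext x; simpa [K'] using hzW c hz x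
                apply hχne b₀ hvZ
                show Nat.card ↥(K' b₀) = _
                rw [h1, Subgroup.card_top, hV]
              refine (Subgroup.eq_of_le_of_card_ge ?_ (by rw [hall b₀ hvZ, hall _ hcd])).symm
              intro x hx
              have hxc : χ c x = 1 := by
                have : x ∈ K' c := hc ▸ hx
                exact this
              have hxd : χ d x = 1 := by
                have : x ∈ K' d := hd ▸ hx
                exact this
              show χ (c * d) x = 1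
              rw [hχmul, hxc, hxd, one_mul] }
      have hF : Nat.card ↥F = k + 2 := by
        have hdisj : Disjoint (fib (K' b₀)) Zw := by
          rw [Finset.disjoint_left]
          intro c hc hc'
          simp only [fib, hSdef, hZwdef, Finset.mem_filter, Finset.mem_univ, true_and] at hc hc'
          exact hc.1 hc'
        rw [hk, ← hZw, ← Finset.card_union_of_disjoint hdisj, Nat.card_eq_fintype_card]
        refine Fintype.card_of_subtype _ fun c => ?_
        simp only [fib, hSdef, hZwdef, Finset.mem_union, Finset.mem_filter, Finset.mem_univ, true_and]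
        show _ ↔ (c : G) ∈ Subgroup.zpowers z ∨ K' c = K' b₀
        tauto
      rw [← hF, ← h.card_W]
      exact F.card_subgroup_dvd_card
    have hk2 : k = 2 := by
      by_contra hk2
      have hn6 : n < 6 := by
        have hle : k + 2 ≤ 32 := Nat.le_of_dvd (by norm_num) hdvd
        have hk0 : k ≠ 0 := fun e => by rw [e] at hnk; simp at hnk
        have hk1 : k ≠ 1 := fun e => by rw [e] at hdvd; norm_num at hdvd
        by_contra hn6
        have hk5 : k ≤ 5 := by nlinarith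
        interval_cases k <;> omega
      have hmem : ∀ (m : ↥M0) (K : ↥𝒦), (K : Subgroup (↥E ⧸ Zs E z)).map (actM m) ∈ 𝒦 := by
        rintro m ⟨K, hK⟩
        obtain ⟨c, hc, rfl⟩ := Finset.mem_image.mp hK
        exact Finset.mem_image.mpr
          ⟨cj m c, (hSmem _).mpr (hcj m c ((hSmem c).mp hc)), (hKmap m c ((hSmem c).mp hc)).symm⟩
      letI : MulAction ↥M0 ↥𝒦 :=
        { smul := fun m K => ⟨_, hmem m K⟩
          one_smul := fun K => Subtype.ext (by
            show (K : Subgroup (↥E ⧸ Zs E z)).map (actM 1) = K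
            rw [actM_one, Subgroup.map_id])
          mul_smul := fun m m' K => Subtype.ext (by
            show (K : Subgroup (↥E ⧸ Zs E z)).map (actM (m * m')) =
              ((K : Subgroup (↥E ⧸ Zs E z)).map (actM m')).map (actM m)
            rw [actM_mul, Subgroup.map_map]) }
      let f : ↥M0 →* Equiv.Perm (Fin n) :=
        ((Fintype.equivFinOfCardEq (Fintype.card_coe 𝒦)).permCongrHom).toMonoidHom.comp
          (MulAction.toPermHom ↥M0 ↥𝒦)
      have hker' : ∀ m : ↥M0, (∀ c : ↥W, cj m c = c) → f m = 1 := by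
        intro m hm
        show (Fintype.equivFinOfCardEq (Fintype.card_coe 𝒦)).permCongrHom
          (MulAction.toPermHom ↥M0 ↥𝒦 m) = 1
        rw [show MulAction.toPermHom ↥M0 ↥𝒦 m = 1 from ?_, map_one]
        ext1 K
        apply Subtype.ext
        obtain ⟨c, hc, hcK⟩ := Finset.mem_image.mp K.2
        show (K : Subgroup (↥E ⧸ Zs E z)).map (actM m) = K
        rw [← hcK, hKmap m c ((hSmem c).mp hc), hm]
      have hWc : ∀ u ∈ W, ∀ w ∈ W, u * w = w * u := fun u hu w hw => by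
        calc u * w = (u * w)⁻¹ := (inv_eq_of_mul_eq_one_right (h.W_sq _ (mul_mem hu hw))).symm
          _ = w⁻¹ * u⁻¹ := mul_inv_rev u w
          _ = w * u := by
            rw [inv_eq_of_mul_eq_one_right (h.W_sq w hw), inv_eq_of_mul_eq_one_right (h.W_sq u hu)]
      have hf1 := h.small n hn6 f
        (fun m hm => hker' m fun c => Subtype.ext (mul_inv_eq_iff_eq_mul.mpr (hWc _ hm _ c.2)))
        (fun m hm => hker' m fun c => Subtype.ext (mul_inv_eq_iff_eq_mul.mpr
          ((h.W_P c c.2 m hm).symm)))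
      have hall' : ∀ c d : ↥W, (c : G) ∉ Subgroup.zpowers z → (d : G) ∉ Subgroup.zpowers z →
          K' c = K' d := by
        intro c d hc hd
        obtain ⟨m, hm, hmcd⟩ := h.trans c c.2 hc d d.2 hd
        have h1 : MulAction.toPermHom ↥M0 ↥𝒦 ⟨m, hm⟩ = 1 := by
          have := DFunLike.congr_fun hf1 ⟨m, hm⟩
          refine (Fintype.equivFinOfCardEq (Fintype.card_coe 𝒦)).permCongrHom.injective ?_
          rw [map_one]
          exact this
        have h2 := congrArg Subtype.val (Equiv.Perm.congr_fun h1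
          ⟨K' c, Finset.mem_image_of_mem K' ((hSmem c).mpr hc)⟩)
        change (K' c).map (actM ⟨m, hm⟩) = K' c at h2
        rw [hKmap _ c hc] at h2
        rw [← h2]
        rcases hmcd with e | e
        · exact congrArg K' (Subtype.ext e)
        · refine congrArg MonoidHom.ker (MonoidHom.ext (hne _ d ?_))
          show m * c * m⁻¹ * (d : G) ∈ Subgroup.zpowers z
          rw [e, mul_assoc, h.W_sq d d.2, mul_one]
          exact Subgroup.mem_zpowers z
      rcases hno _ K' hRK hall hall' with e | e | e <;> norm_num at e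
    intro a b ha hb hab
    have hkA : (fib (K' a)).card = 2 :=
      hk2 ▸ le_antisymm (hfib a ((hSmem a).mpr ha) b₀ hb₀S) (hfib b₀ hb₀S a ((hSmem a).mpr ha))
    by_contra habz
    have hzz : (z : G) * z = 1 := h.z_sq
    let az : ↥W := a * ⟨z, h.z_W⟩
    have haz : (az : G) ∉ Subgroup.zpowers z := fun hc =>
      ha (by simpa [az, mul_assoc, hzz] using mul_mem hc (Subgroup.mem_zpowers z))
    have h3 : ({a, az, b} : Finset ↥W) ⊆ fib (K' a) := by
      intro c hc
      simp only [Finset.mem_insert, Finset.mem_singleton] at hc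
      rw [show fib (K' a) = S.filter fun c => K' c = K' a from rfl, Finset.mem_filter, hSmem]
      rcases hc with rfl | rfl | rfl
      · exact ⟨ha, rfl⟩
      · exact ⟨haz, congrArg MonoidHom.ker (MonoidHom.ext fun x => by
          rw [hχmul, hzW ⟨z, h.z_W⟩ (Subgroup.mem_zpowers z), mul_one])⟩
      · exact ⟨hb, hab.symm⟩
    have h1 : a ≠ az := by
      intro e
      exact h.z_ne (by simpa [az] using congrArg Subtype.val e)
    have h2' : a ≠ b := by
      rintro rfl
      exact habz (by rw [h.W_sq a a.2]; exact one_mem _)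
    have h2'' : az ≠ b := by
      intro e
      apply habz
      rw [← e]
      show (a : G) * ((a : G) * z) ∈ Subgroup.zpowers z
      rw [← mul_assoc, h.W_sq a a.2, one_mul]
      exact Subgroup.mem_zpowers z
    have := Finset.card_le_card h3
    rw [hkA, Finset.card_insert_of_notMem (by simp [h1, h2']), Finset.card_pair h2''] at this
    omega
  intro a ha b hb haz hbz habz f hf haf hbf
  set x : (↥E ⧸ Zs E z) := ((⟨f, hf⟩ : ↥E) : (↥E ⧸ Zs E z))
  have hxa : x ∈ (χ ⟨a, ha⟩).ker := (hker ⟨a, ha⟩ ⟨f, hf⟩).mpr haf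
  have hxb : x ∈ (χ ⟨b, hb⟩).ker := (hker ⟨b, hb⟩ ⟨f, hf⟩).mpr hbf
  set S := (χ ⟨a, ha⟩).ker ⊓ (χ ⟨b, hb⟩).ker
  have hUS : Ub ≤ S := le_inf (hUχ _) (hUχ _)
  obtain ⟨i, hi, hS⟩ := hfour S fun y hy =>
    ⟨by show χ _ (φ y) = 1; rw [hφχ, MonoidHom.mem_ker.mp hy.1, map_one],
     by show χ _ (φ y) = 1; rw [hφχ, MonoidHom.mem_ker.mp hy.2, map_one]⟩
  have hS6 : Nat.card ↥S = 2 ^ 6 := by
    have h1 := Subgroup.card_le_of_le hUS
    have h2 := Subgroup.card_le_of_le (inf_le_left : S ≤ (χ ⟨a, ha⟩).ker)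
    rw [hUb6, hS] at h1
    rw [hall ⟨a, ha⟩ haz, hS] at h2
    have h3 := (Nat.pow_le_pow_iff_right one_lt_two).mp h1
    have h4 := (Nat.pow_le_pow_iff_right one_lt_two).mp h2
    rcases (show i = 3 ∨ i = 4 by omega) with c | c
    · rw [hS, c]
    · exfalso
      have e1 : S = (χ ⟨a, ha⟩).ker :=
        Subgroup.eq_of_le_of_card_ge inf_le_left (by rw [hall ⟨a, ha⟩ haz, hS, c])
      have e2 : S = (χ ⟨b, hb⟩).ker :=
        Subgroup.eq_of_le_of_card_ge inf_le_right (by rw [hall ⟨b, hb⟩ hbz, hS, c])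
      exact habz (hdist ⟨a, ha⟩ ⟨b, hb⟩ haz hbz (e1.symm.trans e2))
  have hxU : x ∈ Ub := (Subgroup.eq_of_le_of_card_ge hUS (by rw [hUb6, hS6])).symm ▸ (⟨hxa, hxb⟩ : x ∈ S)
  obtain ⟨u, hu, hux⟩ := hxU
  rw [QuotientGroup.mk'_apply, QuotientGroup.eq, Subgroup.mem_subgroupOf] at hux
  have hzu : (u : G)⁻¹ * f ∈ U E W := Subgroup.zpowers_le.mpr h.z_U (by simpa using hux)
  have := mul_mem (Subgroup.mem_subgroupOf.mp hu) hzu
  simpa using this

end HexTransitive

end CfsgLib.JFour
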