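import Cfsg.Agent.Lib.JFour.Five

/-!
# Groups of Janko-four type: conjugacy inside `V` under `E M₀`
-/

set_option autoImplicit false
set_option linter.unusedSectionVars false
set_option linter.style.haveILetI false

open Cfsg

namespace CfsgLib.JFour

variable {G : Type*} [Group G]

/-- Conjugacy under an element of `E M₀`. -/
def LConj (E M0 : Subgroup G) (x y : G) : Prop := ∃ l ∈ E ⊔ M0, l * x * l⁻¹ = y

theorem LConj.refl (E M0 : Subgroup G) (x : G) : LConj E M0 x x := ⟨1, one_mem _, by simp⟩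

theorem LConj.symm {E M0 : Subgroup G} {x y : G} (hc : LConj E M0 x y) : LConj E M0 y x := by
  obtain ⟨l, hl, e⟩ := hc
  exact ⟨l⁻¹, inv_mem hl, by rw [← e]; group⟩

theorem LConj.trans {E M0 : Subgroup G} {x y w : G} (h1 : LConj E M0 x y) (h2 : LConj E M0 y w) :
    LConj E M0 x w := by
  obtain ⟨l, hl, e⟩ := h1
  obtain ⟨k, hk, e'⟩ := h2
  exact ⟨k * l, mul_mem hk hl, by rw [← e', ← e]; group⟩

theorem LConj.of_E {E M0 : Subgroup G} {f x y : G} (hf : f ∈ E) (e : f * x * f⁻¹ = y) :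
    LConj E M0 x y := ⟨f, Subgroup.mem_sup_left hf, e⟩

theorem LConj.of_M0 {E M0 : Subgroup G} {m x y : G} (hm : m ∈ M0) (e : m * x * m⁻¹ = y) :
    LConj E M0 x y := ⟨m, Subgroup.mem_sup_right hm, e⟩

namespace HexTransitive

open HexFrame

variable [Finite G] {E R P W M0 : Subgroup G} {z : G} (h : HexTransitive E R P W M0 z)
include h

theorem pt_le {S T : Subgroup G} (hT : IsPt E P W z T) (hS : Between E P W z S) {d : G}
    (hdT : d ∈ T) (hdS : d ∈ S) (hdz : d ∉ Subgroup.zpowers z) : T ≤ S := by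
  have hle := Subgroup.card_le_of_le (inf_le_left : T ⊓ S ≤ T)
  rw [hT.2] at hle
  rcases h.between_card (h.between_inf hT.1 hS) with c | c | c | c
  · exfalso
    exact hdz (Subgroup.eq_of_le_of_card_ge (Subgroup.zpowers_le.mpr
      (Subgroup.mem_inf.mpr ⟨hT.1.z_mem, hS.z_mem⟩))
      (by rw [c, Nat.card_zpowers, h.orderOf_z]) ▸ Subgroup.mem_inf.mpr ⟨hdT, hdS⟩)
  all_goals
    exact (Subgroup.eq_of_le_of_card_ge (inf_le_left : T ⊓ S ≤ T) (by rw [c, hT.2] <;> omega)).ge.trans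
      inf_le_right

theorem z_conj_M0 {m : G} (hm : m ∈ M0) : m * z * m⁻¹ = z := mul_inv_eq_iff_eq_mul.mpr (h.M0_z m hm)

theorem conj_notMem_Z {m x : G} (hm : m ∈ M0) (hx : x ∉ Subgroup.zpowers z) :
    m * x * m⁻¹ ∉ Subgroup.zpowers z := fun hh => hx (by
  rcases h.mem_Z.mp hh with e | e
  · exact h.mem_Z.mpr (Or.inl (conj_eq_one_iff.mp e))
  · exact h.mem_Z.mpr (Or.inr (mul_left_cancel (mul_right_cancel (e.trans (h.z_conj_M0 hm).symm)))))

/-- The nontrivial elements of a point are the six conjugates `p^k d`, `z p^k d`. -/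
theorem pt_elements {S : Subgroup G} (hS : IsPt E P W z S) {d p : G} (hp : p ∈ P) (hp1 : p ≠ 1)
    (hd : d ∈ S) (hdz : d ∉ Subgroup.zpowers z) {x : G} (hx : x ∈ S) (hxz : x ∉ Subgroup.zpowers z) :
    ∃ k : ℕ, x = p ^ k * d * (p ^ k)⁻¹ ∨ x = z * (p ^ k * d * (p ^ k)⁻¹) := by
  classical
  have hp3 : p ^ 3 = 1 := orderOf_dvd_iff_pow_eq_one.mp (h.card_P ▸ Subgroup.orderOf_dvd_natCard _ hp)
  have hpz : ∀ k : ℕ, p ^ k * z * (p ^ k)⁻¹ = z := fun k =>
    h.z_conj_M0 (pow_mem (h.P_le_M0 hp) k)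
  let c : ℕ → G := fun k => p ^ k * d * (p ^ k)⁻¹
  have hcS : ∀ k, c k ∈ S := fun k => hS.1.inv _ (pow_mem hp k) d hd
  have hcz : ∀ k, c k ∉ Subgroup.zpowers z := fun k => h.conj_notMem_Z (pow_mem (h.P_le_M0 hp) k) hdz
  let F : Fin 3 × Bool → ↥((S : Set G) \ {1, z}) := fun t =>
    ⟨(bif t.2 then z else 1) * c t.1, S.mul_mem (by cases t.2; exacts [one_mem _, hS.1.z_mem]) (hcS _), by
      intro hh
      apply hcz t.1
      rcases t with ⟨i, b⟩
      rcases hh with e | e <;> cases b <;> simp only [cond_true, cond_false, one_mul] at e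
      · exact h.mem_Z.mpr (Or.inl e)
      · exact h.mem_Z.mpr (Or.inr ((eq_inv_of_mul_eq_one_right e).trans (inv_eq_of_mul_eq_one_right h.z_sq)))
      · exact h.mem_Z.mpr (Or.inr e)
      · exact h.mem_Z.mpr (Or.inl (mul_eq_left.mp e))⟩
  have key : ∀ k : ℕ, 0 < k → k < 3 → c k ≠ d ∧ c k ≠ z * d := by
    intro k hk0 hk3
    have hne : p ^ k ≠ 1 := by
      intro e
      have h1 : orderOf p ∣ k := orderOf_dvd_of_pow_eq_one e
      have h2 : orderOf p = 3 := by
        rcases (Nat.dvd_prime Nat.prime_three).mp (orderOf_dvd_of_pow_eq_one hp3) with o | o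
        · exact absurd (orderOf_eq_one_iff.mp o) hp1
        · exact o
      rw [h2] at h1
      have := Nat.le_of_dvd hk0 h1
      omega
    have hfix : c k ≠ d := fun e => hdz (h.fix_U (hS.1.le_U hd) (pow_mem hp k) hne (mul_inv_eq_iff_eq_mul.mp e))
    refine ⟨hfix, fun e => ?_⟩
    have e2 : c (k + k) = d := by
      show p ^ (k + k) * d * (p ^ (k + k))⁻¹ = d
      rw [pow_add, show p ^ k * p ^ k * d * (p ^ k * p ^ k)⁻¹ = p ^ k * c k * (p ^ k)⁻¹ by simp only [c]; group,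
        e, show p ^ k * (z * d) * (p ^ k)⁻¹ = (p ^ k * z * (p ^ k)⁻¹) * c k by simp only [c]; group,
        hpz, e, ← mul_assoc, h.z_sq, one_mul]
    have e3 : c (k + k + k) = d := by
      show p ^ (k + k + k) * d * (p ^ (k + k + k))⁻¹ = d
      rw [show k + k + k = 3 * k by ring, pow_mul, hp3]; simp
    have e4 : c (k + k + k) = z * d := by
      rw [← e]
      show p ^ (k + k + k) * d * (p ^ (k + k + k))⁻¹ = c k
      rw [show k + k + k = k + (k + k) by ring, pow_add,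
        show p ^ k * p ^ (k + k) * d * (p ^ k * p ^ (k + k))⁻¹ = p ^ k * c (k + k) * (p ^ k)⁻¹ by simp only [c]; group,
        e2]
    exact h.z_ne (mul_eq_right.mp (e4.symm.trans e3))
  have hcancel : ∀ i j : ℕ, i ≤ j → j < 3 → (c i = c j ∨ c i = z * c j) → i = j := by
    intro i j hij hj hh
    by_contra hne
    have hk := key (j - i) (by omega) (by omega)
    have hcj : c j = p ^ i * c (j - i) * (p ^ i)⁻¹ := by
      have : p ^ j = p ^ i * p ^ (j - i) := by rw [← pow_add]; congr 1; omega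
      simp only [c]; rw [this]; group
    rcases hh with e | e
    · apply hk.1
      rw [hcj] at e
      exact (mul_left_cancel (mul_right_cancel e)).symm
    · apply hk.2
      rw [hcj, ← hpz i, show p ^ i * z * (p ^ i)⁻¹ * (p ^ i * c (j - i) * (p ^ i)⁻¹) =
        p ^ i * (z * c (j - i)) * (p ^ i)⁻¹ by group] at e
      have e' : d = z * c (j - i) := mul_left_cancel (mul_right_cancel e)
      rw [e', ← mul_assoc, h.z_sq, one_mul]
  have hFinj : Function.Injective F := by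
    rintro ⟨i, b⟩ ⟨j, b'⟩ e
    have e' : (bif b then z else 1) * c i = (bif b' then z else 1) * c j := congrArg Subtype.val e
    have hrel : c i = c j ∨ c i = z * c j := by
      cases b <;> cases b' <;> simp only [cond_true, cond_false, one_mul] at e'
      · exact Or.inl e'
      · exact Or.inr e'
      · right; rw [← e', ← mul_assoc, h.z_sq, one_mul]
      · exact Or.inl (mul_left_cancel e')
    have hij : (i : ℕ) = j := by
      rcases le_total (i : ℕ) j with l | l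
      · exact hcancel i j l j.2 hrel
      · refine (hcancel j i l i.2 ?_).symm
        rcases hrel with r | r
        · exact Or.inl r.symm
        · right; rw [r, ← mul_assoc, h.z_sq, one_mul]
    obtain rfl := Fin.ext hij
    have : (bif b then z else 1) = (bif b' then z else 1) := mul_right_cancel e'
    cases b <;> cases b' <;> simp_all [h.z_ne, h.z_ne.symm]
  have hFs : Function.Surjective F := by
    refine ((Nat.bijective_iff_injective_and_card F).mpr ⟨hFinj, ?_⟩).2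
    rw [Nat.card_prod, Nat.card_fin, Nat.card_eq_fintype_card (α := Bool), Fintype.card_bool,
      Nat.card_coe_set_eq, Set.ncard_sdiff ?_ (Set.toFinite _), Set.ncard_pair h.z_ne.symm,
      ← Nat.card_coe_set_eq]
    · show 3 * 2 = Nat.card ↥S - 2
      rw [hS.2]
    · rintro a (rfl | rfl)
      · exact S.one_mem
      · exact hS.1.z_mem
  obtain ⟨⟨i, b⟩, hib⟩ := hFs ⟨x, hx, fun hh => hxz (h.mem_Z.mpr hh)⟩
  refine ⟨i, ?_⟩
  have e : (bif b then z else 1) * c i = x := congrArg Subtype.val hib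
  cases b
  · left; simpa using e.symm
  · right; exact e.symm

/-- `σ(x) = x · pxp⁻¹ · p²xp⁻²` lies in `⟨z⟩` for `x ∈ U`. -/
theorem sigma_conj {p x : G} (hp : p ∈ P) (hp1 : p ≠ 1) (hx : x ∈ U E W) :
    x * (p * x * p⁻¹) * (p * p * x * (p * p)⁻¹) ∈ Subgroup.zpowers z := by
  have hp3 : p ^ 3 = 1 := orderOf_dvd_iff_pow_eq_one.mp (h.card_P ▸ Subgroup.orderOf_dvd_natCard _ hp)
  have h1 := h.U_norm (h.P_le hp) hx
  have h2 := h.U_norm (h.P_le (mul_mem hp hp)) hx
  refine h.fix_U (mul_mem (mul_mem hx h1) h2) hp hp1 (mul_inv_eq_iff_eq_mul.mp ?_)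
  rw [show p * (x * (p * x * p⁻¹) * (p * p * x * (p * p)⁻¹)) * p⁻¹ =
    (p * x * p⁻¹) * (p * p * x * (p * p)⁻¹) * (p ^ 3 * x * (p ^ 3)⁻¹) by rw [pow_succ, pow_two]; group,
    hp3, inv_one, one_mul, mul_one, h.U_comm_U (mul_mem h1 h2) hx, mul_assoc x]

/-- Commutators of two elements of `W` that agree modulo `z` agree. -/
theorem cmm_agree (hE : IsExtraspecial 2 ↥E) {five : Set (Subgroup G)} (hF : FiveData E P W M0 z five)
    {a b f g : G} (ha : a ∈ W) (haz : a ∉ Subgroup.zpowers z) (hb : b ∈ W) (hbz : b ∉ Subgroup.zpowers z)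
    (hf : f ∈ E) (hg : g ∈ E) (he : cmm b g = cmm a f ∨ cmm b g = z * cmm a f) :
    cmm b g = cmm a f := by
  by_cases hsz : cmm a f ∈ Subgroup.zpowers z
  · have h1 : cmm a f = 1 := h.cmm_eq_one_iff.mpr (h.mem_Z_of_cmm ha hf hsz)
    rw [h1, mul_one] at he
    have h2 : cmm b g ∈ Subgroup.zpowers z := h.mem_Z.mpr he
    rw [h1, h.cmm_eq_one_iff.mpr (h.mem_Z_of_cmm hb hg h2)]
  set s := cmm a f with hs
  have hsU : s ∈ U E W := h.cmm_mem_U ha hf
  obtain ⟨S, hSB, hS8, hsS⟩ := h.exists_pt hsU hsz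
  have hS : IsPt E P W z S := ⟨hSB, hS8⟩
  have hSa : S ≤ Line E z a := h.pt_le hS (h.Line_between ha) hsS (h.cmm_mem_Line hf) hsz
  have hsb : s ∈ Line E z b := by
    rw [h.mem_Line hb]
    rcases he with e | e
    · exact ⟨g, hg, Or.inl e.symm⟩
    · exact ⟨g, hg, Or.inr (by rw [e, ← mul_assoc, h.z_sq, one_mul])⟩
  have hSb : S ≤ Line E z b := h.pt_le hS (h.Line_between hb) hsS hsb hsz
  obtain ⟨m, hm, hmS, hmL⟩ := hF.flags S S hS hS Iff.rfl a ha haz b hb hbz hSa hSb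
  have ha' : m * a * m⁻¹ ∈ W := h.M0_W m hm a ha
  have hcm : ∀ k ∈ E, cmm (m * a * m⁻¹) k = cmm b k := by
    intro k hk
    rcases h.mem_Z.mp (h.Line_inj hE ha' (h.conj_notMem_Z hm haz) hb hbz hmL) with e | e
    · rw [eq_inv_of_mul_eq_one_left e, inv_eq_of_mul_eq_one_right (h.W_sq b hb)]
    · have : m * a * m⁻¹ = z * b := by
        rw [← e, mul_assoc (m * a * m⁻¹), h.W_sq b hb, mul_one]
      rw [this, h.cmm_zmul hb hk]
  obtain ⟨p, hp, hp1⟩ := h.exists_gen
  have hp3 : p ^ 3 = 1 := orderOf_dvd_iff_pow_eq_one.mp (h.card_P ▸ Subgroup.orderOf_dvd_natCard _ hp)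
  have hms : m * s * m⁻¹ ∈ S := by
    have : m * s * m⁻¹ ∈ S.map (MulAut.conj m).toMonoidHom := ⟨s, hsS, rfl⟩
    rwa [hmS] at this
  have hmsz := h.conj_notMem_Z hm hsz
  obtain ⟨k, hk⟩ := h.pt_elements hS hp hp1 hsS hsz hms hmsz
  let σ : G → G := fun x => x * (p * x * p⁻¹) * (p * p * x * (p * p)⁻¹)
  have hσm : σ (m * s * m⁻¹) = σ s := by
    have e1 : m * p = p * m := h.M0_P m hm p hp
    have e1' : m * (p * p) = p * p * m := by rw [← mul_assoc, e1, mul_assoc, e1, ← mul_assoc]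
    show m * s * m⁻¹ * (p * (m * s * m⁻¹) * p⁻¹) * (p * p * (m * s * m⁻¹) * (p * p)⁻¹) = σ s
    rw [show p * (m * s * m⁻¹) * p⁻¹ = (p * m) * s * (p * m)⁻¹ by group, ← e1,
      show p * p * (m * s * m⁻¹) * (p * p)⁻¹ = (p * p * m) * s * (p * p * m)⁻¹ by group, ← e1',
      show m * s * m⁻¹ * (m * p * s * (m * p)⁻¹) * (m * (p * p) * s * (m * (p * p))⁻¹) =
        m * σ s * m⁻¹ by simp only [σ]; group]
    rcases h.mem_Z.mp (h.sigma_conj hp hp1 hsU) with e | e <;> rw [show σ s = _ from e]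
    · simp
    · exact h.z_conj_M0 hm
  have hσp : ∀ n : ℕ, σ (p ^ n * s * (p ^ n)⁻¹) = σ s := by
    intro n
    have e1 : p * p ^ n = p ^ n * p := (Commute.refl p).pow_right n
    show p ^ n * s * (p ^ n)⁻¹ * (p * (p ^ n * s * (p ^ n)⁻¹) * p⁻¹) *
      (p * p * (p ^ n * s * (p ^ n)⁻¹) * (p * p)⁻¹) = σ s
    rw [show p * (p ^ n * s * (p ^ n)⁻¹) * p⁻¹ = (p * p ^ n) * s * (p * p ^ n)⁻¹ by group, e1,
      show p * p * (p ^ n * s * (p ^ n)⁻¹) * (p * p)⁻¹ = (p * (p * p ^ n)) * s * (p * (p * p ^ n))⁻¹ by group,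
      e1, ← mul_assoc p, e1,
      show p ^ n * s * (p ^ n)⁻¹ * (p ^ n * p * s * (p ^ n * p)⁻¹) * (p ^ n * p * p * s * (p ^ n * p * p)⁻¹) =
        p ^ n * σ s * (p ^ n)⁻¹ by simp only [σ]; group]
    rcases h.mem_Z.mp (h.sigma_conj hp hp1 hsU) with e | e <;> rw [show σ s = _ from e]
    · simp
    · exact h.z_conj_M0 (pow_mem (h.P_le_M0 hp) n)
  have hmeq : m * s * m⁻¹ = p ^ k * s * (p ^ k)⁻¹ := by
    refine hk.resolve_right fun e => h.z_ne ?_
    have hkU : p ^ k * s * (p ^ k)⁻¹ ∈ U E W := h.U_norm (h.P_le (pow_mem hp k)) hsU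
    set y := p ^ k * s * (p ^ k)⁻¹
    have hy1 := h.U_norm (h.P_le hp) hkU
    have hy2 := h.U_norm (h.P_le (mul_mem hp hp)) hkU
    have hzy : σ (z * y) = z * σ y := by
      show z * y * (p * (z * y) * p⁻¹) * (p * p * (z * y) * (p * p)⁻¹) = z * σ y
      rw [show p * (z * y) * p⁻¹ = (p * z * p⁻¹) * (p * y * p⁻¹) by group, h.z_conj_M0 (h.P_le_M0 hp),
        show p * p * (z * y) * (p * p)⁻¹ = (p * p * z * (p * p)⁻¹) * (p * p * y * (p * p)⁻¹) by group,
        h.z_conj_M0 (h.P_le_M0 (mul_mem hp hp))]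
      calc z * y * (z * (p * y * p⁻¹)) * (z * (p * p * y * (p * p)⁻¹))
          = z * ((y * z) * (p * y * p⁻¹) * z) * (p * p * y * (p * p)⁻¹) := by group
        _ = z * (z * y * (p * y * p⁻¹) * z) * (p * p * y * (p * p)⁻¹) := by rw [h.z_comm_of_U hkU]
        _ = (z * z) * ((y * (p * y * p⁻¹)) * z) * (p * p * y * (p * p)⁻¹) := by group
        _ = z * (y * (p * y * p⁻¹)) * (p * p * y * (p * p)⁻¹) := by
          rw [h.z_sq, one_mul, h.z_comm_of_U (mul_mem hkU hy1)]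
        _ = z * σ y := by simp only [σ]; group
    rw [e, hzy] at hσm
    rw [show σ y = σ s from hσp k] at hσm
    exact mul_eq_right.mp hσm
  have hmsc : m * s * m⁻¹ = cmm b (m * f * m⁻¹) := by
    rw [← hcm _ (h.M0_E m hm f hf), hs]; simp only [cmm]; group
  have hsb' : s = cmm b ((p ^ k)⁻¹ * (m * f * m⁻¹) * p ^ k) := by
    have e : (p ^ k)⁻¹ * b * p ^ k = b := by
      have := h.conj_P_eq (inv_mem (pow_mem hp k)) hb
      rwa [inv_inv] at this
    calc s = (p ^ k)⁻¹ * (m * s * m⁻¹) * p ^ k := by rw [hmeq]; group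
      _ = cmm ((p ^ k)⁻¹ * b * p ^ k) ((p ^ k)⁻¹ * (m * f * m⁻¹) * p ^ k) := by
        rw [hmsc]; simp only [cmm]; group
      _ = _ := by rw [e]
  have hf'' : (p ^ k)⁻¹ * (m * f * m⁻¹) * p ^ k ∈ E := by
    have := h.M0_E _ (inv_mem (pow_mem (h.P_le_M0 hp) k)) _ (h.M0_E m hm f hf)
    simpa using this
  rw [hsb'] at he ⊢
  exact (h.cmm_eq_of_eq_mod hb hf'' hg he).1

/-- Elements of `U` of the same kind are conjugate. -/
theorem lconj_U {five : Set (Subgroup G)} (hF : FiveData E P W M0 z five) {S T : Subgroup G}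
    (hS : IsPt E P W z S) (hT : IsPt E P W z T) (hiff : S ∈ five ↔ T ∈ five) {d d' : G} (hd : d ∈ S)
    (hdz : d ∉ Subgroup.zpowers z) (hd' : d' ∈ T) (hd'z : d' ∉ Subgroup.zpowers z) :
    LConj E M0 d d' := by
  obtain ⟨m, hm, hmS⟩ := hF.trans S T hS hT hiff
  have hmd : m * d * m⁻¹ ∈ T := by rw [← hmS]; exact ⟨d, hd, rfl⟩
  refine (LConj.of_M0 hm rfl : LConj E M0 d (m * d * m⁻¹)).trans ?_
  obtain ⟨p, hp, hp1⟩ := h.exists_gen
  obtain ⟨k, hk⟩ := h.pt_elements hT hp hp1 hmd (h.conj_notMem_Z hm hdz) hd' hd'z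
  have h1 : LConj E M0 (m * d * m⁻¹) (p ^ k * (m * d * m⁻¹) * (p ^ k)⁻¹) :=
    LConj.of_M0 (pow_mem (h.P_le_M0 hp) k) rfl
  rcases hk with e | e
  · rw [e]; exact h1
  · rw [e]
    obtain ⟨f, hf, hfl⟩ := h.exists_flip (U_le (hT.1.le_U (hT.1.inv _ (pow_mem hp k) _ hmd)))
      (h.conj_notMem_Z (pow_mem (h.P_le_M0 hp) k) (h.conj_notMem_Z hm hdz))
    exact h1.trans (LConj.of_E hf hfl)

theorem conj_W_eq {f b : G} (hf : f ∈ E) (hb : b ∈ W) : f * b * f⁻¹ = cmm b f * b := by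
  rw [← h.U_inv' (h.cmm_mem_U hb hf)]
  simp only [cmm]; group

theorem exists_flip_comm (hE : IsExtraspecial 2 ↥E) {a u : G} (ha : a ∈ W)
    (haz : a ∉ Subgroup.zpowers z) (hu : u ∈ E) (hua : u ∉ Line E z a) :
    ∃ k ∈ E, a * k = k * a ∧ k * u * k⁻¹ = z * u := by
  by_contra hcon
  push Not at hcon
  apply hua
  have hC : Subgroup.zpowers z ≤ E ⊓ Subgroup.centralizer ({a} : Set G) := Subgroup.zpowers_le.mpr
    (Subgroup.mem_inf.mpr ⟨h.z_mem, Subgroup.mem_centralizer_iff.mpr (fun w hw => by rw [Set.mem_singleton_iff.mp hw]; exact h.W_z a ha)⟩)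
  have hcard := CfsgLib.ClassK.card_inf_centralizer_mul_card hE
    (D := E ⊓ Subgroup.centralizer ({a} : Set G)) (by rw [h.centre_E_eq hE]; exact hC) inf_le_left
  rw [h.main.1 a ha haz, h.card_E] at hcard
  have hle : Line E z a ≤ E ⊓ Subgroup.centralizer ((E ⊓ Subgroup.centralizer ({a} : Set G) : Subgroup G) : Set G) :=
    fun x hx => Subgroup.mem_inf.mpr ⟨U_le (h.Line_le_U ha hx), Subgroup.mem_centralizer_iff.mpr fun k hk =>
      h.comm_Line ha (Subgroup.mem_inf.mp hk).1 (Subgroup.mem_centralizer_iff.mp (Subgroup.mem_inf.mp hk).2 a rfl) x hx⟩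
  rw [Subgroup.eq_of_le_of_card_ge hle (by rw [h.card_Line ha haz]; omega)]
  refine Subgroup.mem_inf.mpr ⟨hu, Subgroup.mem_centralizer_iff.mpr fun k hk => ?_⟩
  obtain ⟨hkE, hka⟩ := Subgroup.mem_inf.mp hk
  rcases h.conj_E_eq hkE hu with e | e
  · exact mul_inv_eq_iff_eq_mul.mp e
  · exact absurd e (hcon k hkE (Subgroup.mem_centralizer_iff.mp hka a rfl))

theorem line_cosets {a u p : G} (ha : a ∈ W) (haz : a ∉ Subgroup.zpowers z) (hu : u ∈ U E W)
    (hua : u ∉ Line E z a) (hp : p ∈ P) (hp1 : p ≠ 1) {v : G} (hv : v ∈ U E W) :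
    v ∈ Line E z a ∨ ∃ k : ℕ, (p ^ k * u * (p ^ k)⁻¹)⁻¹ * v ∈ Line E z a := by
  classical
  set L := Line E z a with hL
  have hLU := h.Line_le_U ha
  have hLB := h.Line_between ha
  have hp3 : p ^ 3 = 1 := orderOf_dvd_iff_pow_eq_one.mp (h.card_P ▸ Subgroup.orderOf_dvd_natCard _ hp)
  haveI hn : (L.subgroupOf (U E W)).Normal := ⟨fun n hn g => by
    rw [Subgroup.mem_subgroupOf] at hn ⊢
    simp only [Subgroup.coe_mul, Subgroup.coe_inv]
    rw [h.U_comm_U g.2 n.2, mul_inv_cancel_right]; exact hn⟩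
  have hq : Nat.card (↥(U E W) ⧸ L.subgroupOf (U E W)) = 4 := by
    have := Subgroup.card_eq_card_quotient_mul_card_subgroup (L.subgroupOf (U E W))
    rw [h.card_U, Nat.card_congr (Subgroup.subgroupOfEquivOfLe hLU).toEquiv, h.card_Line ha haz] at this
    omega
  haveI := Fintype.ofFinite (↥(U E W) ⧸ L.subgroupOf (U E W))
  have hc : ∀ k : ℕ, p ^ k * u * (p ^ k)⁻¹ ∈ U E W := fun k => h.U_norm (h.P_le (pow_mem hp k)) hu
  let c : ℕ → (↥(U E W) ⧸ L.subgroupOf (U E W)) := fun k => QuotientGroup.mk ⟨_, hc k⟩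
  have hnL : ∀ k : ℕ, c k ≠ 1 := by
    intro k e
    rw [QuotientGroup.eq_one_iff, Subgroup.mem_subgroupOf] at e
    apply hua
    have := hLB.inv _ (inv_mem (pow_mem hp k)) _ e
    rw [inv_inv] at this
    rwa [show (p ^ k)⁻¹ * (p ^ k * u * (p ^ k)⁻¹) * p ^ k = u by group] at this
  have hne : ∀ k : ℕ, 0 < k → k < 3 → c k ≠ c 0 := by
    intro k hk0 hk3 e
    rw [QuotientGroup.eq, Subgroup.mem_subgroupOf] at e
    simp only [pow_zero, one_mul, inv_one, mul_one, Subgroup.coe_mul, Subgroup.coe_inv] at e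
    set S := L ⊔ Subgroup.zpowers u with hS
    have hq : ∀ x ∈ L, p ^ k * x * (p ^ k)⁻¹ ∈ S := fun x hx =>
      Subgroup.mem_sup_left (hLB.inv _ (pow_mem hp k) x hx)
    have hqu : p ^ k * u * (p ^ k)⁻¹ ∈ S := by
      have e2 := inv_mem e
      rw [mul_inv_rev, inv_inv] at e2
      have : p ^ k * u * (p ^ k)⁻¹ = u * (u⁻¹ * (p ^ k * u * (p ^ k)⁻¹)) := by group
      rw [this]
      exact mul_mem (Subgroup.mem_sup_right (Subgroup.mem_zpowers u)) (Subgroup.mem_sup_left e2)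
    have hPgen : Subgroup.zpowers (p ^ k) = P := by
      refine Subgroup.eq_of_le_of_card_ge (Subgroup.zpowers_le.mpr (pow_mem hp k)) ?_
      rw [h.card_P, Nat.card_zpowers]
      have ho : orderOf p = 3 := by
        rcases (Nat.dvd_prime Nat.prime_three).mp (orderOf_dvd_of_pow_eq_one hp3) with o | o
        · exact absurd (orderOf_eq_one_iff.mp o) hp1
        · exact o
      rw [orderOf_pow, ho]
      interval_cases k <;> norm_num
    have hgen : S ≤ S.comap (MulAut.conj (p ^ k)).toMonoidHom :=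
      sup_le hq (Subgroup.zpowers_le.mpr hqu)
    have hinv : ∀ q ∈ P, ∀ x ∈ S, q * x * q⁻¹ ∈ S := by
      intro q hq'
      rw [← hPgen] at hq'
      obtain ⟨j, hj⟩ := (mem_powers_iff_mem_zpowers.mpr hq' : q ∈ Submonoid.powers (p ^ k))
      subst hj
      clear hq'
      show ∀ x ∈ S, (p ^ k) ^ j * x * ((p ^ k) ^ j)⁻¹ ∈ S
      induction j with
      | zero => simp
      | succ j ih =>
        intro x hx
        rw [pow_succ' (p ^ k) j, show p ^ k * (p ^ k) ^ j * x * (p ^ k * (p ^ k) ^ j)⁻¹ =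
          p ^ k * ((p ^ k) ^ j * x * ((p ^ k) ^ j)⁻¹) * (p ^ k)⁻¹ by group]
        exact hgen (ih x hx)
    have hB : Between E P W z S :=
      ⟨Subgroup.mem_sup_left (h.z_mem_Line a), sup_le hLU (Subgroup.zpowers_le.mpr hu), hinv⟩
    have h1 := h.card_sup_mul hLU (Subgroup.zpowers_le.mpr hu)
    have h2 : Subgroup.zpowers u ⊓ L = ⊥ := by
      rw [eq_bot_iff]
      rintro x ⟨⟨j, rfl⟩, hx⟩
      rcases Int.even_or_odd j with ⟨i, rfl⟩ | ⟨i, rfl⟩
      · rw [Subgroup.mem_bot]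
        show u ^ (i + i) = 1
        rw [← two_mul, zpow_mul, zpow_two, h.U_sq hu, one_zpow]
      · exfalso
        apply hua
        have e3 : u ^ (2 * i + 1) = u := by
          rw [zpow_add, zpow_mul, zpow_two, h.U_sq hu, one_zpow, one_mul, zpow_one]
        exact e3 ▸ hx
    rw [← hS, inf_comm, h2, Subgroup.card_bot, mul_one, h.card_Line ha haz, Nat.card_zpowers] at h1
    have ho2 : orderOf u = 2 := orderOf_eq_prime (by rw [pow_two]; exact h.U_sq hu)
      (fun e1 => hua (e1 ▸ one_mem L))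
    rw [ho2] at h1
    rcases h.between_card hB with c' | c' | c' | c' <;> omega
  have hne' : ∀ i j : ℕ, i < j → j < 3 → c i ≠ c j := by
    intro i j hij hj e
    apply hne (j - i) (by omega) (by omega)
    rw [QuotientGroup.eq, Subgroup.mem_subgroupOf] at e ⊢
    simp only [pow_zero, one_mul, inv_one, mul_one, Subgroup.coe_mul, Subgroup.coe_inv] at e ⊢
    have h' := hLB.inv _ (inv_mem (pow_mem hp i)) _ (inv_mem e)
    have hji : p ^ j = p ^ i * p ^ (j - i) := by rw [← pow_add]; congr 1; omega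
    rw [hji] at h'
    convert h' using 1
    group
  have huniv : ({1, c 0, c 1, c 2} : Finset (↥(U E W) ⧸ L.subgroupOf (U E W))) = Finset.univ := by
    apply Finset.eq_univ_of_card
    rw [← Nat.card_eq_fintype_card, hq, Finset.card_insert_of_notMem, Finset.card_insert_of_notMem,
      Finset.card_pair]
    · exact hne' 1 2 (by norm_num) (by norm_num)
    · simp only [Finset.mem_insert, Finset.mem_singleton]
      exact fun hh => hh.elim (hne' 0 1 (by norm_num) (by norm_num)) (hne' 0 2 (by norm_num) (by norm_num))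
    · simp only [Finset.mem_insert, Finset.mem_singleton]
      rintro (e | e | e) <;> exact hnL _ e.symm
  have hmem : (QuotientGroup.mk ⟨v, hv⟩ : ↥(U E W) ⧸ L.subgroupOf (U E W)) ∈
      ({1, c 0, c 1, c 2} : Finset _) := huniv ▸ Finset.mem_univ _
  simp only [Finset.mem_insert, Finset.mem_singleton] at hmem
  have hfin : ∀ j : ℕ, (QuotientGroup.mk ⟨v, hv⟩ : ↥(U E W) ⧸ L.subgroupOf (U E W)) = c j →
      v ∈ L ∨ ∃ k : ℕ, (p ^ k * u * (p ^ k)⁻¹)⁻¹ * v ∈ L := fun j e =>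
    Or.inr ⟨j, by simpa using Subgroup.mem_subgroupOf.mp (QuotientGroup.eq.mp e.symm)⟩
  rcases hmem with e | e | e | e
  · exact Or.inl (Subgroup.mem_subgroupOf.mp ((QuotientGroup.eq_one_iff (N := L.subgroupOf (U E W)) _).mp e))
  all_goals exact hfin _ e

/-- The elements of `U a` outside `Line a · a` are conjugate. -/
theorem lconj_big (hE : IsExtraspecial 2 ↥E) {a u v : G} (ha : a ∈ W) (haz : a ∉ Subgroup.zpowers z)
    (hu : u ∈ U E W) (hua : u ∉ Line E z a) (hv : v ∈ U E W) (hva : v ∉ Line E z a) :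
    LConj E M0 (u * a) (v * a) := by
  obtain ⟨p, hp, hp1⟩ := h.exists_gen
  obtain ⟨k, hk⟩ := (h.line_cosets ha haz hu hua hp hp1 hv).resolve_left hva
  set w := p ^ k * u * (p ^ k)⁻¹ with hw
  have hpa : p ^ k * a * (p ^ k)⁻¹ = a := h.conj_P_eq (pow_mem hp k) ha
  have hwU : w ∈ U E W := h.U_norm (h.P_le (pow_mem hp k)) hu
  have h1 : LConj E M0 (u * a) (w * a) := LConj.of_M0 (pow_mem (h.P_le_M0 hp) k) (by
    rw [hw]; conv_rhs => rw [← hpa]
    group)
  refine h1.trans ?_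
  have hwa : w ∉ Line E z a := fun hx => by
    apply hua
    have := (h.Line_between ha).inv _ (inv_mem (pow_mem hp k)) _ hx
    rw [inv_inv, hw] at this
    rwa [show (p ^ k)⁻¹ * (p ^ k * u * (p ^ k)⁻¹) * p ^ k = u by group] at this
  obtain ⟨f, hf, e⟩ := (h.mem_Line ha).mp hk
  obtain ⟨t, ht, hta, htw⟩ := h.exists_flip_comm hE ha haz (U_le hwU) hwa
  have hgw : ∀ g ∈ E, g * (w * a) * g⁻¹ = (g * w * g⁻¹) * (cmm a g * a) := fun g hg => by
    rw [show g * (w * a) * g⁻¹ = (g * w * g⁻¹) * (g * a * g⁻¹) by group, h.conj_W_eq hg ha]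
  have hftc : cmm a (f * t) = cmm a f := by
    rw [h.cmm_mul ha, h.cmm_eq_one_iff.mpr hta]; group
  have hsame : ∀ g ∈ E, cmm a g = cmm a f → LConj E M0 (w * a) ((g * w * g⁻¹) * (cmm a f * a)) :=
    fun g hg hc => LConj.of_E hg (by rw [hgw g hg, hc])
  have hv' : v * a = w * (w⁻¹ * v) * a := by rw [mul_inv_cancel_left]
  rw [hv']
  rcases h.conj_E_eq hf (U_le hwU) with c | c
  · rcases e with e | e <;> rw [e]
    · have := hsame f hf rfl
      rw [c] at this
      rwa [mul_assoc w]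
    · have := hsame (f * t) (mul_mem hf ht) hftc
      rw [show f * t * w * (f * t)⁻¹ = f * (t * w * t⁻¹) * f⁻¹ by group, htw,
        show f * (z * w) * f⁻¹ = (f * z * f⁻¹) * (f * w * f⁻¹) by group, c,
        mul_inv_eq_iff_eq_mul.mpr (h.E_z hf), ← h.z_comm_of_U hwU] at this
      simpa [mul_assoc] using this
  · rcases e with e | e <;> rw [e]
    · have := hsame (f * t) (mul_mem hf ht) hftc
      rw [show f * t * w * (f * t)⁻¹ = f * (t * w * t⁻¹) * f⁻¹ by group, htw,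
        show f * (z * w) * f⁻¹ = (f * z * f⁻¹) * (f * w * f⁻¹) by group, c,
        mul_inv_eq_iff_eq_mul.mpr (h.E_z hf), ← mul_assoc z z, h.z_sq, one_mul] at this
      simpa [mul_assoc] using this
    · have := hsame f hf rfl
      rw [c, ← h.z_comm_of_U hwU] at this
      simpa [mul_assoc] using this

end HexTransitive

end CfsgLib.JFour
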