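import Cfsg.Agent.Lib.JFour.Kernels
import Cfsg.Agent.Lib.ClassK.Extraspecial

/-!
# Groups of Janko-four type: the fifteen commutator lines in `U`
-/

set_option autoImplicit false
set_option linter.unusedSectionVars false
set_option linter.style.haveILetI false

open Cfsg

namespace CfsgLib.JFour

variable {G : Type*} [Group G]

/-- The commutator of `b` and `f` in the order used for `[E, W]`. -/
def cmm (b f : G) : G := b * f * b⁻¹ * f⁻¹

/-- The commutator group of `b` with `E`, with `z` adjoined. -/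
def Line (E : Subgroup G) (z b : G) : Subgroup G :=
  Subgroup.closure (insert z {x | ∃ f ∈ E, x = cmm b f})

/-- A `P`-invariant subgroup between `⟨z⟩` and `U`. -/
structure Between (E P W : Subgroup G) (z : G) (S : Subgroup G) : Prop where
  z_mem : z ∈ S
  le_U : S ≤ HexFrame.U E W
  inv : ∀ p ∈ P, ∀ x ∈ S, p * x * p⁻¹ ∈ S

namespace HexTransitive

open HexFrame

variable [Finite G] {E R P W M0 : Subgroup G} {z : G} (h : HexTransitive E R P W M0 z)
include h

theorem z_comm_of_U {u : G} (hu : u ∈ U E W) : u * z = z * u := h.E_z (U_le hu)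

theorem notMem_Z {x : G} (hx : x ∉ Subgroup.zpowers z) : x ≠ 1 ∧ x ≠ z :=
  ⟨fun e => hx (h.mem_Z.mpr (Or.inl e)), fun e => hx (h.mem_Z.mpr (Or.inr e))⟩

theorem conj_E_eq {e x : G} (he : e ∈ E) (hx : x ∈ E) : e * x * e⁻¹ = x ∨ e * x * e⁻¹ = z * x := by
  rcases h.comm_E e he x hx with c | c <;> rw [commutatorElement_def] at c
  · exact Or.inl (mul_inv_eq_one.mp c)
  · exact Or.inr (mul_inv_eq_iff_eq_mul.mp c)

theorem U_inv' {u : G} (hu : u ∈ U E W) : u⁻¹ = u := inv_eq_of_mul_eq_one_right (h.U_sq hu)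

theorem exists_flip {d : G} (hd : d ∈ E) (hdz : d ∉ Subgroup.zpowers z) :
    ∃ f ∈ E, f * d * f⁻¹ = z * d := by
  by_contra hcon
  push Not at hcon
  apply hdz
  refine h.mem_Z.mpr (h.center_E d hd fun f hf => ?_)
  rcases h.conj_E_eq hf hd with c | c
  · exact (mul_inv_eq_iff_eq_mul.mp c).symm
  · exact absurd c (hcon f hf)

theorem cmm_mem_U {b f : G} (hb : b ∈ W) (hf : f ∈ E) : cmm b f ∈ U E W := h.comm_mem_U hb hf

theorem cmm_mul {b f g : G} (_hb : b ∈ W) : cmm b (f * g) = cmm b f * (f * cmm b g * f⁻¹) := by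
  simp only [cmm]; group

theorem cmm_zmul {b f : G} (hb : b ∈ W) (hf : f ∈ E) : cmm (z * b) f = cmm b f := by
  have hz : b * f * b⁻¹ * z = z * (b * f * b⁻¹) := h.E_z (h.W_norm b hb f hf)
  simp only [cmm]
  calc z * b * f * (z * b)⁻¹ * f⁻¹ = (z * (b * f * b⁻¹)) * z⁻¹ * f⁻¹ := by group
    _ = (b * f * b⁻¹ * z) * z⁻¹ * f⁻¹ := by rw [hz]
    _ = b * f * b⁻¹ * f⁻¹ := by group

theorem mem_Line {b : G} (hb : b ∈ W) {x : G} :
    x ∈ Line E z b ↔ ∃ f ∈ E, x = cmm b f ∨ x = z * cmm b f := by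
  constructor
  · intro hx
    refine Subgroup.closure_induction ?_ ?_ ?_ ?_ hx
    · rintro y (rfl | ⟨f, hf, rfl⟩)
      · exact ⟨1, one_mem _, Or.inr (by simp [cmm])⟩
      · exact ⟨f, hf, Or.inl rfl⟩
    · exact ⟨1, one_mem _, Or.inl (by simp [cmm])⟩
    · rintro x y - - ⟨f, hf, hx⟩ ⟨g, hg, hy⟩
      refine ⟨f * g, mul_mem hf hg, ?_⟩
      have hgU := h.cmm_mem_U hb hg
      have hfU := h.cmm_mem_U hb hf
      have hzf : cmm b f * z = z * cmm b f := h.z_comm_of_U hfU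
      have hm := h.cmm_mul (f := f) (g := g) hb
      have hz2 : z * z = 1 := h.z_sq
      rcases h.conj_E_eq hf (U_le hgU) with e | e <;> rw [e] at hm
      · rcases hx with rfl | rfl <;> rcases hy with rfl | rfl
        · exact Or.inl hm.symm
        · exact Or.inr (by rw [hm, ← mul_assoc, hzf, mul_assoc])
        · exact Or.inr (by rw [hm, mul_assoc])
        · refine Or.inl ?_
          rw [hm, mul_assoc, ← mul_assoc (cmm b f), hzf, ← mul_assoc, ← mul_assoc, hz2, one_mul]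
      · rw [← mul_assoc, hzf, mul_assoc] at hm
        rcases hx with rfl | rfl <;> rcases hy with rfl | rfl
        · exact Or.inr (by rw [hm, ← mul_assoc z z, hz2, one_mul])
        · exact Or.inl (by rw [hm, ← mul_assoc (cmm b f), hzf, mul_assoc])
        · exact Or.inl (by rw [hm, mul_assoc])
        · refine Or.inr ?_
          rw [hm, mul_assoc z (cmm b f), ← mul_assoc (cmm b f) z, hzf, mul_assoc z]
    · rintro x - ⟨f, hf, hx⟩
      refine ⟨f, hf, ?_⟩
      have hU : ∀ y ∈ U E W, y⁻¹ = y := fun y hy => h.U_inv' hy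
      rcases hx with rfl | rfl
      · exact Or.inl (hU _ (h.cmm_mem_U hb hf))
      · exact Or.inr (hU _ (mul_mem h.z_U (h.cmm_mem_U hb hf)))
  · rintro ⟨f, hf, rfl | rfl⟩
    · exact Subgroup.subset_closure (Or.inr ⟨f, hf, rfl⟩)
    · exact mul_mem (Subgroup.subset_closure (Or.inl rfl)) (Subgroup.subset_closure (Or.inr ⟨f, hf, rfl⟩))

theorem cmm_mem_Line {b f : G} (hf : f ∈ E) : cmm b f ∈ Line E z b :=
  Subgroup.subset_closure (Or.inr ⟨f, hf, rfl⟩)

theorem z_mem_Line (b : G) : z ∈ Line E z b := Subgroup.subset_closure (Or.inl rfl)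

theorem Line_le_U {b : G} (hb : b ∈ W) : Line E z b ≤ U E W :=
  (Subgroup.closure_le _).mpr fun _ hx => hx.elim (fun e => e ▸ h.z_U)
    (fun ⟨_, hf, e⟩ => e ▸ h.cmm_mem_U hb hf)

theorem mem_Z_of_cmm {b f : G} (hb : b ∈ W) (hf : f ∈ E) (hc : cmm b f ∈ Subgroup.zpowers z) :
    b * f = f * b := h.mem_Cb (e := ⟨f, hf⟩) hb hc

theorem cmm_eq_one_iff {b f : G} : cmm b f = 1 ↔ b * f = f * b := by
  simp only [cmm]
  rw [mul_inv_eq_one, mul_inv_eq_iff_eq_mul]

/-- Commutators equal modulo `z` are equal. -/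
theorem cmm_eq_of_eq_mod {b f g : G} (hb : b ∈ W) (hf : f ∈ E) (hg : g ∈ E)
    (he : cmm b g = cmm b f ∨ cmm b g = z * cmm b f) : cmm b g = cmm b f ∧ b * (f⁻¹ * g) = f⁻¹ * g * b := by
  have hh : f⁻¹ * g ∈ E := mul_mem (inv_mem hf) hg
  have hm := h.cmm_mul (f := f) (g := f⁻¹ * g) hb
  rw [mul_inv_cancel_left] at hm
  have hc : cmm b (f⁻¹ * g) ∈ Subgroup.zpowers z := by
    have e : cmm b (f⁻¹ * g) = f⁻¹ * ((cmm b f)⁻¹ * cmm b g) * f := by rw [hm]; group
    rcases he with e1 | e1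
    · rw [e, e1]; simp
    · rw [e, e1, ← mul_assoc (cmm b f)⁻¹, h.U_inv' (h.cmm_mem_U hb hf),
        h.z_comm_of_U (h.cmm_mem_U hb hf), mul_assoc z, h.U_sq (h.cmm_mem_U hb hf), mul_one,
        mul_assoc, ← h.E_z hf, inv_mul_cancel_left]
      exact Subgroup.mem_zpowers z
  have hcomm := h.mem_Z_of_cmm hb hh hc
  refine ⟨?_, hcomm⟩
  rw [hm, h.cmm_eq_one_iff.mpr hcomm]
  group

theorem comm_Line {b f : G} (hb : b ∈ W) (hf : f ∈ E) (hc : b * f = f * b) :
    ∀ x ∈ Line E z b, f * x = x * f := by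
  intro x hx
  obtain ⟨g, hg, e⟩ := (h.mem_Line hb).mp hx
  have h1 : f * cmm b g * f⁻¹ = cmm b g := by
    have hb' : f * b * f⁻¹ = b := mul_inv_eq_iff_eq_mul.mpr hc.symm
    have : f * cmm b g * f⁻¹ = cmm (f * b * f⁻¹) (f * g * f⁻¹) := by simp only [cmm]; group
    rw [this, hb']
    rcases h.conj_E_eq hf hg with c | c <;> rw [c]
    have hm := h.cmm_mul (f := z) (g := g) hb
    rw [hm, h.cmm_eq_one_iff.mpr (h.W_z b hb), one_mul, ← h.E_z (U_le (h.cmm_mem_U hb hg))]
    group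
  have h2 := mul_inv_eq_iff_eq_mul.mp h1
  rcases e with rfl | rfl
  · exact h2
  · rw [← mul_assoc, h.E_z hf, mul_assoc, h2, mul_assoc]

theorem card_Line {b : G} (hb : b ∈ W) (hbz : b ∉ Subgroup.zpowers z) :
    Nat.card ↥(Line E z b) = 32 := by
  classical
  set C := (E ⊓ Subgroup.centralizer ({b} : Set G)).subgroupOf E with hC
  have hCc : Nat.card ↥C = 2 ^ 9 := by
    rw [hC, Nat.card_congr (Subgroup.subgroupOfEquivOfLe inf_le_left).toEquiv, h.main.1 b hb hbz]
  have hmemC : ∀ e : ↥E, e ∈ C ↔ b * (e : G) = e * b := by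
    intro e
    rw [hC, Subgroup.mem_subgroupOf, Subgroup.mem_inf, Subgroup.mem_centralizer_iff]
    exact ⟨fun hh => hh.2 b rfl, fun hh => ⟨e.2, by rintro _ rfl; exact hh⟩⟩
  let F : (↥E ⧸ C) × Bool → ↥(Line E z b) := fun p =>
    ⟨(bif p.2 then z else 1) * cmm b (p.1.out : G), mul_mem (by cases p.2; exacts [one_mem _, h.z_mem_Line b])
      (h.cmm_mem_Line p.1.out.2)⟩
  have hF : Function.Bijective F := by
    constructor
    · rintro ⟨q, s⟩ ⟨r, t⟩ e
      have e' : (bif s then z else 1) * cmm b (q.out : G) = (bif t then z else 1) * cmm b (r.out : G) :=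
        congrArg Subtype.val e
      have hmod : cmm b (r.out : G) = cmm b (q.out : G) ∨ cmm b (r.out : G) = z * cmm b (q.out : G) := by
        cases s <;> cases t <;> simp only [cond_true, cond_false, one_mul] at e'
        · exact Or.inl e'.symm
        · right; rw [e', ← mul_assoc, h.z_sq, one_mul]
        · exact Or.inr e'.symm
        · exact Or.inl (mul_left_cancel e').symm
      obtain ⟨hh, hcm⟩ := h.cmm_eq_of_eq_mod hb q.out.2 r.out.2 hmod
      have hqr : q = r := by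
        rw [← QuotientGroup.out_eq' q, ← QuotientGroup.out_eq' r, QuotientGroup.eq, hmemC]
        simpa using hcm
      subst hqr
      have hst : (bif s then z else 1) = (bif t then z else 1) := mul_right_cancel e'
      cases s <;> cases t <;> simp_all [h.z_ne, h.z_ne.symm]
    · rintro ⟨x, hx⟩
      obtain ⟨f, hf, e⟩ := (h.mem_Line hb).mp hx
      have hsame : cmm b ((QuotientGroup.mk ⟨f, hf⟩ : ↥E ⧸ C).out : G) = cmm b f := by
        obtain ⟨c, hc⟩ := QuotientGroup.mk_out_eq_mul C (⟨f, hf⟩ : ↥E)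
        rw [hc, Subgroup.coe_mul]
        have := h.cmm_mul (f := f) (g := ((c : ↥E) : G)) hb
        rw [this, h.cmm_eq_one_iff.mpr ((hmemC c).mp c.2)]
        group
      rcases e with rfl | rfl
      · exact ⟨(QuotientGroup.mk ⟨f, hf⟩, false), Subtype.ext (by simp [F, hsame])⟩
      · exact ⟨(QuotientGroup.mk ⟨f, hf⟩, true), Subtype.ext (by simp [F, hsame])⟩
  rw [← Nat.card_congr (Equiv.ofBijective F hF), Nat.card_prod, Nat.card_eq_fintype_card (α := Bool),
    Fintype.card_bool]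
  have := Subgroup.card_eq_card_quotient_mul_card_subgroup C
  rw [hCc, h.card_E] at this
  omega

theorem centre_E_eq (hE : IsExtraspecial 2 ↥E) :
    (Subgroup.center ↥E).map E.subtype = Subgroup.zpowers z := by
  refine le_antisymm ?_ (Subgroup.zpowers_le.mpr ?_)
  · rintro _ ⟨c, hc, rfl⟩
    exact h.mem_Z.mpr (h.center_E c c.2 fun b hb =>
      (congrArg Subtype.val (Subgroup.mem_center_iff.mp hc ⟨b, hb⟩)).symm)
  · exact ⟨⟨z, h.z_mem⟩, Subgroup.mem_center_iff.mpr fun g => Subtype.ext (h.E_z g.2), rfl⟩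

theorem centralizer_Line (hE : IsExtraspecial 2 ↥E) {b : G} (hb : b ∈ W)
    (hbz : b ∉ Subgroup.zpowers z) :
    E ⊓ Subgroup.centralizer (Line E z b : Set G) = E ⊓ Subgroup.centralizer ({b} : Set G) := by
  refine (Subgroup.eq_of_le_of_card_ge ?_ ?_).symm
  · intro f hf
    obtain ⟨hfE, hfb⟩ := Subgroup.mem_inf.mp hf
    exact Subgroup.mem_inf.mpr ⟨hfE, Subgroup.mem_centralizer_iff.mpr fun x hx =>
      (h.comm_Line hb hfE (Subgroup.mem_centralizer_iff.mp hfb b rfl) x hx).symm⟩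
  · have h1 := CfsgLib.ClassK.card_inf_centralizer_mul_card hE (D := Line E z b)
      (by rw [h.centre_E_eq hE, Subgroup.zpowers_le]; exact h.z_mem_Line b)
      ((h.Line_le_U hb).trans U_le)
    rw [h.card_Line hb hbz, h.card_E] at h1
    rw [h.main.1 b hb hbz]
    omega

/-- Distinct cosets of `⟨z⟩` in `W` give distinct lines. -/
theorem Line_inj (hE : IsExtraspecial 2 ↥E) {a b : G} (ha : a ∈ W) (haz : a ∉ Subgroup.zpowers z)
    (hb : b ∈ W) (hbz : b ∉ Subgroup.zpowers z) (e : Line E z a = Line E z b) :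
    a * b ∈ Subgroup.zpowers z := by
  by_contra hab
  have hc := h.centralizer_Line hE ha haz
  rw [e, h.centralizer_Line hE hb hbz] at hc
  have hle : E ⊓ Subgroup.centralizer ({a} : Set G) ≤ U E W := by
    intro f hf
    obtain ⟨hfE, hfa⟩ := Subgroup.mem_inf.mp hf
    have hf' : f ∈ E ⊓ Subgroup.centralizer ({b} : Set G) := hc.symm ▸ hf
    exact h.main.2 a ha b hb haz hbz hab f hfE (Subgroup.mem_centralizer_iff.mp hfa a rfl)
      (Subgroup.mem_centralizer_iff.mp (Subgroup.mem_inf.mp hf').2 b rfl)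
  have := Subgroup.card_le_of_le hle
  rw [h.main.1 a ha haz, h.card_U] at this
  norm_num at this

theorem Line_zmul {b : G} (hb : b ∈ W) : Line E z (z * b) = Line E z b := by
  ext x
  rw [h.mem_Line (mul_mem h.z_W hb), h.mem_Line hb]
  constructor <;> rintro ⟨f, hf, e⟩ <;> refine ⟨f, hf, ?_⟩
  · rwa [h.cmm_zmul hb hf] at e
  · rwa [h.cmm_zmul hb hf]

theorem Line_conj {m b x : G} (hm : m ∈ M0) (hx : x ∈ Line E z b) :
    m * x * m⁻¹ ∈ Line E z (m * b * m⁻¹) := by
  have hle : Line E z b ≤ (Line E z (m * b * m⁻¹)).comap (MulAut.conj m).toMonoidHom := by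
    refine (Subgroup.closure_le _).mpr ?_
    rintro y (rfl | ⟨f, hf, rfl⟩)
    · simp only [SetLike.mem_coe, Subgroup.mem_comap, MulEquiv.coe_toMonoidHom, MulAut.conj_apply]
      rw [mul_inv_eq_iff_eq_mul.mpr (h.M0_z m hm)]
      exact h.z_mem_Line _
    · simp only [SetLike.mem_coe, Subgroup.mem_comap, MulEquiv.coe_toMonoidHom, MulAut.conj_apply]
      have : m * cmm b f * m⁻¹ = cmm (m * b * m⁻¹) (m * f * m⁻¹) := by simp only [cmm]; group
      rw [this]
      exact h.cmm_mem_Line (h.M0_E m hm f hf)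
  exact hle hx

theorem P_le_M0 : P ≤ M0 := h.P_le.trans h.R_M0

theorem conj_P_eq {p b : G} (hp : p ∈ P) (hb : b ∈ W) : p * b * p⁻¹ = b := by
  rw [← h.W_P b hb p hp]; group

theorem Line_between {b : G} (hb : b ∈ W) : Between E P W z (Line E z b) :=
  ⟨h.z_mem_Line b, h.Line_le_U hb, fun p hp x hx => by
    have := h.Line_conj (h.P_le_M0 hp) hx
    rwa [h.conj_P_eq hp hb] at this⟩

theorem fix_U {d : G} (hd : d ∈ U E W) {p : G} (hp : p ∈ P) (hp1 : p ≠ 1) (hc : p * d = d * p) :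
    d ∈ Subgroup.zpowers z := by
  refine h.mem_Z.mpr (h.fix d (U_le hd) fun q hq => ?_)
  have hP : Subgroup.zpowers p = P := by
    refine Subgroup.eq_of_le_of_card_ge (Subgroup.zpowers_le.mpr hp) ?_
    have hd' := Subgroup.orderOf_dvd_natCard _ hp
    rw [h.card_P] at hd'
    rcases (Nat.dvd_prime Nat.prime_three).mp hd' with e | e
    · exact absurd (orderOf_eq_one_iff.mp e) hp1
    · rw [h.card_P, Nat.card_zpowers, e]
  rw [← hP] at hq
  obtain ⟨k, rfl⟩ := hq
  exact (show Commute p d from hc).zpow_left k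

theorem between_card {S : Subgroup G} (hS : Between E P W z S) :
    Nat.card ↥S = 2 ∨ Nat.card ↥S = 8 ∨ Nat.card ↥S = 32 ∨ Nat.card ↥S = 128 := by
  classical
  haveI : Fact (Nat.Prime 3) := ⟨Nat.prime_three⟩
  letI : MulAction ↥P ↥S :=
    { smul := fun p x => ⟨(p : G) * x * (p : G)⁻¹, hS.inv p p.2 x x.2⟩
      one_smul := fun x => Subtype.ext (by show (1 : G) * x * (1 : G)⁻¹ = x; simp)
      mul_smul := fun p q x => Subtype.ext (by
        show ((p : G) * q) * x * ((p : G) * q)⁻¹ = p * (q * x * (q : G)⁻¹) * (p : G)⁻¹; group) }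
  have hmod := IsPGroup.card_modEq_card_fixedPoints (p := 3) (G := ↥P)
    (IsPGroup.of_card (n := 1) (by rw [h.card_P, pow_one])) ↥S
  have hfix : Nat.card (MulAction.fixedPoints ↥P ↥S) = 2 := by
    obtain ⟨p, hp, hp1⟩ := h.exists_gen
    have heq : MulAction.fixedPoints ↥P ↥S = {(1 : ↥S), ⟨z, hS.z_mem⟩} := by
      ext x
      constructor
      · intro hx
        have e : p * (x : G) * p⁻¹ = x := congrArg Subtype.val (hx ⟨p, hp⟩)
        rcases h.mem_Z.mp (h.fix_U (hS.le_U x.2) hp hp1 (mul_inv_eq_iff_eq_mul.mp e)) with e' | e'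
        · exact Or.inl (Subtype.ext e')
        · exact Or.inr (Subtype.ext e')
      · rintro (rfl | rfl) q
        · exact Subtype.ext (by show (q : G) * 1 * (q : G)⁻¹ = 1; simp)
        · exact Subtype.ext (mul_inv_eq_iff_eq_mul.mpr (h.R_z q (h.P_le q.2)))
    rw [heq, Nat.card_coe_set_eq, Set.ncard_pair]
    exact fun e => h.z_ne (congrArg Subtype.val e).symm
  rw [hfix] at hmod
  obtain ⟨k, hk, hSk⟩ := (Nat.dvd_prime_pow Nat.prime_two).mp
    (h.card_U ▸ Subgroup.card_dvd_of_le hS.le_U)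
  rw [hSk] at hmod ⊢
  unfold Nat.ModEq at hmod
  interval_cases k <;> simp_all

theorem between_inf {S T : Subgroup G} (hS : Between E P W z S) (hT : Between E P W z T) :
    Between E P W z (S ⊓ T) :=
  ⟨⟨hS.z_mem, hT.z_mem⟩, inf_le_left.trans hS.le_U,
    fun p hp x hx => ⟨hS.inv p hp x hx.1, hT.inv p hp x hx.2⟩⟩

theorem between_sup {S T : Subgroup G} (hS : Between E P W z S) (hT : Between E P W z T) :
    Between E P W z (S ⊔ T) := by
  refine ⟨Subgroup.mem_sup_left hS.z_mem, sup_le hS.le_U hT.le_U, fun p hp x hx => ?_⟩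
  have hle : S ⊔ T ≤ (S ⊔ T).comap (MulAut.conj p).toMonoidHom :=
    sup_le (fun y hy => Subgroup.mem_sup_left (hS.inv p hp y hy))
      (fun y hy => Subgroup.mem_sup_right (hT.inv p hp y hy))
  exact hle hx

theorem card_sup_mul {S T : Subgroup G} (hS : S ≤ U E W) (hT : T ≤ U E W) :
    Nat.card ↥(S ⊔ T) * Nat.card ↥(S ⊓ T) = Nat.card ↥S * Nat.card ↥T := by
  have hle : T ≤ Subgroup.normalizer (S : Set G) := fun t ht =>
    Subgroup.centralizer_le_normalizer _ (Subgroup.mem_centralizer_iff.mpr fun s hs => h.U_comm_U (hS hs) (hT ht))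
  have := CfsgLib.ThompsonJ.card_sup_mul_card_inf T S hle
  rw [sup_comm, inf_comm, mul_comm (Nat.card ↥T)] at this
  exact this

theorem meet {S T : Subgroup G} (hS : Between E P W z S) (hT : Between E P W z T)
    (hSc : Nat.card ↥S = 32) (hTc : Nat.card ↥T = 32) (hne : S ≠ T) :
    Nat.card ↥(S ⊓ T) = 8 := by
  have h1 := h.card_sup_mul hS.le_U hT.le_U
  have h2 : Nat.card ↥(S ⊔ T) ≤ 128 :=
    (Subgroup.card_le_of_le (sup_le hS.le_U hT.le_U)).trans_eq h.card_U
  rw [hSc, hTc] at h1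
  rcases h.between_card (h.between_inf hS hT) with c | c | c | c <;> rw [c] at h1
  · omega
  · exact c
  · exfalso
    have e1 : S ⊓ T = S := Subgroup.eq_of_le_of_card_ge inf_le_left (by rw [c, hSc])
    have e2 : S ⊓ T = T := Subgroup.eq_of_le_of_card_ge inf_le_right (by rw [c, hTc])
    exact hne (e1.symm.trans e2)
  · have := Subgroup.card_le_of_le (inf_le_left : S ⊓ T ≤ S)
    rw [c, hSc] at this
    omega

theorem pt_unique {S T : Subgroup G} (hS : Between E P W z S) (hT : Between E P W z T)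
    (hSc : Nat.card ↥S = 8) (hTc : Nat.card ↥T = 8) {d : G} (hdS : d ∈ S) (hdT : d ∈ T)
    (hdz : d ∉ Subgroup.zpowers z) : S = T := by
  have hc : Nat.card ↥(S ⊓ T) = 8 := by
    have hle := Subgroup.card_le_of_le (inf_le_left : S ⊓ T ≤ S)
    rw [hSc] at hle
    rcases h.between_card (h.between_inf hS hT) with c | c | c | c
    · exfalso
      have e : Subgroup.zpowers z = S ⊓ T := Subgroup.eq_of_le_of_card_ge
        (Subgroup.zpowers_le.mpr (Subgroup.mem_inf.mpr ⟨hS.z_mem, hT.z_mem⟩))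
        (by rw [c, Nat.card_zpowers, h.orderOf_z])
      exact hdz (e ▸ Subgroup.mem_inf.mpr ⟨hdS, hdT⟩)
    all_goals omega
  exact (Subgroup.eq_of_le_of_card_ge inf_le_left (by rw [hc, hSc]) : S ⊓ T = S).symm.trans
    (Subgroup.eq_of_le_of_card_ge inf_le_right (by rw [hc, hTc]))

theorem exists_pt {d : G} (hd : d ∈ U E W) (hdz : d ∉ Subgroup.zpowers z) :
    ∃ S, Between E P W z S ∧ Nat.card ↥S = 8 ∧ d ∈ S := by
  obtain ⟨p, hp, hp1⟩ := h.exists_gen
  have hp3 : p ^ 3 = 1 := orderOf_dvd_iff_pow_eq_one.mp (h.card_P ▸ Subgroup.orderOf_dvd_natCard _ hp)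
  set d₁ := p * d * p⁻¹ with hd₁
  set d₂ := p * d₁ * p⁻¹ with hd₂
  have hd1U : d₁ ∈ U E W := h.U_norm (h.P_le hp) hd
  have hd2U : d₂ ∈ U E W := h.U_norm (h.P_le hp) hd1U
  have hd3 : p * d₂ * p⁻¹ = d := by
    rw [hd₂, hd₁, show p * (p * (p * d * p⁻¹) * p⁻¹) * p⁻¹ = p ^ 3 * d * (p ^ 3)⁻¹ by
      rw [pow_succ, pow_two]; group, hp3]
    simp
  have hprod : d * d₁ * d₂ ∈ Subgroup.zpowers z := by
    refine h.fix_U (mul_mem (mul_mem hd hd1U) hd2U) hp hp1 ?_
    refine mul_inv_eq_iff_eq_mul.mp ?_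
    rw [show p * (d * d₁ * d₂) * p⁻¹ = (p * d * p⁻¹) * (p * d₁ * p⁻¹) * (p * d₂ * p⁻¹) by group,
      ← hd₁, ← hd₂, hd3, h.U_comm_U (mul_mem hd1U hd2U) hd, mul_assoc d d₁]
  set Z₁ := Subgroup.zpowers z ⊔ Subgroup.zpowers d with hZ₁
  set S := Z₁ ⊔ Subgroup.zpowers d₁ with hS
  have hZle : Subgroup.zpowers z ≤ U E W := Subgroup.zpowers_le.mpr h.z_U
  have hdle : Subgroup.zpowers d ≤ U E W := Subgroup.zpowers_le.mpr hd
  have hd1le : Subgroup.zpowers d₁ ≤ U E W := Subgroup.zpowers_le.mpr hd1U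
  have hZ1le : Z₁ ≤ U E W := sup_le hZle hdle
  have hzS : z ∈ S := Subgroup.mem_sup_left (Subgroup.mem_sup_left (Subgroup.mem_zpowers z))
  have hdS : d ∈ S := Subgroup.mem_sup_left (Subgroup.mem_sup_right (Subgroup.mem_zpowers d))
  have hd1S : d₁ ∈ S := Subgroup.mem_sup_right (Subgroup.mem_zpowers d₁)
  have hd2S : d₂ ∈ S := by
    have : d₂ = (d * d₁)⁻¹ * (d * d₁ * d₂) := by group
    rw [this]
    exact mul_mem (inv_mem (mul_mem hdS hd1S))
      ((Subgroup.zpowers_le.mpr hzS : Subgroup.zpowers z ≤ S) hprod)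
  have hgen : S ≤ S.comap (MulAut.conj p).toMonoidHom := by
    refine sup_le (sup_le ?_ ?_) ?_ <;> rw [Subgroup.zpowers_le] <;>
      simp only [Subgroup.mem_comap, MulEquiv.coe_toMonoidHom, MulAut.conj_apply]
    · rw [mul_inv_eq_iff_eq_mul.mpr (h.R_z p (h.P_le hp))]; exact hzS
    · exact hd1S
    · exact hd2S
  have hinv : ∀ q ∈ P, ∀ x ∈ S, q * x * q⁻¹ ∈ S := by
    intro q hq
    have hP : Subgroup.zpowers p = P := by
      refine Subgroup.eq_of_le_of_card_ge (Subgroup.zpowers_le.mpr hp) ?_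
      rw [h.card_P, Nat.card_zpowers]
      rcases (Nat.dvd_prime Nat.prime_three).mp (h.card_P ▸ Subgroup.orderOf_dvd_natCard _ hp) with e | e
      · exact absurd (orderOf_eq_one_iff.mp e) hp1
      · omega
    rw [← hP] at hq
    obtain ⟨k, hk⟩ := (mem_powers_iff_mem_zpowers.mpr hq : q ∈ Submonoid.powers p)
    subst hk
    clear hq
    show ∀ x ∈ S, p ^ k * x * (p ^ k)⁻¹ ∈ S
    induction k with
    | zero => simp
    | succ k ih =>
      intro x hx
      rw [pow_succ', show p * p ^ k * x * (p * p ^ k)⁻¹ = p * (p ^ k * x * (p ^ k)⁻¹) * p⁻¹ by group]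
      exact hgen (ih x hx)
  have hB : Between E P W z S := ⟨hzS, sup_le hZ1le hd1le, hinv⟩
  refine ⟨S, hB, ?_, hdS⟩
  have c1 := h.card_sup_mul hZle hdle
  have c2 := h.card_sup_mul hZ1le hd1le
  have o1 : ∀ u ∈ U E W, Nat.card ↥(Subgroup.zpowers u) ≤ 2 := fun u hu => by
    rw [Nat.card_zpowers]
    exact orderOf_le_of_pow_eq_one two_pos (by rw [pow_two]; exact h.U_sq hu)
  have p1 : 0 < Nat.card ↥(Subgroup.zpowers z ⊓ Subgroup.zpowers d) := Nat.card_pos
  have p2 : 0 < Nat.card ↥(Z₁ ⊓ Subgroup.zpowers d₁) := Nat.card_pos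
  rw [← hZ₁] at c1
  rw [← hS] at c2
  have hle1 : Nat.card ↥Z₁ ≤ 4 := by
    have := Nat.mul_le_mul (o1 z h.z_U) (o1 d hd)
    rw [← c1] at this
    calc Nat.card ↥Z₁ ≤ Nat.card ↥Z₁ * _ := Nat.le_mul_of_pos_right _ p1
      _ ≤ 4 := this
  have hle2 : Nat.card ↥S ≤ 8 := by
    have := Nat.mul_le_mul hle1 (o1 d₁ hd1U)
    rw [← c2] at this
    calc Nat.card ↥S ≤ Nat.card ↥S * _ := Nat.le_mul_of_pos_right _ p2
      _ ≤ 8 := this
  rcases h.between_card hB with c | c | c | c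
  · exfalso
    exact hdz (Subgroup.eq_of_le_of_card_ge (Subgroup.zpowers_le.mpr hzS)
      (by rw [c, Nat.card_zpowers, h.orderOf_z]) ▸ hdS)
  · exact c
  · omega
  · omega

end HexTransitive

end CfsgLib.JFour
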