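import Mathlib

/-!
Orbit arithmetic on a group of order `2^11`: a point stabilizer of order `138240` with point orbits
of sizes `1, 90, 36, 240, 240, 1440` only allows an orbit of length `1771`.
-/

set_option autoImplicit false
set_option linter.unusedSectionVars false
set_option linter.style.haveILetI false

namespace CfsgLib.JFour.OrbitArith

variable {W : Type*} [Group W] [Finite W]

/-- The primes that occur as orders of automorphisms divide some `2^k - 1`. -/
theorem dvd_mersenne (hW : Nat.card W = 2 ^ 11) {p : ℕ} [hp : Fact p.Prime] {g : MulAut W}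
    (hg : orderOf g = p) : ∃ k, 1 ≤ k ∧ k ≤ 11 ∧ p ∣ 2 ^ k * 2 ^ (11 - k) - 2 ^ (11 - k) := by
  classical
  haveI := Fintype.ofFinite W
  let F : Subgroup W :=
    { carrier := {w | g w = w}
      one_mem' := map_one g
      mul_mem' := fun {a b} (ha : g a = a) (hb : g b = b) => by
        show g (a * b) = a * b
        rw [map_mul, ha, hb]
      inv_mem' := fun {a} (ha : g a = a) => by
        show g a⁻¹ = a⁻¹
        rw [map_inv, ha] }
  obtain ⟨a, ha, hFc⟩ := (Nat.dvd_prime_pow Nat.prime_two).1 (hW ▸ F.card_subgroup_dvd_card)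
  have hlt : a ≠ 11 := by
    intro e
    have htop : F = ⊤ := Subgroup.eq_top_of_card_eq F (by rw [hFc, hW, e])
    have hg1 : g = 1 := by
      ext w
      exact (htop ▸ Subgroup.mem_top w : w ∈ F)
    rw [hg1, orderOf_one] at hg
    exact hp.out.ne_one hg.symm
  have hfix : Nat.card (MulAction.fixedPoints (Subgroup.zpowers g) W) = Nat.card F := by
    refine Nat.card_congr (Equiv.subtypeEquivRight fun w => ?_)
    constructor
    · intro h
      exact h ⟨g, Subgroup.mem_zpowers g⟩
    · intro h x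
      obtain ⟨x, hx⟩ := x
      have : g ∈ MulAction.stabilizer (MulAut W) w := h
      exact (Subgroup.zpowers_le.2 this) hx
  have hmod := IsPGroup.card_modEq_card_fixedPoints (G := Subgroup.zpowers g)
    (IsPGroup.of_card (p := p) (n := 1) (by rw [Nat.card_zpowers, hg, pow_one])) W
  rw [hfix, hFc, hW] at hmod
  refine ⟨11 - a, by omega, by omega, ?_⟩
  rw [show 11 - (11 - a) = a by omega, ← pow_add, show 11 - a + a = 11 by omega]
  exact (Nat.modEq_iff_dvd' (Nat.pow_le_pow_right (by norm_num) ha)).1 hmod.symm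

/-- A prime dividing the order of a group of automorphisms divides some `2^k - 1`, or is two. -/
theorem prime_cases (hW : Nat.card W = 2 ^ 11) (X : Subgroup (MulAut W)) {p : ℕ} (hp : p.Prime)
    (hd : p ∣ Nat.card X) : p = 2 ∨ ∃ k, 1 ≤ k ∧ k ≤ 11 ∧ p ∣ 2 ^ k - 1 := by
  haveI := Fact.mk hp
  obtain ⟨g, hg⟩ := exists_prime_orderOf_dvd_card' p hd
  obtain ⟨k, h1, h2, h⟩ := dvd_mersenne hW (p := p) (g := (g : MulAut W))
    (by rw [Subgroup.orderOf_coe, hg])
  rw [← Nat.sub_one_mul] at h
  rcases hp.dvd_mul.1 h with h | h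
  · exact Or.inr ⟨k, h1, h2, h⟩
  · exact Or.inl ((Nat.prime_dvd_prime_iff_eq hp Nat.prime_two).1 (hp.dvd_of_dvd_pow h))

/-- The sizes of the pieces. -/
def size : Fin 5 → ℕ := ![90, 36, 240, 240, 1440]

/-- The sums of pieces allowed by the primes of the automorphism group. -/
theorem sum_cases (J : Finset (Fin 5))
    (h : ∀ p ∈ [13, 37, 41, 47, 101, 113, 131, 211, 241, 277, 331, 367, 571, 103, 607, 1531,
      1567, 2011], ¬ p ∣ 1 + ∑ i ∈ J, size i) :
    J = ∅ ∨ J = {0, 1} ∨ J = Finset.univ ∨ J = {0, 2, 4} ∨ J = {0, 3, 4} := by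
  revert J
  decide +kernel

theorem bad_primes : ∀ p ∈ [13, 37, 41, 47, 101, 113, 131, 211, 241, 277, 331, 367, 571, 103, 607,
    1531, 1567, 2011], p ≠ 2 ∧ p.Prime ∧ ∀ k ∈ Finset.Icc 1 11, ¬ p ∣ 2 ^ k - 1 := by
  intro p hp
  simp only [List.mem_cons, List.mem_nil_iff, or_false] at hp
  rcases hp with h | h | h | h | h | h | h | h | h | h | h | h | h | h | h | h | h | h <;> subst h <;>
    exact ⟨by decide, by norm_num, by decide +kernel⟩

theorem sylow_count : ∀ n ∈ (23 * 138240).divisors, n % 89 = 1 → n ≤ 2760 := by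
  intro n hn h
  rw [Nat.mem_divisors] at hn
  by_contra hlt
  obtain ⟨q, hq⟩ := hn.1
  have hq2 : q < 23 * 138240 / 2760 + 1 := by
    have : 2761 * q ≤ 23 * 138240 := hq ▸ Nat.mul_le_mul_right q (by omega)
    omega
  have hall : ∀ q < 1153, q ∣ 23 * 138240 → 23 * 138240 / q % 89 = 1 →
      23 * 138240 / q ≤ 2760 := by decide +kernel
  have hq0 : 0 < q := by
    rcases Nat.eq_zero_or_pos q with e | e
    · rw [e, mul_zero] at hq; omega
    · exact e
  have hn' : 23 * 138240 / q = n := by rw [hq, Nat.mul_div_cancel _ hq0]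
  have := hall q (by omega) ⟨n, by rw [hq, mul_comm]⟩ (by rw [hn', h])
  omega

theorem sylow_count' : ∀ n ≤ 192, n ∣ 192 → n % 127 = 1 → n = 1 ∨ n = 128 := by decide +kernel

theorem pow_factorization_mul {p m : ℕ} (hp : p.Prime) (hm : ¬ p ∣ m) :
    p ^ (p * m).factorization p = p := by
  have hm0 : m ≠ 0 := fun e => hm (e ▸ dvd_zero p)
  rw [Nat.factorization_mul hp.ne_zero hm0, Finsupp.add_apply, hp.factorization_self,
    Nat.factorization_eq_zero_of_not_dvd hm, pow_one]

variable (X : Subgroup (MulAut W)) (z : W)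

/-- The stabilizer of `z` in `X`. -/
def stab : Subgroup X := (MulAction.stabilizer (MulAut W) z).subgroupOf X

theorem mem_stab {x : X} : x ∈ stab X z ↔ (x : MulAut W) z = z := Iff.rfl

/-- The orbit of `z`. -/
def orb : Set W := Set.range fun x : X => (x : MulAut W) z

theorem card_eq_orb_mul : Nat.card X = Nat.card (orb X z) * Nat.card (stab X z) := by
  rw [← Subgroup.index_mul_card (stab X z), Subgroup.index_eq_card]
  congr 1
  refine Nat.card_congr (Equiv.ofBijective
    (Quotient.lift (fun x : X => (⟨(x : MulAut W) z, x, rfl⟩ : orb X z)) ?_) ⟨?_, ?_⟩)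
  · intro a b hab
    have h := QuotientGroup.leftRel_apply.1 hab
    rw [mem_stab, Subgroup.coe_mul, MulAut.mul_apply, Subgroup.coe_inv] at h
    have h2 := congrArg (fun w => (a : MulAut W) w) h
    simp only [MulAut.apply_inv_self] at h2
    exact Subtype.ext h2.symm
  · intro a b
    refine Quotient.inductionOn₂ a b fun a b h => ?_
    refine Quotient.sound (QuotientGroup.leftRel_apply.2 ?_)
    have h' : (a : MulAut W) z = (b : MulAut W) z := congrArg Subtype.val h
    rw [mem_stab, Subgroup.coe_mul, MulAut.mul_apply, Subgroup.coe_inv, ← h',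
      MulAut.inv_apply_self]
  · rintro ⟨w, x, rfl⟩
    exact ⟨QuotientGroup.mk x, rfl⟩

variable {X z}

/-- The normalizer of a group of order `q` modulo its centralizer. -/
theorem card_normalizer_dvd {G : Type*} [Group G] [Finite G] (Q : Subgroup G) {q : ℕ}
    [hq : Fact q.Prime] (hQ : Nat.card Q = q) (H : Subgroup G)
    (hH : H ≤ Subgroup.normalizer (Q : Set G)) :
    Nat.card H ∣ (q - 1) * Nat.card ↥(H ⊓ Subgroup.centralizer (Q : Set G)) := by
  let φ := (Subgroup.normalizerMonoidHom Q).comp (Subgroup.inclusion hH)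
  have hker : φ.ker = (Subgroup.centralizer (Q : Set G)).subgroupOf H := by
    ext x
    rw [MonoidHom.mem_ker, MonoidHom.comp_apply, ← MonoidHom.mem_ker,
      Subgroup.normalizerMonoidHom_ker, Subgroup.mem_subgroupOf, Subgroup.coe_inclusion,
      Subgroup.mem_subgroupOf]
  haveI : IsCyclic Q := isCyclic_of_prime_card hQ
  have hAut : Nat.card (MulAut Q) = q - 1 := by
    rw [IsCyclic.card_mulAut, hQ, Nat.totient_prime hq.out]
  rw [← Subgroup.index_mul_card φ.ker, Subgroup.index_ker]
  refine Nat.mul_dvd_mul (hAut ▸ φ.range.card_subgroup_dvd_card) ?_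
  rw [hker, ← Subgroup.inf_subgroupOf_left,
    Nat.card_congr (Subgroup.subgroupOfEquivOfLe inf_le_left).toEquiv]

/-- No orbit of length `2047`. -/
theorem false_full (hW : Nat.card W = 2 ^ 11) (hS : Nat.card (stab X z) = 138240) (hz : z ≠ 1)
    (hO : Nat.card (orb X z) = 2047) : False := by
  classical
  haveI : Fact (Nat.Prime 89) := ⟨by norm_num⟩
  haveI := Fintype.ofFinite W
  have hX : Nat.card X = 2047 * 138240 := by rw [card_eq_orb_mul, hO, hS]
  obtain ⟨g, hg⟩ := exists_prime_orderOf_dvd_card' (G := X) 89 (by rw [hX]; norm_num)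
  set Q := Subgroup.zpowers g
  have hQ : Nat.card Q = 89 := by rw [Nat.card_zpowers, hg]
  -- `Q` is irreducible on `W`
  have hgen : ∀ U : Subgroup W, z ∈ U → (∀ u ∈ U, (g : MulAut W) u ∈ U) → U = ⊤ := by
    intro U hzU hgU
    obtain ⟨a, ha, hUc⟩ := (Nat.dvd_prime_pow Nat.prime_two).1 (hW ▸ U.card_subgroup_dvd_card)
    have hgU' : ∀ n : ℕ, ∀ u ∈ U, ((g : MulAut W) ^ n) u ∈ U := by
      intro n
      induction n with
      | zero => exact fun u hu => by simpa using hu
      | succ n ih => exact fun u hu => by rw [pow_succ, MulAut.mul_apply]; exact ih _ (hgU u hu)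
    have hinv : ∀ x : Subgroup.zpowers (g : MulAut W), ∀ u ∈ U, (x : MulAut W) u ∈ U := by
      intro x u hu
      obtain ⟨n, hn⟩ := (mem_powers_iff_mem_zpowers.2 x.2 : (x : MulAut W) ∈ Submonoid.powers _)
      rw [← hn]
      exact hgU' n u hu
    letI : MulAction (Subgroup.zpowers (g : MulAut W)) U :=
      { smul := fun x u => ⟨(x : MulAut W) u, hinv x u u.2⟩
        one_smul := fun u => Subtype.ext rfl
        mul_smul := fun x y u => Subtype.ext rfl }
    have hmod := IsPGroup.card_modEq_card_fixedPoints (p := 89) (G := Subgroup.zpowers (g : MulAut W))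
      (IsPGroup.of_card (n := 1) (by rw [Nat.card_zpowers, Subgroup.orderOf_coe, hg, pow_one])) U
    have hfix : Nat.card (MulAction.fixedPoints (Subgroup.zpowers (g : MulAut W)) U) = 1 := by
      rw [Nat.card_eq_one_iff_unique]
      refine ⟨⟨fun a b => ?_⟩, ⟨⟨1, fun x => Subtype.ext (map_one (x : MulAut W))⟩⟩⟩
      have key : ∀ a : MulAction.fixedPoints (Subgroup.zpowers (g : MulAut W)) U,
          ((a : U) : W) = 1 := by
        intro a
        by_contra hne
        let F : Subgroup W :=
          { carrier := {w | (g : MulAut W) w = w}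
            one_mem' := map_one _
            mul_mem' := fun {a b} (ha : (g : MulAut W) a = a) (hb : (g : MulAut W) b = b) => by
              show (g : MulAut W) (a * b) = a * b
              rw [map_mul, ha, hb]
            inv_mem' := fun {a} (ha : (g : MulAut W) a = a) => by
              show (g : MulAut W) a⁻¹ = a⁻¹
              rw [map_inv, ha] }
        obtain ⟨b, hb, hFc⟩ := (Nat.dvd_prime_pow Nat.prime_two).1 (hW ▸ F.card_subgroup_dvd_card)
        have hb0 : b ≠ 0 := fun e => hne (by
          rw [e, pow_zero, Subgroup.card_eq_one] at hFc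
          have : ((a : U) : W) ∈ F := congrArg Subtype.val (a.2 ⟨_, Subgroup.mem_zpowers _⟩)
          rwa [hFc, Subgroup.mem_bot] at this)
        have hfixF : Nat.card (MulAction.fixedPoints (Subgroup.zpowers (g : MulAut W)) W) =
            Nat.card F := by
          refine Nat.card_congr (Equiv.subtypeEquivRight fun w => ⟨fun h => ?_, fun h x => ?_⟩)
          · exact h ⟨_, Subgroup.mem_zpowers _⟩
          · exact (Subgroup.zpowers_le.2 (show (g : MulAut W) ∈ MulAction.stabilizer (MulAut W) w
              from h)) x.2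
        have hm := IsPGroup.card_modEq_card_fixedPoints (p := 89)
          (G := Subgroup.zpowers (g : MulAut W))
          (IsPGroup.of_card (n := 1) (by rw [Nat.card_zpowers, Subgroup.orderOf_coe, hg, pow_one])) W
        rw [hfixF, hFc, hW] at hm
        have hb11 : b = 11 := by
          unfold Nat.ModEq at hm
          interval_cases b <;> norm_num at hm <;> omega
        have hF : F = ⊤ := Subgroup.eq_top_of_card_eq F (by rw [hFc, hW, hb11])
        have hg1 : (g : MulAut W) = 1 := by
          ext w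
          exact (hF ▸ Subgroup.mem_top w : w ∈ F)
        have h1 : orderOf (g : MulAut W) = 89 := by rw [Subgroup.orderOf_coe, hg]
        rw [hg1, orderOf_one] at h1
        omega
      exact Subtype.ext (Subtype.ext ((key a).trans (key b).symm))
    rw [hfix, hUc] at hmod
    have ha0 : a ≠ 0 := fun e => hz (by
      rw [e, pow_zero, Subgroup.card_eq_one] at hUc
      rwa [hUc, Subgroup.mem_bot] at hzU)
    have ha11 : a = 11 := by
      unfold Nat.ModEq at hmod
      interval_cases a <;> norm_num at hmod <;> omega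
    exact Subgroup.eq_top_of_card_eq U (by rw [hUc, hW, ha11])
  -- the centralizer is semiregular
  have hCs : ∀ x ∈ Subgroup.centralizer (Q : Set X), (x : MulAut W) z = z → x = 1 := by
    intro x hx hxz
    have h := hgen
      { carrier := {w | (x : MulAut W) w = w}
        one_mem' := map_one _
        mul_mem' := fun {a b} (ha : (x : MulAut W) a = a) (hb : (x : MulAut W) b = b) => by
          show (x : MulAut W) (a * b) = a * b
          rw [map_mul, ha, hb]
        inv_mem' := fun {a} (ha : (x : MulAut W) a = a) => by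
          show (x : MulAut W) a⁻¹ = a⁻¹
          rw [map_inv, ha] } hxz
      (fun u (hu : (x : MulAut W) u = u) => by
        have e := congrArg Subtype.val (Subgroup.mem_centralizer_iff.1 hx g (Subgroup.mem_zpowers g))
        rw [Subgroup.coe_mul, Subgroup.coe_mul] at e
        show (x : MulAut W) ((g : MulAut W) u) = (g : MulAut W) u
        rw [← MulAut.mul_apply, ← e, MulAut.mul_apply, hu])
    refine Subtype.ext ?_
    ext w
    have hw : w ∈ (⊤ : Subgroup W) := Subgroup.mem_top w
    rw [← h] at hw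
    exact hw
  have hC : Nat.card (Subgroup.centralizer (Q : Set X)) ≤ 2047 := by
    refine le_trans (Nat.card_le_card_of_injective
      (fun x : Subgroup.centralizer (Q : Set X) => (⟨((x : X) : MulAut W) z, x, rfl⟩ : orb X z)) ?_)
      hO.le
    intro a b e
    have e' : ((a : X) : MulAut W) z = ((b : X) : MulAut W) z := congrArg Subtype.val e
    have h1 := hCs ((a : X)⁻¹ * b) (mul_mem (inv_mem a.2) b.2) (by
      rw [Subgroup.coe_mul, Subgroup.coe_inv, MulAut.mul_apply, ← e', MulAut.inv_apply_self])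
    exact Subtype.ext (inv_mul_eq_one.1 h1)
  -- count the Sylow subgroups
  set N := Subgroup.normalizer (Q : Set X)
  have hN := card_normalizer_dvd Q hQ N le_rfl
  have hCN : Nat.card ↥(N ⊓ Subgroup.centralizer (Q : Set X)) ≤ 2047 :=
    (Subgroup.card_le_of_le inf_le_right).trans hC
  have hNX : Nat.card N ∣ 2047 * 138240 := hX ▸ N.card_subgroup_dvd_card
  have hN8 : Nat.card N ∣ 8 * Nat.card ↥(N ⊓ Subgroup.centralizer (Q : Set X)) := by
    have hcop : Nat.Coprime (Nat.card N) 11 := Nat.Coprime.coprime_dvd_left hNX (by norm_num)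
    rw [show (89 - 1) = 11 * 8 by norm_num, mul_assoc] at hN
    exact hcop.dvd_of_dvd_mul_left hN
  have hNle : Nat.card N ≤ 16376 := (Nat.le_of_dvd (Nat.mul_pos (by norm_num) Nat.card_pos) hN8).trans (by omega)
  let P89 : Sylow 89 X := Sylow.ofCard Q (by
    rw [hQ, hX, show 2047 * 138240 = 89 * (23 * 138240) by norm_num, pow_factorization_mul (by norm_num) (by norm_num)])
  have hn := card_sylow_modEq_one 89 X
  have hidx : Nat.card (Sylow 89 X) * Nat.card N = 2047 * 138240 := by
    rw [P89.card_eq_index_normalizer, ← hX]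
    exact Subgroup.index_mul_card N
  have h89 : ¬ 89 ∣ Nat.card (Sylow 89 X) := not_dvd_card_sylow 89 X
  have hdiv : Nat.card (Sylow 89 X) ∣ 23 * 138240 := by
    have : Nat.card (Sylow 89 X) ∣ 89 * (23 * 138240) := ⟨Nat.card N, by rw [hidx]⟩
    exact ((by norm_num : Nat.Prime 89).coprime_iff_not_dvd.2 h89).symm
      |>.dvd_of_dvd_mul_left this
  have hle := sylow_count _ (Nat.mem_divisors.2 ⟨hdiv, by norm_num⟩) (by
    unfold Nat.ModEq at hn; simpa using hn)
  nlinarith [Nat.mul_le_mul hle hNle]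

/-- The permutations of the cosets of an invariant subgroup. -/
theorem exists_cosetHom (D : Subgroup W) (hD : ∀ x : X, ∀ w ∈ D, (x : MulAut W) w ∈ D) :
    ∃ φ : X →* Equiv.Perm (W ⧸ D), ∀ x : X,
      φ x = 1 ↔ ∀ w : W, w⁻¹ * (x : MulAut W) w ∈ D := by
  letI : MulAction X (W ⧸ D) :=
    { smul := fun x => Quotient.map' (fun w => (x : MulAut W) w) fun a b hab => by
        rw [QuotientGroup.leftRel_apply] at hab ⊢
        rw [← map_inv, ← map_mul]
        exact hD x _ hab
      one_smul := fun q => Quotient.inductionOn' q fun w => rfl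
      mul_smul := fun x y q => Quotient.inductionOn' q fun w => rfl }
  refine ⟨MulAction.toPermHom X (W ⧸ D), fun x => ⟨fun h w => ?_, fun h => ?_⟩⟩
  · exact QuotientGroup.eq.1 (congrFun (congrArg DFunLike.coe h) (QuotientGroup.mk w)).symm
  · refine Equiv.ext fun q => Quotient.inductionOn' q fun w => ?_
    exact (QuotientGroup.eq.2 (h w)).symm

/-- No orbit equal to the nontrivial elements of a subgroup of order `128`. -/
theorem false_sub (hW : Nat.card W = 2 ^ 11) (D : Subgroup W) (hD : Nat.card D = 2 ^ 7)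
    (hO : orb X z = (D : Set W) \ {1})
    (hS : Nat.card (stab X z) = 138240)
    (hK : Nat.card {x : X // x ∈ stab X z ∧ ∀ w : W, w⁻¹ * (x : MulAut W) w ∈ D} = 192)
    {w₀ : W} (hw₀ : w₀ ∈ orb X z)
    (h90 : Nat.card {w // ∃ x ∈ stab X z, (x : MulAut W) w₀ = w} = 90) : False := by
  classical
  haveI : Fact (Nat.Prime 127) := ⟨by norm_num⟩
  have hzO : z ∈ orb X z := ⟨1, rfl⟩
  have hDinv : ∀ x : X, ∀ w ∈ D, (x : MulAut W) w ∈ D := by
    intro x w hw
    by_cases h1 : w = 1
    · rw [h1, map_one]; exact one_mem _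
    obtain ⟨y, hy⟩ := (hO.ge ⟨hw, h1⟩ : w ∈ orb X z)
    exact (hO.le ⟨x * y, by rw [← hy]; rfl⟩ : (x : MulAut W) w ∈ (D : Set W) \ {1}).1
  obtain ⟨φ, hφ⟩ := exists_cosetHom D hDinv
  have hcardO : Nat.card (orb X z) = 127 := by
    rw [hO, Nat.card_coe_set_eq, Set.ncard_sdiff_singleton_of_mem (one_mem D),
      ← Nat.card_coe_set_eq]
    show Nat.card D - 1 = 127
    rw [hD]; norm_num
  have hX : Nat.card X = 127 * 138240 := by rw [card_eq_orb_mul, hcardO, hS]
  obtain ⟨g, hg⟩ := exists_prime_orderOf_dvd_card' (G := X) 127 (by rw [hX]; norm_num)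
  have hidx : Nat.card (W ⧸ D) = 16 := by
    have := Subgroup.card_eq_card_quotient_mul_card_subgroup D
    rw [hW, hD] at this
    omega
  have hgK : g ∈ φ.ker := by
    rw [MonoidHom.mem_ker, ← orderOf_eq_one_iff]
    have h1 : orderOf (φ g) ∣ 127 := hg ▸ orderOf_map_dvd φ g
    have h2 : orderOf (φ g) ∣ Nat.factorial 16 := by
      have := orderOf_dvd_natCard (φ g)
      rwa [Nat.card_perm, hidx] at this
    have h3 : Nat.Coprime (Nat.factorial 16) 127 := by decide +kernel
    exact Nat.eq_one_of_dvd_coprimes h3 h2 h1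
  set X0 := φ.ker
  have hX0K : Nat.card ↥(X0 ⊓ stab X z) = 192 := by
    rw [← hK]
    exact Nat.card_congr (Equiv.subtypeEquivRight fun x =>
      ⟨fun h => ⟨h.2, (hφ x).1 h.1⟩, fun h => ⟨(hφ x).2 h.2, h.1⟩⟩)
  have hz1 : (g : MulAut W) z ≠ z := fun e => by
    have := Subgroup.orderOf_dvd_natCard (stab X z) (show g ∈ stab X z from e)
    rw [hg, hS] at this
    norm_num at this
  have hX0 : Nat.card X0 = 127 * 192 := by
    have hle : (X0 ⊓ stab X z).subgroupOf X0 = (stab X z).subgroupOf X0 :=
      Subgroup.inf_subgroupOf_left _ _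
    have h1 : ((stab X z).subgroupOf X0).index ≤ 127 := by
      refine le_trans (Nat.card_le_card_of_injective
        (fun q : X0 ⧸ (stab X z).subgroupOf X0 => Quotient.liftOn' q
          (fun x : X0 => (⟨((x : X) : MulAut W) z, x, rfl⟩ : orb X z)) fun a b hab => ?_) ?_) hcardO.le
      · have h := QuotientGroup.leftRel_apply.1 hab
        rw [Subgroup.mem_subgroupOf, mem_stab, Subgroup.coe_mul, Subgroup.coe_mul,
          MulAut.mul_apply, Subgroup.coe_inv, Subgroup.coe_inv] at h
        have h2 := congrArg (fun w => ((a : X) : MulAut W) w) h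
        simp only [MulAut.apply_inv_self] at h2
        exact Subtype.ext h2.symm
      · intro a b
        refine Quotient.inductionOn₂' a b fun a b h => ?_
        refine Quotient.sound' (QuotientGroup.leftRel_apply.2 ?_)
        have h' : ((a : X) : MulAut W) z = ((b : X) : MulAut W) z := congrArg Subtype.val h
        rw [Subgroup.mem_subgroupOf, mem_stab, Subgroup.coe_mul, Subgroup.coe_mul,
          MulAut.mul_apply, Subgroup.coe_inv, Subgroup.coe_inv, ← h', MulAut.inv_apply_self]
    have h2 := Subgroup.index_mul_card ((stab X z).subgroupOf X0)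
    rw [← hle, Nat.card_congr (Subgroup.subgroupOfEquivOfLe inf_le_left).toEquiv, hX0K, hle] at h2
    have h3 : 127 ∣ Nat.card X0 := hg ▸ Subgroup.orderOf_dvd_natCard X0 hgK
    rw [← h2] at h3
    have h4 : 127 ∣ ((stab X z).subgroupOf X0).index :=
      (Nat.Coprime.dvd_of_dvd_mul_right (by norm_num) h3)
    have h5 : ((stab X z).subgroupOf X0).index ≠ 0 := Subgroup.index_ne_zero_of_finite
    obtain ⟨c, hc⟩ := h4
    rw [← h2]
    rcases c with _ | _ | c <;> omega
  -- a normal subgroup of order 127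
  let P127 : Sylow 127 X0 := Sylow.ofCard (Subgroup.zpowers (⟨g, hgK⟩ : X0)) (by
    rw [Nat.card_zpowers, Subgroup.orderOf_mk, hg, hX0,
      pow_factorization_mul (by norm_num) (by norm_num)])
  have hn := card_sylow_modEq_one 127 X0
  have hnd : Nat.card (Sylow 127 X0) ∣ 192 := by
    have h1 : Nat.card (Sylow 127 X0) ∣ 127 * 192 := by
      rw [← hX0, P127.card_eq_index_normalizer]
      exact Subgroup.index_dvd_card _
    exact ((by norm_num : Nat.Prime 127).coprime_iff_not_dvd.2
      (not_dvd_card_sylow 127 X0)).symm |>.dvd_of_dvd_mul_left h1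
  have hn1 : Nat.card (Sylow 127 X0) = 1 := by
    rcases sylow_count' _ (Nat.le_of_dvd (by norm_num) hnd) hnd (by
      unfold Nat.ModEq at hn; simpa using hn) with h | h
    · exact h
    · rw [h] at hnd; norm_num at hnd
  haveI : Subsingleton (Sylow 127 X0) := (Nat.card_eq_one_iff_unique.1 hn1).1
  haveI : (P127 : Subgroup X0).Normal := P127.normal_of_subsingleton
  haveI : (P127 : Subgroup X0).Characteristic := Sylow.characteristic_of_normal P127 inferInstance
  haveI hQn : ((P127 : Subgroup X0).map X0.subtype).Normal :=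
    ConjAct.normal_of_characteristic_of_normal
  set Q := (P127 : Subgroup X0).map X0.subtype
  have hQ : Nat.card Q = 127 := by
    rw [Subgroup.card_map_of_injective X0.subtype_injective]
    show Nat.card (Subgroup.zpowers (⟨g, hgK⟩ : X0)) = 127
    rw [Nat.card_zpowers, Subgroup.orderOf_mk, hg]
  have hgQ : g ∈ Q := ⟨⟨g, hgK⟩, Subgroup.mem_zpowers _, rfl⟩
  have hdvd := card_normalizer_dvd Q hQ (stab X z)
    (by rw [Subgroup.normalizer_eq_top]; exact le_top)
  -- the centralizer of `Q` in the stabilizer fixes the orbit pointwise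
  have hfix : stab X z ⊓ Subgroup.centralizer (Q : Set X) ≤ stab X z ⊓ stab X w₀ := by
    rintro x ⟨hx, hxc⟩
    refine ⟨hx, ?_⟩
    obtain ⟨n, hn⟩ : ∃ n : ℕ, ((g : MulAut W) ^ n) z = w₀ := by
      -- the orbit of `g` is everything
      have hinj : Function.Injective
          (fun i : Fin 127 => (⟨((g ^ (i : ℕ) : X) : MulAut W) z, g ^ (i : ℕ), rfl⟩ : orb X z)) := by
        intro i j e
        have e' : ((g ^ (i : ℕ) : X) : MulAut W) z = ((g ^ (j : ℕ) : X) : MulAut W) z :=
          congrArg Subtype.val e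
        have hm1 : (g ^ (j : ℕ))⁻¹ * g ^ (i : ℕ) ∈ stab X z := by
          rw [mem_stab, Subgroup.coe_mul, Subgroup.coe_inv, MulAut.mul_apply, e',
            MulAut.inv_apply_self]
        have hm2 : (g ^ (j : ℕ))⁻¹ * g ^ (i : ℕ) ∈ Subgroup.zpowers g :=
          mul_mem (inv_mem (Subgroup.npow_mem_zpowers _ _)) (Subgroup.npow_mem_zpowers _ _)
        have hmem : (g ^ (j : ℕ))⁻¹ * g ^ (i : ℕ) ∈ stab X z ⊓ Subgroup.zpowers g := ⟨hm1, hm2⟩
        have h1 : stab X z ⊓ Subgroup.zpowers g = ⊥ := by
          refine disjoint_iff.1 (Subgroup.disjoint_of_coprime_natCard ?_)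
          rw [hS, Nat.card_zpowers, hg]
          norm_num
        rw [h1, Subgroup.mem_bot, inv_mul_eq_one] at hmem
        exact Fin.ext (pow_injOn_Iio_orderOf (by rw [Set.mem_Iio, hg]; exact i.2)
          (by rw [Set.mem_Iio, hg]; exact j.2) hmem.symm)
      have hbij := (Nat.bijective_iff_injective_and_card _).2 ⟨hinj, by rw [Nat.card_fin, hcardO]⟩
      obtain ⟨i, hi⟩ := hbij.2 ⟨w₀, hw₀⟩
      exact ⟨i, congrArg Subtype.val hi⟩
    show (x : MulAut W) w₀ = w₀
    have hc : x * g ^ n = g ^ n * x :=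
      (Subgroup.mem_centralizer_iff.1 hxc (g ^ n) (pow_mem hgQ n)).symm
    have e := congrArg (fun y : X => (y : MulAut W) z) hc
    simp only [Subgroup.coe_mul, SubmonoidClass.coe_pow, MulAut.mul_apply] at e
    rw [hn, (mem_stab X z).1 hx, hn] at e
    exact e
  have hrel : ((stab X z ⊓ stab X w₀).subgroupOf (stab X z)).index = 90 := by
    rw [← h90, Subgroup.index_eq_card]
    refine Nat.card_congr (Equiv.ofBijective (fun q => Quotient.liftOn' q
      (fun x : stab X z => (⟨((x : X) : MulAut W) w₀, x, x.2, rfl⟩ :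
        {w // ∃ x ∈ stab X z, (x : MulAut W) w₀ = w})) fun a b hab => ?_) ⟨?_, ?_⟩)
    · have h : ((a⁻¹ * b : stab X z) : X) ∈ stab X w₀ :=
        (Subgroup.mem_subgroupOf.1 (QuotientGroup.leftRel_apply.1 hab)).2
      rw [mem_stab, Subgroup.coe_mul, Subgroup.coe_mul, MulAut.mul_apply, Subgroup.coe_inv,
        Subgroup.coe_inv] at h
      have h2 := congrArg (fun w => ((a : X) : MulAut W) w) h
      simp only [MulAut.apply_inv_self] at h2
      exact Subtype.ext h2.symm
    · intro a b
      refine Quotient.inductionOn₂' a b fun a b h => ?_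
      refine Quotient.sound' (QuotientGroup.leftRel_apply.2 ?_)
      have h' : ((a : X) : MulAut W) w₀ = ((b : X) : MulAut W) w₀ := congrArg Subtype.val h
      rw [Subgroup.mem_subgroupOf]
      suffices h2 : ((a⁻¹ * b : stab X z) : X) ∈ stab X w₀ from ⟨(a⁻¹ * b).2, h2⟩
      rw [mem_stab, Subgroup.coe_mul, Subgroup.coe_mul, MulAut.mul_apply, Subgroup.coe_inv,
        Subgroup.coe_inv, ← h', MulAut.inv_apply_self]
    · rintro ⟨w, x, hx, rfl⟩
      exact ⟨QuotientGroup.mk ⟨x, hx⟩, rfl⟩
  have h1 := Subgroup.index_mul_card ((stab X z ⊓ stab X w₀).subgroupOf (stab X z))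
  rw [hrel, Nat.card_congr (Subgroup.subgroupOfEquivOfLe inf_le_left).toEquiv] at h1
  obtain ⟨k, hk⟩ := Subgroup.card_dvd_of_le hfix
  have hpos : 0 < Nat.card ↥(stab X z ⊓ Subgroup.centralizer (Q : Set X)) := Nat.card_pos
  rw [← h1, hk, show (127 : ℕ) - 1 = 126 from rfl] at hdvd
  obtain ⟨c, hc⟩ := hdvd
  have h4 : 126 = 90 * k * c :=
    Nat.eq_of_mul_eq_mul_right hpos (by rw [hc]; ring)
  have : 90 ∣ 126 := ⟨k * c, by rw [h4]; ring⟩
  norm_num at this

/-- The orbit of `z` has length `1771`. -/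
theorem orbit_eq (hW : Nat.card W = 2 ^ 11) (X : Subgroup (MulAut W)) (z : W) (hz : z ≠ 1)
    (hS : Nat.card (stab X z) = 138240) (piece : Fin 5 → Set W)
    (hsize : ∀ i, Nat.card (piece i) = size i)
    (hdisj : ∀ i j, i ≠ j → Disjoint (piece i) (piece j))
    (hzp : ∀ i, z ∉ piece i) (h1p : ∀ i, (1 : W) ∉ piece i)
    (htrans : ∀ i, ∀ a ∈ piece i, piece i ⊆ {w | ∃ x ∈ stab X z, (x : MulAut W) a = w})
    (htrans₀ : ∀ a ∈ piece 0, ∀ x ∈ stab X z, (x : MulAut W) a ∈ piece 0)
    (hcover : ∀ w : W, w ≠ 1 → w ≠ z → ∃ i, w ∈ piece i)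
    (D : Subgroup W) (hD : (D : Set W) = {1, z} ∪ piece 0 ∪ piece 1)
    (hK : Nat.card {x : X // x ∈ stab X z ∧ ∀ w : W, w⁻¹ * (x : MulAut W) w ∈ D} = 192)
    (hmove : ∃ x ∈ X, x z ≠ z) :
    Nat.card (orb X z) = 1771 ∧
      (orb X z = insert z (piece 0 ∪ piece 2 ∪ piece 4) ∨
        orb X z = insert z (piece 0 ∪ piece 3 ∪ piece 4)) := by
  classical
  haveI := Fintype.ofFinite W
  have hO1 : (1 : W) ∉ orb X z := by
    rintro ⟨x, hx⟩
    exact hz ((x : MulAut W).injective (hx.trans (map_one (x : MulAut W)).symm))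
  set J : Finset (Fin 5) := Finset.univ.filter fun i => (piece i ∩ orb X z).Nonempty with hJ
  have hsub : ∀ i ∈ J, piece i ⊆ orb X z := by
    intro i hi w hw
    obtain ⟨a, ha, y, hy⟩ := (Finset.mem_filter.1 hi).2
    obtain ⟨x, -, rfl⟩ := htrans i a ha hw
    exact ⟨x * y, by rw [← hy]; rfl⟩
  have hdec : orb X z = insert z (⋃ i ∈ J, piece i) := by
    refine Set.Subset.antisymm (fun w hw => ?_) ?_
    · by_cases h : w = z
      · exact Or.inl h
      obtain ⟨i, hi⟩ := hcover w (fun e => hO1 (e ▸ hw)) h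
      exact Or.inr (Set.mem_iUnion₂.2 ⟨i, Finset.mem_filter.2 ⟨Finset.mem_univ _, w, hi, hw⟩, hi⟩)
    · rintro w (rfl | hw)
      · exact ⟨1, rfl⟩
      · obtain ⟨i, hi, hw⟩ := Set.mem_iUnion₂.1 hw
        exact hsub i hi hw
  have hcard : Nat.card (orb X z) = 1 + ∑ i ∈ J, size i := by
    rw [hdec, Nat.card_coe_set_eq, Set.ncard_insert_of_notMem, add_comm]
    · congr 1
      rw [← finsum_one]
      rw [show (⋃ i ∈ J, piece i) = ⋃ i ∈ (J : Set (Fin 5)), piece i by simp,
        finsum_mem_biUnion (fun i _ j _ hij => hdisj i j hij) J.finite_toSet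
        (fun i _ => Set.toFinite _), finsum_mem_coe_finset]
      exact Finset.sum_congr rfl fun i _ => by
        rw [finsum_one, ← hsize i, Nat.card_coe_set_eq]
    · intro h
      obtain ⟨i, -, hi⟩ := Set.mem_iUnion₂.1 h
      exact hzp i hi
  have hgood : ∀ p ∈ [13, 37, 41, 47, 101, 113, 131, 211, 241, 277, 331, 367, 571, 103, 607, 1531,
      1567, 2011], ¬ p ∣ 1 + ∑ i ∈ J, size i := by
    intro p hp hd
    obtain ⟨h2, hpp, hk⟩ := bad_primes p hp
    rcases prime_cases hW X hpp (by rw [card_eq_orb_mul X z, hcard]; exact hd.mul_right _) with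
      e | ⟨k, k1, k11, e⟩
    · exact h2 e
    · exact hk k (Finset.mem_Icc.2 ⟨k1, k11⟩) e
  rcases sum_cases J hgood with e | e | e | e | e
  · exfalso
    obtain ⟨x, hx, hne⟩ := hmove
    have : x z ∈ orb X z := ⟨⟨x, hx⟩, rfl⟩
    rw [hdec, e] at this
    simp [hne] at this
  · exfalso
    have hOD : orb X z = (D : Set W) \ {1} := by
      rw [hdec, e, hD]
      ext w
      simp only [Finset.mem_insert, Finset.mem_singleton, Set.mem_insert_iff, Set.mem_iUnion,
        exists_prop, exists_eq_or_imp, exists_eq_left, Set.mem_sdiff, Set.mem_union,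
        Set.mem_singleton_iff]
      have h0 := h1p 0
      have h1 := h1p 1
      constructor
      · rintro (rfl | h | h)
        · exact ⟨Or.inl (Or.inl (Or.inr rfl)), hz⟩
        · exact ⟨Or.inl (Or.inr h), fun e => h0 (e ▸ h)⟩
        · exact ⟨Or.inr h, fun e => h1 (e ▸ h)⟩
      · rintro ⟨((h | h) | h) | h, hne⟩
        · exact absurd h hne
        · exact Or.inl h
        · exact Or.inr (Or.inl h)
        · exact Or.inr (Or.inr h)
    have hDc : Nat.card D = 2 ^ 7 := by
      have h1 : Nat.card (orb X z) = 127 := by rw [hcard, e]; rfl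
      rw [hOD, Nat.card_coe_set_eq, Set.ncard_sdiff_singleton_of_mem (one_mem D),
        ← Nat.card_coe_set_eq] at h1
      have hpos : 0 < Nat.card D := Nat.card_pos
      show Nat.card D = 128
      have h2 : Nat.card (D : Set W) = Nat.card D := rfl
      omega
    obtain ⟨a, ha⟩ : (piece 0).Nonempty := by
      refine Set.nonempty_coe_sort.1 (Nat.card_pos_iff.1 ?_).1
      rw [hsize]; decide
    refine false_sub hW D hDc hOD hS hK (hsub 0 (by rw [e]; simp) ha) ?_
    have := hsize 0
    rwa [show piece 0 = {w | ∃ x ∈ stab X z, (x : MulAut W) a = w} from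
      Set.Subset.antisymm (htrans 0 a ha) (by rintro _ ⟨x, hx, rfl⟩; exact htrans₀ a ha x hx)] at this
  · exfalso
    exact false_full hW hS hz (by rw [hcard, e]; rfl)
  · refine ⟨by rw [hcard, e]; rfl, Or.inl ?_⟩
    rw [hdec, e]
    simp [Set.union_assoc]
  · refine ⟨by rw [hcard, e]; rfl, Or.inr ?_⟩
    rw [hdec, e]
    simp [Set.union_assoc]

end CfsgLib.JFour.OrbitArith
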