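import Cfsg.Agent.Lib.JFour.Lifts

/-!
# Groups of Janko-four type: the five pieces of `V` and the pair count
-/

set_option autoImplicit false
set_option linter.unusedSectionVars false
set_option linter.style.haveILetI false

open Cfsg

namespace CfsgLib.JFour

variable {G : Type*} [Group G]

/-- A set of representatives of the nontrivial cosets of `⟨z⟩` in `W`, all conjugate. -/
structure Section (E M0 W : Subgroup G) (z : G) (A : Set G) : Prop where
  sub : ∀ a ∈ A, a ∈ W ∧ a ∉ Subgroup.zpowers z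
  one : ∀ b ∈ W, b ∉ Subgroup.zpowers z → (b ∈ A ↔ z * b ∉ A)
  conj : ∀ a ∈ A, ∀ b ∈ A, LConj E M0 a b

/-- The `E`-conjugates of the elements of `A`. -/
def Orb (E : Subgroup G) (A : Set G) : Set G := {x | ∃ a ∈ A, ∃ f ∈ E, x = cmm a f * a}

/-- The elements of `U` at the six special points. -/
def specU (E W : Subgroup G) (z : G) (five : Set (Subgroup G)) : Set G :=
  {d | d ∈ HexFrame.U E W ∧ d ∉ Subgroup.zpowers z ∧ ∃ S ∈ five, d ∈ S}

/-- The other nontrivial elements of `U` outside `⟨z⟩`. -/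
def ordU (E W : Subgroup G) (z : G) (five : Set (Subgroup G)) : Set G :=
  {d | d ∈ HexFrame.U E W ∧ d ∉ Subgroup.zpowers z ∧ ∀ S ∈ five, d ∉ S}

/-- The elements `u a` with `u` off the line of `a`. -/
def bigV (E W : Subgroup G) (z : G) (A : Set G) : Set G :=
  {x | ∃ a ∈ A, ∃ u ∈ HexFrame.U E W, u ∉ Line E z a ∧ x = u * a}

namespace HexTransitive

open HexFrame

variable [Finite G] {E R P W M0 : Subgroup G} {z : G} (h : HexTransitive E R P W M0 z)
include h

theorem z_mul_notMem {b : G} (hb : b ∉ Subgroup.zpowers z) : z * b ∉ Subgroup.zpowers z := fun hh =>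
  hb (by simpa using mul_mem (inv_mem (Subgroup.mem_zpowers z)) hh)

theorem lconj_zmul {a b : G} (hc : LConj E M0 a b) : LConj E M0 (z * a) (z * b) := by
  obtain ⟨l, hl, e⟩ := hc
  refine ⟨l, hl, ?_⟩
  have hlz : l * z = z * l := by
    have hle : E ⊔ M0 ≤ Subgroup.centralizer ({z} : Set G) := sup_le
      (fun e he => Subgroup.mem_centralizer_iff.mpr fun w hw => by
        rw [Set.mem_singleton_iff.mp hw]; exact (h.E_z he).symm)
      (fun m hm => Subgroup.mem_centralizer_iff.mpr fun w hw => by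
        rw [Set.mem_singleton_iff.mp hw]; exact (h.M0_z m hm).symm)
    exact (Subgroup.mem_centralizer_iff.mp (hle hl) z rfl).symm
  rw [← e, ← mul_assoc, hlz]; group

theorem exists_section : ∃ A, Section E M0 W z A := by
  classical
  obtain ⟨b₀, hb₀, hb₀z⟩ : ∃ b ∈ W, b ∉ Subgroup.zpowers z := by
    by_contra hcon
    push Not at hcon
    have := Subgroup.card_le_of_le (show W ≤ Subgroup.zpowers z from hcon)
    rw [h.card_W, Nat.card_zpowers, h.orderOf_z] at this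
    norm_num at this
  have hor : ∀ b ∈ W, b ∉ Subgroup.zpowers z → LConj E M0 b₀ b ∨ LConj E M0 b₀ (z * b) := by
    intro b hb hbz
    obtain ⟨m, hm, e | e⟩ := h.trans b₀ hb₀ hb₀z b hb hbz
    · exact Or.inl (LConj.of_M0 hm e)
    · exact Or.inr (LConj.of_M0 hm e)
  let Zw : Subgroup ↥W := (Subgroup.zpowers z).subgroupOf W
  have hmk : ∀ b : ↥W, ((⟨z, h.z_W⟩ : ↥W) * b : ↥W) ∈ ({x | (x : ↥W ⧸ Zw) = (b : ↥W ⧸ Zw)} : Set ↥W) := by
    intro b
    rw [Set.mem_setOf_eq, QuotientGroup.eq, Subgroup.mem_subgroupOf]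
    simp only [Subgroup.coe_mul, Subgroup.coe_inv, mul_inv_rev]
    rw [inv_eq_of_mul_eq_one_right h.z_sq, mul_assoc, ← h.W_z b b.2, ← mul_assoc, inv_mul_cancel, one_mul]
    exact Subgroup.mem_zpowers z
  let A : Set G := {b | ∃ hb : b ∈ W, b ∉ Subgroup.zpowers z ∧ LConj E M0 b₀ b ∧
    (LConj E M0 b₀ (z * b) → (QuotientGroup.mk ⟨b, hb⟩ : ↥W ⧸ Zw).out = ⟨b, hb⟩)}
  refine ⟨A, fun a ⟨ha, haz, _⟩ => ⟨ha, haz⟩, fun b hb hbz => ?_,
    fun a ⟨_, _, h1, _⟩ b ⟨_, _, h2, _⟩ => h1.symm.trans h2⟩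
  have hzb : z * b ∈ W := mul_mem h.z_W hb
  have hzz : z * (z * b) = b := by rw [← mul_assoc, h.z_sq, one_mul]
  have hne : (⟨z * b, hzb⟩ : ↥W) ≠ ⟨b, hb⟩ := fun e => h.z_ne (mul_eq_right.mp (congrArg Subtype.val e))
  have hq : (QuotientGroup.mk ⟨z * b, hzb⟩ : ↥W ⧸ Zw) = QuotientGroup.mk ⟨b, hb⟩ := hmk ⟨b, hb⟩
  constructor
  · rintro ⟨_, _, hc, hout⟩ ⟨_, _, hc', hout'⟩
    apply hne
    rw [← hout' (by rw [hzz]; exact hc), ← hout hc', hq]
  · intro hnot
    rcases hor b hb hbz with hc | hc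
    · refine ⟨hb, hbz, hc, fun hc' => ?_⟩
      by_contra hout
      refine hnot ⟨hzb, h.z_mul_notMem hbz, hc', fun _ => ?_⟩
      obtain ⟨c, hcc⟩ := QuotientGroup.mk_out_eq_mul Zw (⟨b, hb⟩ : ↥W)
      rw [hq, hcc]
      rcases h.mem_Z.mp (Subgroup.mem_subgroupOf.mp c.2) with e | e
      · exact absurd (by rw [hcc]; exact Subtype.ext (by simp [e])) hout
      · exact Subtype.ext (by simp [e, h.W_z b hb])
    · by_cases hc' : LConj E M0 b₀ b
      · refine ⟨hb, hbz, hc', fun _ => ?_⟩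
        by_contra hout
        refine hnot ⟨hzb, h.z_mul_notMem hbz, hc, fun _ => ?_⟩
        obtain ⟨c, hcc⟩ := QuotientGroup.mk_out_eq_mul Zw (⟨b, hb⟩ : ↥W)
        rw [hq, hcc]
        rcases h.mem_Z.mp (Subgroup.mem_subgroupOf.mp c.2) with e | e
        · exact absurd (by rw [hcc]; exact Subtype.ext (by simp [e])) hout
        · exact Subtype.ext (by simp [e, h.W_z b hb])
      · exact absurd ⟨hzb, h.z_mul_notMem hbz, hc, fun hh => absurd (hzz ▸ hh) hc'⟩ hnot

variable {A : Set G}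

theorem section_zmul (hA : Section E M0 W z A) : Section E M0 W z ((z * ·) '' A) := by
  have hiff : ∀ x, x ∈ (z * ·) '' A ↔ z * x ∈ A := by
    refine fun x => ⟨?_, fun hx => ⟨z * x, hx, by simp [← mul_assoc, h.z_sq]⟩⟩
    rintro ⟨a, ha, rfl⟩
    simpa [← mul_assoc, h.z_sq] using ha
  refine ⟨?_, fun b hb hbz => ?_, ?_⟩
  · rintro _ ⟨a, ha, rfl⟩
    exact ⟨mul_mem h.z_W (hA.sub a ha).1, h.z_mul_notMem (hA.sub a ha).2⟩
  · rw [hiff, hiff, hA.one (z * b) (mul_mem h.z_W hb) (h.z_mul_notMem hbz)]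
  · rintro _ ⟨a, ha, rfl⟩ _ ⟨b, hb, rfl⟩
    exact h.lconj_zmul (hA.conj a ha b hb)

theorem lconj_Orb (hA : Section E M0 W z A) {x y : G} (hx : x ∈ Orb E A) (hy : y ∈ Orb E A) :
    LConj E M0 x y := by
  obtain ⟨a, ha, f, hf, rfl⟩ := hx
  obtain ⟨b, hb, g, hg, rfl⟩ := hy
  refine ((LConj.of_E hf (h.conj_W_eq hf (hA.sub a ha).1)).symm.trans (hA.conj a ha b hb)).trans
    (LConj.of_E hg (h.conj_W_eq hg (hA.sub b hb).1))

theorem lconj_bigV (hE : IsExtraspecial 2 ↥E) (hA : Section E M0 W z A) {x y : G}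
    (hx : x ∈ bigV E W z A) (hy : y ∈ bigV E W z A) : LConj E M0 x y := by
  obtain ⟨a, ha, u, hu, hua, rfl⟩ := hx
  obtain ⟨b, hb, v, hv, hvb, rfl⟩ := hy
  obtain ⟨haW, haz⟩ := hA.sub a ha
  obtain ⟨hbW, hbz⟩ := hA.sub b hb
  obtain ⟨m, hm, hmab⟩ := h.trans a haW haz b hbW hbz
  set u' := m * u * m⁻¹ with hu'
  have hu'U : u' ∈ U E W := by
    refine mem_U (h.M0_E m hm u (U_le hu)) fun w hw => ?_
    have hw' : m⁻¹ * w * m ∈ W := by simpa using h.M0_W m⁻¹ (inv_mem hm) w hw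
    calc w * (m * u * m⁻¹) = m * ((m⁻¹ * w * m) * u) * m⁻¹ := by group
      _ = m * (u * (m⁻¹ * w * m)) * m⁻¹ := by rw [U_comm hu hw']
      _ = m * u * m⁻¹ * w := by group
  have hline : Line E z (m * a * m⁻¹) = Line E z b := by
    rcases hmab with e | e <;> rw [e]
    exact h.Line_zmul hbW
  have hu'b : u' ∉ Line E z b := by
    intro hh
    rw [← hline] at hh
    apply hua
    have := h.Line_conj (inv_mem hm) hh
    rw [inv_inv, hu', show m⁻¹ * (m * u * m⁻¹) * m = u by group,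
      show m⁻¹ * (m * a * m⁻¹) * m = a by group] at this
    exact this
  refine (LConj.of_M0 hm (show m * (u * a) * m⁻¹ = u' * (m * a * m⁻¹) by rw [hu']; group)).trans ?_
  rcases hmab with e | e <;> rw [e]
  · exact h.lconj_big hE hbW hbz hu'U hu'b hv hvb
  · rw [← mul_assoc]
    refine h.lconj_big hE hbW hbz (mul_mem hu'U h.z_U) (fun hh => hu'b ?_) hv hvb
    have := mul_mem hh (inv_mem (h.z_mem_Line b))
    rwa [mul_inv_cancel_right] at this

theorem lconj_spec {five : Set (Subgroup G)} (hF : FiveData E P W M0 z five) {x y : G}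
    (hx : x ∈ specU E W z five) (hy : y ∈ specU E W z five) : LConj E M0 x y := by
  obtain ⟨-, hxz, S, hS, hxS⟩ := hx
  obtain ⟨-, hyz, T, hT, hyT⟩ := hy
  exact h.lconj_U hF (hF.isPt S hS) (hF.isPt T hT) (iff_of_true hS hT) hxS hxz hyT hyz

theorem lconj_ord {five : Set (Subgroup G)} (hF : FiveData E P W M0 z five) {x y : G}
    (hx : x ∈ ordU E W z five) (hy : y ∈ ordU E W z five) : LConj E M0 x y := by
  obtain ⟨hxU, hxz, hxn⟩ := hx
  obtain ⟨hyU, hyz, hyn⟩ := hy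
  obtain ⟨S, hSB, hS8, hxS⟩ := h.exists_pt hxU hxz
  obtain ⟨T, hTB, hT8, hyT⟩ := h.exists_pt hyU hyz
  exact h.lconj_U hF ⟨hSB, hS8⟩ ⟨hTB, hT8⟩ (iff_of_false (fun hh => hxn S hh hxS) (fun hh => hyn T hh hyT))
    hxS hxz hyT hyz

theorem section_unique (hA : Section E M0 W z A) {a b u v : G} (ha : a ∈ A) (hb : b ∈ A)
    (hu : u ∈ U E W) (hv : v ∈ U E W) (e : u * a = v * b) : a = b ∧ u = v := by
  have hab : a * b⁻¹ = u⁻¹ * v := by
    calc a * b⁻¹ = u⁻¹ * (u * a) * b⁻¹ := by group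
      _ = u⁻¹ * v := by rw [e]; group
  have hz : a * b⁻¹ = 1 ∨ a * b⁻¹ = z := h.W_inf_E (mul_mem (hA.sub a ha).1 (inv_mem (hA.sub b hb).1))
    (hab ▸ U_le (mul_mem (inv_mem hu) hv))
  rcases hz with hh | hh
  · have e1 : a = b := mul_inv_eq_one.mp hh
    exact ⟨e1, mul_right_cancel (e1 ▸ e)⟩
  · exfalso
    have e1 : a = z * b := mul_inv_eq_iff_eq_mul.mp hh
    exact (hA.one b (hA.sub b hb).1 (hA.sub b hb).2).mp hb (e1 ▸ ha)

theorem exists_rep (hA : Section E M0 W z A) {x : G} (hx : x ∈ U E W ⊔ W) (hxU : x ∉ U E W) :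
    ∃ a ∈ A, ∃ u ∈ U E W, x = u * a := by
  obtain ⟨u, hu, w, hw, rfl⟩ := h.mem_sup_iff.mp hx
  have hwz : w ∉ Subgroup.zpowers z := fun hh =>
    hxU (mul_mem hu ((Subgroup.zpowers_le.mpr h.z_U : Subgroup.zpowers z ≤ U E W) hh))
  by_cases hwA : w ∈ A
  · exact ⟨w, hwA, u, hu, rfl⟩
  · have : z * w ∈ A := by
      by_contra hh
      exact hwA ((hA.one w hw hwz).mpr hh)
    refine ⟨z * w, this, u * z, mul_mem hu h.z_U, ?_⟩
    rw [mul_assoc, ← mul_assoc z z, h.z_sq, one_mul]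

theorem Orb_sub (hA : Section E M0 W z A) {x : G} (hx : x ∈ Orb E A) :
    x ∈ U E W ⊔ W ∧ x ∉ U E W := by
  obtain ⟨a, ha, f, hf, rfl⟩ := hx
  obtain ⟨haW, haz⟩ := hA.sub a ha
  refine ⟨Subgroup.mul_mem_sup (h.cmm_mem_U haW hf) haW, fun hh => haz (h.mem_Z.mpr (h.W_inf_E haW (U_le (W := W) ?_)))⟩
  simpa using mul_mem (inv_mem (h.cmm_mem_U haW hf)) hh

theorem bigV_sub (hA : Section E M0 W z A) {x : G} (hx : x ∈ bigV E W z A) :
    x ∈ U E W ⊔ W ∧ x ∉ U E W := by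
  obtain ⟨a, ha, u, hu, -, rfl⟩ := hx
  obtain ⟨haW, haz⟩ := hA.sub a ha
  refine ⟨Subgroup.mul_mem_sup hu haW, fun hh => haz (h.mem_Z.mpr (h.W_inf_E haW (U_le (W := W) ?_)))⟩
  simpa using mul_mem (inv_mem hu) hh

theorem Orb_zmul (hA : Section E M0 W z A) (x : G) :
    x ∈ Orb E ((z * ·) '' A) ↔ z * x ∈ Orb E A := by
  constructor
  · rintro ⟨_, ⟨a, ha, rfl⟩, f, hf, rfl⟩
    refine ⟨a, ha, f, hf, ?_⟩
    rw [h.cmm_zmul (hA.sub a ha).1 hf, ← mul_assoc z, ← h.z_comm_of_U (h.cmm_mem_U (hA.sub a ha).1 hf),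
      mul_assoc, ← mul_assoc z z, h.z_sq, one_mul]
  · rintro ⟨a, ha, f, hf, e⟩
    refine ⟨z * a, ⟨a, ha, rfl⟩, f, hf, ?_⟩
    show x = cmm (z * a) f * (z * a)
    rw [h.cmm_zmul (hA.sub a ha).1 hf, ← mul_assoc,
      h.z_comm_of_U (h.cmm_mem_U (hA.sub a ha).1 hf), mul_assoc, ← e, ← mul_assoc, h.z_sq, one_mul]

theorem disjoint_Orb (hA : Section E M0 W z A) : Disjoint (Orb E A) (Orb E ((z * ·) '' A)) := by
  rw [Set.disjoint_left]
  rintro x ⟨a, ha, f, hf, rfl⟩ hx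
  obtain ⟨b, hb, g, hg, e⟩ := (h.Orb_zmul hA _).mp hx
  have hzU := mul_mem h.z_U (h.cmm_mem_U (hA.sub a ha).1 hf)
  rw [← mul_assoc] at e
  obtain ⟨rfl, e'⟩ := h.section_unique hA ha hb hzU (h.cmm_mem_U (hA.sub b hb).1 hg) e
  have := (h.cmm_eq_of_eq_mod (hA.sub a ha).1 hf hg (Or.inr e'.symm)).1
  rw [this] at e'
  exact h.z_ne (mul_eq_right.mp e')

theorem card_A (hA : Section E M0 W z A) : Nat.card A = 15 := by
  classical
  have hc : Nat.card ↥((W : Set G) \ {1, z}) = 30 := by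
    rw [Nat.card_coe_set_eq, Set.ncard_sdiff ?_ (Set.toFinite _), Set.ncard_pair h.z_ne.symm,
      ← Nat.card_coe_set_eq]
    · show Nat.card ↥W - 2 = 30
      rw [h.card_W]
    · rintro a (rfl | rfl)
      · exact W.one_mem
      · exact h.z_W
  have e : ↥((W : Set G) \ {1, z}) ≃ ↥A × Bool :=
    { toFun := fun x => if hx : (x : G) ∈ A then (⟨x, hx⟩, false) else (⟨z * x, by
        by_contra hh
        exact hx ((hA.one x x.2.1 (fun hz => x.2.2 (h.mem_Z.mp hz))).mpr hh)⟩, true)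
      invFun := fun p => ⟨(bif p.2 then z else 1) * p.1, by
        obtain ⟨hW, hz⟩ := hA.sub p.1 p.1.2
        cases p.2
        · simp only [cond_false, one_mul]
          exact ⟨hW, fun hh => hz (h.mem_Z.mpr hh)⟩
        · simp only [cond_true]
          exact ⟨mul_mem h.z_W hW, fun hh => h.z_mul_notMem hz (h.mem_Z.mpr hh)⟩⟩
      left_inv := fun x => by
        apply Subtype.ext
        by_cases hx : (x : G) ∈ A
        · simp [hx]
        · simp [hx, ← mul_assoc, h.z_sq]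
      right_inv := fun p => by
        rcases p with ⟨⟨a, ha⟩, b⟩
        cases b
        · simp [ha]
        · have : z * a ∉ A := (hA.one a (hA.sub a ha).1 (hA.sub a ha).2).mp ha
          simp [this, ← mul_assoc, h.z_sq] }
  rw [Nat.card_congr e, Nat.card_prod, Nat.card_eq_fintype_card (α := Bool), Fintype.card_bool] at hc
  omega

theorem card_specU {five : Set (Subgroup G)} (hF : FiveData E P W M0 z five) :
    Nat.card (specU E W z five) = 36 := by
  classical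
  haveI := Fintype.ofFinite five
  have hmem : ∀ S : five, ∀ d ∈ ((S : Subgroup G) : Set G) \ {1, z}, d ∈ specU E W z five := fun S d hd =>
    ⟨(hF.isPt S S.2).1.le_U hd.1, fun hh => hd.2 (h.mem_Z.mp hh), S, S.2, hd.1⟩
  let F : (Σ S : five, ↥(((S : Subgroup G) : Set G) \ {1, z})) → specU E W z five := fun p => ⟨p.2.1, hmem p.1 _ p.2.2⟩
  have hF' : Function.Bijective F := by
    constructor
    · rintro ⟨⟨S, hS⟩, d, hd⟩ ⟨⟨T, hT⟩, d', hd'⟩ e
      obtain rfl : d = d' := congrArg Subtype.val e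
      obtain rfl : S = T := h.pt_unique (hF.isPt S hS).1 (hF.isPt T hT).1 (hF.isPt S hS).2 (hF.isPt T hT).2
        hd.1 hd'.1 fun hh => hd.2 (h.mem_Z.mp hh)
      rfl
    · rintro ⟨d, hdU, hdz, S, hS, hdS⟩
      exact ⟨⟨⟨S, hS⟩, d, hdS, fun hh => hdz (h.mem_Z.mpr hh)⟩, rfl⟩
  rw [← Nat.card_congr (Equiv.ofBijective F hF'), Nat.card_sigma, Finset.sum_const_nat (m := 6),
    Finset.card_univ, ← Nat.card_eq_fintype_card, hF.card]
  intro S _
  rw [Nat.card_coe_set_eq, Set.ncard_sdiff ?_ (Set.toFinite _), Set.ncard_pair h.z_ne.symm,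
    ← Nat.card_coe_set_eq]
  · show Nat.card ↥(S : Subgroup G) - 2 = 6
    rw [(hF.isPt S S.2).2]
  · rintro a (rfl | rfl)
    · exact (S : Subgroup G).one_mem
    · exact (hF.isPt S S.2).1.z_mem

theorem card_ordU {five : Set (Subgroup G)} (hF : FiveData E P W M0 z five) :
    Nat.card (ordU E W z five) = 90 := by
  have h1 := h.card_specU hF
  have hd : Disjoint (ordU E W z five) (specU E W z five) :=
    Set.disjoint_left.mpr fun d ⟨_, _, hn⟩ ⟨_, _, S, hS, hdS⟩ => hn S hS hdS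
  have hu : ordU E W z five ∪ specU E W z five = (U E W : Set G) \ {1, z} := by
    ext d
    constructor
    · rintro (⟨a, b, -⟩ | ⟨a, b, -⟩) <;> exact ⟨a, fun hh => b (h.mem_Z.mpr hh)⟩
    · rintro ⟨a, b⟩
      by_cases hs : ∃ S ∈ five, d ∈ S
      · exact Or.inr ⟨a, fun hh => b (h.mem_Z.mp hh), hs⟩
      · exact Or.inl ⟨a, fun hh => b (h.mem_Z.mp hh), fun S hS hdS => hs ⟨S, hS, hdS⟩⟩
  have hc := Set.ncard_union_eq hd (Set.toFinite _) (Set.toFinite _)
  rw [hu, Set.ncard_sdiff (by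
    rintro a (rfl | rfl)
    · exact (U E W).one_mem
    · exact h.z_U) (Set.toFinite _), Set.ncard_pair h.z_ne.symm, ← Nat.card_coe_set_eq,
    ← Nat.card_coe_set_eq, ← Nat.card_coe_set_eq] at hc
  have hU : Nat.card ↥((U E W : Set G)) = 2 ^ 7 := h.card_U
  omega

theorem card_Orb (hA : Section E M0 W z A) : Nat.card (Orb E A) = 240 := by
  classical
  haveI := Fintype.ofFinite A
  let F : (Σ a : A, ↥(Line E z (a : G))) → G := fun p => p.2.1 * p.1.1
  have hinj : Function.Injective F := by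
    rintro ⟨⟨a, ha⟩, u, hu⟩ ⟨⟨b, hb⟩, v, hv⟩ e
    obtain ⟨rfl, rfl⟩ := h.section_unique hA ha hb (h.Line_le_U (hA.sub a ha).1 hu)
      (h.Line_le_U (hA.sub b hb).1 hv) e
    rfl
  have hrange : Set.range F = Orb E A ∪ Orb E ((z * ·) '' A) := by
    ext x
    constructor
    · rintro ⟨⟨⟨a, ha⟩, u, hu⟩, rfl⟩
      obtain ⟨f, hf, e | e⟩ := (h.mem_Line (hA.sub a ha).1).mp hu
      · exact Or.inl ⟨a, ha, f, hf, by simp [F, e]⟩
      · refine Or.inr ((h.Orb_zmul hA _).mpr ⟨a, ha, f, hf, ?_⟩)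
        show z * (u * a) = cmm a f * a
        rw [e, ← mul_assoc, ← mul_assoc, h.z_sq, one_mul]
    · rintro (⟨a, ha, f, hf, rfl⟩ | hx)
      · exact ⟨⟨⟨a, ha⟩, cmm a f, h.cmm_mem_Line hf⟩, rfl⟩
      · obtain ⟨a, ha, f, hf, e⟩ := (h.Orb_zmul hA _).mp hx
        refine ⟨⟨⟨a, ha⟩, z * cmm a f, mul_mem (h.z_mem_Line a) (h.cmm_mem_Line hf)⟩, ?_⟩
        show z * cmm a f * a = x
        rw [mul_assoc, ← e, ← mul_assoc, h.z_sq, one_mul]
  have hc : Nat.card (Set.range F) = 480 := by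
    rw [Nat.card_range_of_injective hinj, Nat.card_sigma, Finset.sum_const_nat (m := 32),
      Finset.card_univ, ← Nat.card_eq_fintype_card, h.card_A hA]
    exact fun a _ => h.card_Line (hA.sub a a.2).1 (hA.sub a a.2).2
  have he : Orb E ((z * ·) '' A) = (z * ·) '' Orb E A := by
    ext x
    rw [h.Orb_zmul hA]
    exact ⟨fun hx => ⟨z * x, hx, by simp [← mul_assoc, h.z_sq]⟩,
      by rintro ⟨y, hy, rfl⟩; simpa [← mul_assoc, h.z_sq] using hy⟩
  rw [hrange, Nat.card_coe_set_eq, Set.ncard_union_eq (h.disjoint_Orb hA) (Set.toFinite _) (Set.toFinite _),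
    he, Set.ncard_image_of_injective _ (mul_right_injective z)] at hc
  rw [Nat.card_coe_set_eq]
  omega

theorem card_bigV (hA : Section E M0 W z A) : Nat.card (bigV E W z A) = 1440 := by
  classical
  haveI := Fintype.ofFinite A
  let F : (Σ a : A, ↥((U E W : Set G) \ (Line E z (a : G) : Set G))) → G := fun p => p.2.1 * p.1.1
  have hinj : Function.Injective F := by
    rintro ⟨⟨a, ha⟩, u, hu⟩ ⟨⟨b, hb⟩, v, hv⟩ e
    obtain ⟨rfl, rfl⟩ := h.section_unique hA ha hb hu.1 hv.1 e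
    rfl
  have hrange : Set.range F = bigV E W z A := by
    ext x
    constructor
    · rintro ⟨⟨⟨a, ha⟩, u, hu⟩, rfl⟩
      exact ⟨a, ha, u, hu.1, hu.2, rfl⟩
    · rintro ⟨a, ha, u, hu, hua, rfl⟩
      exact ⟨⟨⟨a, ha⟩, u, hu, hua⟩, rfl⟩
  rw [← hrange, Nat.card_range_of_injective hinj, Nat.card_sigma, Finset.sum_const_nat (m := 96),
    Finset.card_univ, ← Nat.card_eq_fintype_card, h.card_A hA]
  intro a _
  rw [Nat.card_coe_set_eq, Set.ncard_sdiff (show (Line E z (a : G) : Set G) ⊆ U E W from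
    h.Line_le_U (hA.sub a a.2).1) (Set.toFinite _), ← Nat.card_coe_set_eq, ← Nat.card_coe_set_eq]
  show Nat.card ↥(U E W) - Nat.card ↥(Line E z (a : G)) = 96
  rw [h.card_U, h.card_Line (hA.sub a a.2).1 (hA.sub a a.2).2]
  norm_num

/-- The pieces cover `V` outside `⟨z⟩`. -/
theorem cover {five : Set (Subgroup G)} (hA : Section E M0 W z A) {x : G} (hx : x ∈ U E W ⊔ W)
    (hxz : x ∉ Subgroup.zpowers z) : x ∈ ordU E W z five ∨ x ∈ specU E W z five ∨ x ∈ Orb E A ∨
      x ∈ Orb E ((z * ·) '' A) ∨ x ∈ bigV E W z A := by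
  by_cases hxU : x ∈ U E W
  · by_cases hs : ∃ S ∈ five, x ∈ S
    · exact Or.inr (Or.inl ⟨hxU, hxz, hs⟩)
    · exact Or.inl ⟨hxU, hxz, fun S hS hd => hs ⟨S, hS, hd⟩⟩
  · obtain ⟨a, ha, u, hu, rfl⟩ := h.exists_rep hA hx hxU
    by_cases hua : u ∈ Line E z a
    · obtain ⟨f, hf, e | e⟩ := (h.mem_Line (hA.sub a ha).1).mp hua
      · exact Or.inr (Or.inr (Or.inl ⟨a, ha, f, hf, by rw [e]⟩))
      · refine Or.inr (Or.inr (Or.inr (Or.inl ((h.Orb_zmul hA _).mpr ⟨a, ha, f, hf, ?_⟩))))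
        rw [e, ← mul_assoc, ← mul_assoc, h.z_sq, one_mul]
    · exact Or.inr (Or.inr (Or.inr (Or.inr ⟨a, ha, u, hu, hua, rfl⟩)))

theorem disjoint_bigV (hA : Section E M0 W z A) :
    Disjoint (bigV E W z A) (Orb E A) ∧ Disjoint (bigV E W z A) (Orb E ((z * ·) '' A)) := by
  constructor <;> rw [Set.disjoint_left] <;> rintro x ⟨a, ha, u, hu, hua, rfl⟩ hx
  · obtain ⟨b, hb, f, hf, e⟩ := hx
    obtain ⟨rfl, rfl⟩ := h.section_unique hA ha hb hu (h.cmm_mem_U (hA.sub b hb).1 hf) e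
    exact hua (h.cmm_mem_Line hf)
  · obtain ⟨b, hb, f, hf, e⟩ := (h.Orb_zmul hA _).mp hx
    rw [← mul_assoc] at e
    obtain ⟨rfl, e'⟩ := h.section_unique hA ha hb (mul_mem h.z_U hu) (h.cmm_mem_U (hA.sub b hb).1 hf) e
    apply hua
    rw [show u = z * cmm a f by rw [← e', ← mul_assoc, h.z_sq, one_mul]]
    exact mul_mem (h.z_mem_Line a) (h.cmm_mem_Line hf)

/-- The ordered pairs in `T` with product `x`. -/
theorem count_split (hE : IsExtraspecial 2 ↥E) {five : Set (Subgroup G)}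
    (hF : FiveData E P W M0 z five) (hA : Section E M0 W z A)
    (hmul : ∀ a ∈ A, ∀ b ∈ A, a * b ∉ Subgroup.zpowers z → a * b ∈ A) {b : G} (hb : b ∈ A) :
    Nat.card {t // t ∈ specU E W z five ∪ Orb E A ∧ z * t ∈ specU E W z five ∪ Orb E A} = 36 ∧
    Nat.card {t // t ∈ specU E W z five ∪ Orb E ((z * ·) '' A) ∧
      z * t ∈ specU E W z five ∪ Orb E ((z * ·) '' A)} = 36 ∧
    Nat.card {t // t ∈ specU E W z five ∪ Orb E A ∧ z * b * t ∈ specU E W z five ∪ Orb E A} ≤ 32 ∧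
    56 ≤ Nat.card {t // t ∈ specU E W z five ∪ Orb E ((z * ·) '' A) ∧
      b * t ∈ specU E W z five ∪ Orb E ((z * ·) '' A)} := by
  classical
  obtain ⟨hbW, hbz⟩ := hA.sub b hb
  have hzz : ∀ x : G, z * (z * x) = x := fun x => by rw [← mul_assoc, h.z_sq, one_mul]
  have hspecz : ∀ {d}, d ∈ specU E W z five → z * d ∈ specU E W z five := by
    rintro d ⟨hdU, hdz, S, hS, hdS⟩
    exact ⟨mul_mem h.z_U hdU, h.z_mul_notMem hdz, S, hS, mul_mem (hF.isPt S hS).1.z_mem hdS⟩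
  have hz36 : ∀ B, Section E M0 W z B →
      Nat.card {t // t ∈ specU E W z five ∪ Orb E B ∧ z * t ∈ specU E W z five ∪ Orb E B} = 36 := by
    intro B hB
    rw [← h.card_specU hF]
    refine Nat.card_congr (Equiv.subtypeEquivRight fun t => ⟨?_, fun ht => ⟨Or.inl ht, Or.inl (hspecz ht)⟩⟩)
    rintro ⟨ht | ht, h2⟩
    · exact ht
    · rcases h2 with h2 | h2
      · have := hspecz h2
        rwa [hzz] at this
      · exact absurd ((h.Orb_zmul hB t).mpr h2) (Set.disjoint_left.mp (h.disjoint_Orb hB) ht)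
  have hA' := h.section_zmul hA
  have hab : ∀ a ∈ A, a ≠ b → a * b ∈ A := by
    intro a ha hne
    refine hmul a ha b hb fun hh => ?_
    rcases h.mem_Z.mp hh with e | e
    · exact hne (by rw [eq_inv_of_mul_eq_one_left e, inv_eq_of_mul_eq_one_right (h.W_sq b hbW)])
    · have e1 : a = z * b := by rw [← e, mul_assoc, h.W_sq b hbW, mul_one]
      exact (hA.one b hbW hbz).mp hb (e1 ▸ ha)
  refine ⟨hz36 A hA, hz36 _ hA', ?_, ?_⟩
  · have key : ∀ t, t ∈ Orb E A → z * b * t ∈ Orb E A → False := by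
      rintro t ⟨a₁, ha₁, f, hf, rfl⟩ ⟨a₂, ha₂, g, hg, e⟩
      obtain ⟨ha₁W, ha₁z⟩ := hA.sub a₁ ha₁
      have hc := h.cmm_mem_U ha₁W hf
      rw [show z * b * (cmm a₁ f * a₁) = z * (b * cmm a₁ f) * a₁ by group,
        U_comm hc hbW, show z * (cmm a₁ f * b) * a₁ = z * cmm a₁ f * (b * a₁) by group] at e
      by_cases hne : a₁ = b
      · subst hne
        rw [h.W_sq a₁ ha₁W, mul_one] at e
        obtain ⟨ha₂W, ha₂z⟩ := hA.sub a₂ ha₂
        apply ha₂z
        refine h.mem_Z.mpr (h.W_inf_E ha₂W ?_)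
        rw [show a₂ = (cmm a₂ g)⁻¹ * (z * cmm a₁ f) by rw [e]; group]
        exact mul_mem (inv_mem (U_le (h.cmm_mem_U ha₂W hg))) (mul_mem h.z_mem (U_le hc))
      · have hba : b * a₁ ∈ A := by
          have hVab : b * a₁ = a₁ * b := by
            have h1 := h.W_sq _ (mul_mem hbW ha₁W)
            calc b * a₁ = (b * a₁)⁻¹ := (inv_eq_of_mul_eq_one_right h1).symm
              _ = a₁⁻¹ * b⁻¹ := mul_inv_rev _ _
              _ = a₁ * b := by rw [inv_eq_of_mul_eq_one_right (h.W_sq a₁ ha₁W),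
                inv_eq_of_mul_eq_one_right (h.W_sq b hbW)]
          rw [hVab]; exact hab a₁ ha₁ hne
        obtain ⟨rfl, e'⟩ := h.section_unique hA hba ha₂ (mul_mem h.z_U hc) (h.cmm_mem_U (hA.sub a₂ ha₂).1 hg) e
        have := h.cmm_agree hE hF ha₁W ha₁z (hA.sub _ hba).1 (hA.sub _ hba).2 hf hg (Or.inr e'.symm)
        rw [this] at e'
        exact h.z_ne (mul_eq_right.mp e')
    -- each of the two mixed cases lives in `{cmm b f}`
    set Sb : Set G := (fun f => cmm b f) '' (E : Set G) with hSb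
    have hSb16 : Sb.ncard ≤ 16 := by
      have hdis : Disjoint Sb ((z * ·) '' Sb) := by
        rw [Set.disjoint_left]
        rintro _ ⟨f, hf, rfl⟩ ⟨_, ⟨g, hg, rfl⟩, e⟩
        have := (h.cmm_eq_of_eq_mod hbW hg hf (Or.inr e.symm)).1
        exact h.z_ne (mul_eq_right.mp (e.trans this))
      have hsub : Sb ∪ (z * ·) '' Sb ⊆ (Line E z b : Set G) := by
        rintro _ (⟨f, hf, rfl⟩ | ⟨_, ⟨f, hf, rfl⟩, rfl⟩)
        · exact h.cmm_mem_Line hf
        · exact mul_mem (h.z_mem_Line b) (h.cmm_mem_Line hf)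
      have := Set.ncard_le_ncard hsub (Set.toFinite _)
      rw [Set.ncard_union_eq hdis (Set.toFinite _) (Set.toFinite _),
        Set.ncard_image_of_injective _ (mul_right_injective z)] at this
      have h32 : Set.ncard (Line E z b : Set G) = 32 := by
        rw [← Nat.card_coe_set_eq]; exact h.card_Line hbW hbz
      omega
    have hmix : ∀ d y, d ∈ specU E W z five → y ∈ Orb E A → z * b * d = y →
        z * d ∈ Sb ∧ y ∈ (· * b) '' Sb := by
      rintro d _ hd ⟨a, ha, f, hf, rfl⟩ e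
      rw [mul_assoc, U_comm hd.1 hbW, ← mul_assoc] at e
      obtain ⟨rfl, e'⟩ := h.section_unique hA hb ha (mul_mem h.z_U hd.1) (h.cmm_mem_U (hA.sub a ha).1 hf) e
      exact ⟨⟨f, hf, e'.symm⟩, ⟨cmm b f, ⟨f, hf, rfl⟩, rfl⟩⟩
    have hsubset : {t | t ∈ specU E W z five ∪ Orb E A ∧ z * b * t ∈ specU E W z five ∪ Orb E A} ⊆
        (z * ·) '' Sb ∪ (· * b) '' Sb := by
      rintro t ⟨ht | ht, h2 | h2⟩
      · exfalso
        refine hbz (h.mem_Z.mpr (h.W_inf_E hbW (U_le (W := W) ?_)))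
        have := mul_mem (mul_mem (inv_mem h.z_U) h2.1) (inv_mem ht.1)
        rwa [show z⁻¹ * (z * b * t) * t⁻¹ = b by group] at this
      · exact Or.inl ⟨z * t, (hmix t _ ht h2 rfl).1, hzz t⟩
      · refine Or.inr (hmix _ t h2 ht ?_).2
        rw [show z * b * (z * b * t) = z * (b * z) * (b * t) by group, h.W_z b hbW,
          show z * (z * b) * (b * t) = (z * z) * (b * b) * t by group, h.z_sq, h.W_sq b hbW]
        group
      · exact absurd h2 (fun h2 => key t ht h2)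
    have := (Set.ncard_le_ncard hsubset (Set.toFinite _)).trans (Set.ncard_union_le _ _)
    rw [Set.ncard_image_of_injective _ (mul_right_injective z),
      Set.ncard_image_of_injective _ (mul_left_injective b)] at this
    rw [← Set.coe_setOf, Nat.card_coe_set_eq]
    omega
  · -- many pairs
    haveI := Fintype.ofFinite A
    let I : {a : A // (a : G) ≠ b} → Subgroup G := fun a => Line E z a.1 ⊓ Line E z (a.1 * b)
    have hI : ∀ a, Nat.card ↥(I a) = 8 := by
      intro a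
      obtain ⟨haW, haz⟩ := hA.sub _ a.1.2
      obtain ⟨habW, habz⟩ := hA.sub _ (hab _ a.1.2 a.2)
      refine h.meet (h.Line_between haW) (h.Line_between habW) (h.card_Line haW haz) (h.card_Line habW habz)
        fun e => hbz ?_
      have := h.Line_inj hE haW haz habW habz e
      rwa [← mul_assoc, h.W_sq _ haW, one_mul] at this
    -- the commutator representative of an element of a meet
    have hrep : ∀ a, ∀ u ∈ I a, ∃ f ∈ E, u = cmm (a.1 : G) f ∨ u = z * cmm (a.1 : G) f := fun a u hu =>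
      (h.mem_Line (hA.sub _ a.1.2).1).mp (Subgroup.mem_inf.mp hu).1
    let Q : {a : A // (a : G) ≠ b} → Set G := fun a =>
      {s | s ∈ I a ∧ ∃ f ∈ E, s = cmm (a.1 : G) f}
    have hQ : ∀ a, 4 ≤ (Q a).ncard := by
      intro a
      have hsub : (I a : Set G) ⊆ Q a ∪ (z * ·) '' Q a := by
        intro u hu
        obtain ⟨f, hf, e | e⟩ := hrep a u hu
        · exact Or.inl ⟨hu, f, hf, e⟩
        · refine Or.inr ⟨z * u, ⟨mul_mem ?_ hu, f, hf, by rw [e, hzz]⟩, hzz u⟩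
          exact Subgroup.mem_inf.mpr ⟨h.z_mem_Line _, h.z_mem_Line _⟩
      have := (Set.ncard_le_ncard hsub (Set.toFinite _)).trans (Set.ncard_union_le _ _)
      rw [Set.ncard_image_of_injective _ (mul_right_injective z)] at this
      have h8 : (I a : Set G).ncard = 8 := by rw [← Nat.card_coe_set_eq]; exact hI a
      omega
    haveI := Fintype.ofFinite {a : A // (a : G) ≠ b}
    let F : (Σ a : {a : A // (a : G) ≠ b}, ↥(Q a)) →
        {t // t ∈ specU E W z five ∪ Orb E ((z * ·) '' A) ∧ b * t ∈ specU E W z five ∪ Orb E ((z * ·) '' A)} :=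
      fun p => ⟨p.2.1 * (z * p.1.1.1), by
        obtain ⟨⟨⟨a, ha⟩, hne⟩, s, hsI, f, hf, hs⟩ := p
        obtain ⟨haW, haz⟩ := hA.sub a ha
        obtain ⟨habW, habz⟩ := hA.sub _ (hab a ha hne)
        refine ⟨Or.inr ⟨z * a, ⟨a, ha, rfl⟩, f, hf, by rw [h.cmm_zmul haW hf]; exact congrArg (· * (z * a)) hs⟩, Or.inr ?_⟩
        obtain ⟨g, hg, e⟩ := (h.mem_Line habW).mp (Subgroup.mem_inf.mp hsI).2
        have hgs : cmm (a * b) g = cmm a f := by
          refine h.cmm_agree hE hF haW haz habW habz hf hg ?_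
          rcases e with e | e
          · exact Or.inl (by rw [← e]; exact hs)
          · right; rw [← hs, e, ← mul_assoc, h.z_sq, one_mul]
        refine ⟨z * (a * b), ⟨_, hab a ha hne, rfl⟩, g, hg, ?_⟩
        rw [h.cmm_zmul habW hg, hgs]
        refine Eq.trans ?_ (congrArg (· * (z * (a * b))) hs)
        have hcomm : b * a = a * b := by
          have h1 := h.W_sq _ (mul_mem hbW haW)
          calc b * a = (b * a)⁻¹ := (inv_eq_of_mul_eq_one_right h1).symm
            _ = a⁻¹ * b⁻¹ := mul_inv_rev _ _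
            _ = a * b := by rw [inv_eq_of_mul_eq_one_right (h.W_sq a haW),
              inv_eq_of_mul_eq_one_right (h.W_sq b hbW)]
        have hsU : s ∈ U E W := by rw [hs]; exact h.cmm_mem_U haW hf
        show b * (s * (z * a)) = s * (z * (a * b))
        rw [← mul_assoc, U_comm hsU hbW, mul_assoc, ← mul_assoc b z, h.W_z b hbW, mul_assoc z b, hcomm]⟩
    have hFinj : Function.Injective F := by
      rintro ⟨⟨⟨a, ha⟩, hne⟩, s, hs⟩ ⟨⟨⟨a', ha'⟩, hne'⟩, s', hs'⟩ e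
      have e' : s * (z * a) = s' * (z * a') := congrArg Subtype.val e
      have hsU : s ∈ U E W := h.Line_le_U (hA.sub a ha).1 (Subgroup.mem_inf.mp hs.1).1
      have hsU' : s' ∈ U E W := h.Line_le_U (hA.sub a' ha').1 (Subgroup.mem_inf.mp hs'.1).1
      rw [← mul_assoc, ← mul_assoc] at e'
      obtain ⟨rfl, e''⟩ := h.section_unique hA ha ha' (mul_mem hsU h.z_U) (mul_mem hsU' h.z_U) e'
      obtain rfl := mul_right_cancel e''
      rfl
    have h1 := Nat.card_le_card_of_injective F hFinj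
    rw [Nat.card_sigma] at h1
    have h14 : Nat.card {a : A // (a : G) ≠ b} = 14 := by
      have e : {a : A // (a : G) ≠ b} ≃ {a : A // a ≠ ⟨b, hb⟩} :=
        Equiv.subtypeEquivRight fun a => by simp [Subtype.ext_iff]
      rw [Nat.card_congr e, Nat.card_eq_fintype_card, Fintype.card_subtype_compl, Fintype.card_subtype_eq,
        ← Nat.card_eq_fintype_card, h.card_A hA]
    refine le_trans ?_ h1
    calc 56 = ∑ _a : {a : A // (a : G) ≠ b}, 4 := by
          rw [Finset.sum_const, Finset.card_univ, ← Nat.card_eq_fintype_card, h14]; rfl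
      _ ≤ _ := Finset.sum_le_sum fun a _ => by rw [Nat.card_coe_set_eq]; exact hQ a

end HexTransitive

end CfsgLib.JFour
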