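import Cfsg.Agent.Lib.JFour.PointData
import Cfsg.Agent.Lib.Golay.Punctured
import Cfsg.Agent.Lib.Golay.Octads
import Cfsg.Agent.S0407

/-!
The even sets of labels with trivial product form the binary Golay code.
-/

set_option autoImplicit false
set_option linter.unusedSectionVars false

namespace CfsgLib.JFour.PointData

open Cfsg CfsgLib.ExtraspecialLarge
open scoped symmDiff

variable {G : Type*} [Group G] [Finite G] {V : Subgroup G} {D : Set G} {lam : Fin 24 → G}
  (P : PointData V D lam)

include P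

theorem sq_one {x : G} (hx : x ∈ V) : x * x = 1 := by
  rw [← pow_two]; exact P.V_elem.2 x hx

theorem comm {x y : G} (hx : x ∈ V) (hy : y ∈ V) : x * y = y * x :=
  congrArg Subtype.val (P.V_elem.1.is_comm.comm ⟨x, hx⟩ ⟨y, hy⟩)

theorem mem_of_D {x : G} (hx : x ∈ D) : x ∈ V := P.gen ▸ Subgroup.subset_closure hx

/-- Distinct pairs through a common point have product in `D`. -/
theorem share_mem {i j k : Fin 24} (hjk : j ≠ k) :
    lam i * lam j * (lam i * lam k) ∈ D := by
  have e : lam i * lam j * (lam i * lam k) = lam j * lam k := by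
    rw [P.comm (P.lam_mem i) (P.lam_mem j), mul_assoc, ← mul_assoc (lam i), P.sq_one (P.lam_mem i),
      one_mul]
  exact e ▸ P.pair_mem j k hjk

theorem pair_comm (i j : Fin 24) : lam i * lam j = lam j * lam i :=
  P.comm (P.lam_mem i) (P.lam_mem j)

/-- The additive map of binary words to `V`. -/
theorem exists_theta : ∃ θ : (Fin 24 → ZMod 2) →+ Additive ↥V,
    ∀ i, θ (Pi.single i 1) = Additive.ofMul (⟨lam i, P.lam_mem i⟩ : ↥V) := by
  classical
  let _ : CommGroup ↥V := { (inferInstance : Group ↥V) with mul_comm := P.V_elem.1.is_comm.comm }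
  let L : Fin 24 → Additive ↥V := fun i => Additive.ofMul ⟨lam i, P.lam_mem i⟩
  have hL : ∀ i, (zmultiplesHom (Additive ↥V) (L i)) (2 : ℕ) = 0 := by
    intro i
    change ((2 : ℕ) : ℤ) • L i = 0
    rw [natCast_zsmul, two_nsmul]
    exact Subtype.ext (P.sq_one (P.lam_mem i))
  refine ⟨∑ i, (ZMod.lift 2 ⟨zmultiplesHom (Additive ↥V) (L i), hL i⟩).comp
    (Pi.evalAddMonoidHom (fun _ : Fin 24 => ZMod 2) i), fun j => ?_⟩
  rw [AddMonoidHom.finsetSum_apply]
  rw [Finset.sum_eq_single j]
  · simp only [AddMonoidHom.comp_apply, Pi.evalAddMonoidHom_apply, Pi.single_eq_same]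
    have := ZMod.lift_coe 2 ⟨zmultiplesHom (Additive ↥V) (L j), hL j⟩ 1
    simpa [L] using this
  · intro b _ hb
    simp [Pi.single_eq_of_ne hb]
  · simp

/-- The map of binary words to `V`. -/
noncomputable def theta : (Fin 24 → ZMod 2) →+ Additive ↥V := P.exists_theta.choose

/-- The product of the labels of a word, in `G`. -/
noncomputable def val (w : Fin 24 → ZMod 2) : G := ((Additive.toMul (P.theta w) : ↥V) : G)

theorem val_single (i : Fin 24) : P.val (Pi.single i 1) = lam i := by
  rw [val, theta, P.exists_theta.choose_spec i]; rfl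

theorem val_add (v w : Fin 24 → ZMod 2) : P.val (v + w) = P.val v * P.val w := by
  simp [val, toMul_add]

theorem val_zero : P.val 0 = 1 := by simp [val]

theorem val_mem (w : Fin 24 → ZMod 2) : P.val w ∈ V := (Additive.toMul (P.theta w)).2

theorem vec_singleton (i : Fin 24) : vec ({i} : Finset (Fin 24)) = Pi.single i 1 := by
  funext a
  by_cases h : a = i
  · subst h; simp [vec]
  · simp [vec, h, Pi.single_eq_of_ne h]

theorem vec_insert {i : Fin 24} {s : Finset (Fin 24)} (h : i ∉ s) :
    vec (insert i s) = Pi.single i 1 + vec s := by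
  funext a
  by_cases ha : a = i
  · subst ha; simp [vec, h]
  · simp [vec, ha, Pi.single_eq_of_ne ha]

theorem val_insert {i : Fin 24} {s : Finset (Fin 24)} (h : i ∉ s) :
    P.val (vec (insert i s)) = lam i * P.val (vec s) := by
  rw [P.vec_insert h, P.val_add, P.val_single]

theorem val_pair {i j : Fin 24} (h : i ≠ j) : P.val (vec {i, j}) = lam i * lam j := by
  rw [P.val_insert (by simp [h]), P.vec_singleton, P.val_single]

theorem exists_pair {x : Finset (Fin 24)} (h : 2 ≤ x.card) :
    ∃ i j, i ≠ j ∧ ∃ y : Finset (Fin 24), i ∉ y ∧ j ∉ y ∧ insert i (insert j y) = x ∧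
      y.card + 2 = x.card := by
  obtain ⟨i, hi, j, hj, hij⟩ := Finset.one_lt_card.mp (show 1 < x.card by omega)
  refine ⟨i, j, hij, (x.erase i).erase j, by simp, by simp, ?_, ?_⟩
  · rw [Finset.insert_erase (Finset.mem_erase.mpr ⟨hij.symm, hj⟩), Finset.insert_erase hi]
  · rw [Finset.card_erase_of_mem (Finset.mem_erase.mpr ⟨hij.symm, hj⟩),
      Finset.card_erase_of_mem hi]
    omega

/-- No small even set has trivial product. -/
theorem min_card {s : Finset (Fin 24)} (hev : Even s.card) (h1 : P.val (vec s) = 1)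
    (hne : s ≠ ∅) : 8 ≤ s.card := by
  by_contra hlt
  have h0 := Finset.card_pos.mpr (Finset.nonempty_iff_ne_empty.mpr hne)
  obtain ⟨m, hm⟩ := hev
  obtain ⟨i, j, hij, y, hiy, hjy, rfl, hy⟩ := P.exists_pair (x := s) (by omega)
  rw [P.val_insert (by simp [hij, hiy]), P.val_insert hjy, ← mul_assoc] at h1
  by_cases h2 : y.card = 0
  · rw [Finset.card_eq_zero.mp h2,
      show vec (∅ : Finset (Fin 24)) = 0 by funext a; simp [vec], P.val_zero, mul_one] at h1
    exact P.one_notMem (h1 ▸ P.pair_mem i j hij)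
  obtain ⟨k, l, hkl, z, hkz, hlz, rfl, hz⟩ := P.exists_pair (x := y) (by omega)
  simp only [Finset.mem_insert, not_or] at hiy hjy
  rw [P.val_insert (by simp [hkl, hkz]), P.val_insert hlz, ← mul_assoc (lam k), ← mul_assoc] at h1
  by_cases h4 : z.card = 0
  · rw [Finset.card_eq_zero.mp h4,
      show vec (∅ : Finset (Fin 24)) = 0 by funext a; simp [vec], P.val_zero, mul_one] at h1
    have e : lam i * lam j = lam k * lam l := by
      have := eq_inv_of_mul_eq_one_left h1
      rw [this, inv_eq_iff_mul_eq_one]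
      exact P.sq_one (V.mul_mem (P.lam_mem k) (P.lam_mem l))
    rcases P.pair_inj i j k l hij hkl e with h | h
    · exact hiy.1 h.1
    · exact hiy.2.1 h.1
  obtain ⟨c, d, hcd, u, hcu, hdu, rfl, hu⟩ := P.exists_pair (x := z) (by omega)
  have hu0 : u = ∅ := Finset.card_eq_zero.mp (by omega)
  subst hu0
  rw [P.val_insert (by simp [hcd]), P.val_insert (by simp),
    show vec (∅ : Finset (Fin 24)) = 0 by funext a; simp [vec], P.val_zero, mul_one] at h1
  have e : lam i * lam j * (lam k * lam l) = lam c * lam d := by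
    have := eq_inv_of_mul_eq_one_left h1
    rw [this, inv_eq_iff_mul_eq_one]
    exact P.sq_one (V.mul_mem (P.lam_mem c) (P.lam_mem d))
  exact P.disjoint_notMem i j k l hij hkl hiy.1 hiy.2.1 hjy.1 hjy.2.1 (e ▸ P.pair_mem c d hcd)

/-- Sum of coordinates, and the map to `V`. -/
noncomputable def psi : (Fin 24 → ZMod 2) →+ ZMod 2 × Additive ↥V :=
  AddMonoidHom.prod (∑ i, Pi.evalAddMonoidHom (fun _ : Fin 24 => ZMod 2) i) P.theta

theorem psi_fst (w : Fin 24 → ZMod 2) : (P.psi w).1 = ∑ i, w i := by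
  simp [psi, AddMonoidHom.finsetSum_apply]

theorem psi_fst_vec (s : Finset (Fin 24)) : (P.psi (vec s)).1 = (s.card : ZMod 2) := by
  rw [psi_fst]
  simp [vec]

/-- The code of the labels. -/
noncomputable def code : Submodule (ZMod 2) (Fin 24 → ZMod 2) :=
  AddSubgroup.toZModSubmodule 2 P.psi.ker

theorem mem_code {w : Fin 24 → ZMod 2} : w ∈ P.code ↔ (∑ i, w i = 0) ∧ P.val w = 1 := by
  rw [code, AddSubgroup.mem_toZModSubmodule, AddMonoidHom.mem_ker, Prod.ext_iff, P.psi_fst]
  simp [psi, val, OneMemClass.coe_eq_one]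

theorem vec_mem_code {s : Finset (Fin 24)} :
    vec s ∈ P.code ↔ Even s.card ∧ P.val (vec s) = 1 := by
  rw [P.mem_code, ← P.psi_fst, P.psi_fst_vec, ZMod.natCast_eq_zero_iff_even]

theorem code_min {s : Finset (Fin 24)} (hs : vec s ∈ P.code) (hne : s ≠ ∅) : 8 ≤ s.card :=
  P.min_card (P.vec_mem_code.mp hs).1 (P.vec_mem_code.mp hs).2 hne

theorem psi_surjective : Function.Surjective P.psi := by
  have hV : ∀ x ∈ V, ∃ w, ∑ i, w i = (0 : ZMod 2) ∧ P.val w = x := by
    intro x hx
    rw [P.gen] at hx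
    induction hx using Subgroup.closure_induction with
    | mem y hy =>
      obtain ⟨i, j, hij, rfl⟩ := P.pair_surj y hy
      refine ⟨vec {i, j}, ?_, P.val_pair hij⟩
      rw [← P.psi_fst, P.psi_fst_vec, Finset.card_pair hij]; rfl
    | one => exact ⟨0, by simp, P.val_zero⟩
    | mul y z _ _ ihy ihz =>
      obtain ⟨a, ha, rfl⟩ := ihy
      obtain ⟨b, hb, rfl⟩ := ihz
      exact ⟨a + b, by simp [Finset.sum_add_distrib, ha, hb], P.val_add a b⟩
    | inv y _ ih =>
      obtain ⟨a, ha, rfl⟩ := ih
      exact ⟨a, ha, (inv_eq_of_mul_eq_one_right (P.sq_one (P.val_mem a))).symm⟩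
  rintro ⟨c, x⟩
  obtain ⟨w, hw, hwx⟩ := hV _ (Additive.toMul x).2
  obtain ⟨w0, hw0, hw0x⟩ := hV _ (P.lam_mem 0)
  have hth : P.theta w = x := Additive.toMul.injective (Subtype.ext hwx)
  rcases zmod_two_cases c with rfl | rfl
  · exact ⟨w, Prod.ext (by rw [P.psi_fst]; exact hw) hth⟩
  · refine ⟨w + w0 + Pi.single 0 1, Prod.ext ?_ ?_⟩
    · rw [P.psi_fst]
      simp [Finset.sum_add_distrib, hw, hw0]
    · apply Additive.toMul.injective
      apply Subtype.ext
      change P.val (w + w0 + Pi.single 0 1) = _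
      rw [P.val_add, P.val_add, hw0x, P.val_single, mul_assoc, P.sq_one (P.lam_mem 0), mul_one, hwx]

theorem card_target : Nat.card (ZMod 2 × Additive ↥V) = 4096 := by
  rw [Nat.card_prod, Nat.card_zmod]
  change 2 * Nat.card ↥V = 4096
  rw [P.card_V]; norm_num

theorem card_code : Nat.card ↥P.code = 4096 := by
  have h := P.psi.ker.card_eq_card_quotient_mul_card_addSubgroup
  rw [Nat.card_congr (QuotientAddGroup.quotientKerEquivOfSurjective P.psi P.psi_surjective).toEquiv,
    P.card_target] at h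
  have hk : Nat.card ↥P.code = Nat.card ↥P.psi.ker := rfl
  rw [Nat.card_fun, Nat.card_zmod, Nat.card_fin] at h
  rw [show (2 : ℕ) ^ 24 = 4096 * 4096 by norm_num] at h
  omega

theorem eq_of_psi {s t : Finset (Fin 24)} (h : P.psi (vec s) = P.psi (vec t))
    (hc : s.card + t.card < 8) : s = t := by
  by_contra hne
  have hm : vec (s ∆ t) ∈ P.code := by
    rw [code, AddSubgroup.mem_toZModSubmodule, AddMonoidHom.mem_ker, vec_symmDiff, map_add, h,
      ← map_add, ZModModule.add_self, map_zero]
  have h8 := P.code_min hm (fun he => hne (symmDiff_eq_bot.mp he))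
  have := card_symmDiff_le s t
  omega

/-- The words of weight 8 form a Steiner system S(5,8,24). -/
def blocks : Set (Finset (Fin 24)) := {o | vec o ∈ P.code ∧ o.card = 8}

theorem steiner : Cfsg.IsSteinerSystem 5 8 P.blocks := by
  classical
  refine ⟨fun b hb => hb.2, fun F hF => ?_⟩
  let R : Finset (Finset (Fin 24)) :=
    Finset.powersetCard 1 Finset.univ ∪ Finset.powersetCard 3 Finset.univ
  have hR : ∀ t, t ∈ R ↔ t.card = 1 ∨ t.card = 3 := fun t => by simp [R, Finset.mem_powersetCard]
  let Odd' : Set (ZMod 2 × Additive ↥V) := {y | y.1 = 1}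
  have : Finite (ZMod 2 × Additive ↥V) := by
    have : Finite (Additive ↥V) := inferInstanceAs (Finite ↥V)
    infer_instance
  have hOdd : Odd'.ncard = 2048 := by
    have e : Odd' = ({1} : Set (ZMod 2)) ×ˢ (Set.univ : Set (Additive ↥V)) := by
      ext ⟨a, b⟩; simp [Odd']
    rw [e, Set.ncard_prod, Set.ncard_singleton, Set.ncard_univ, one_mul]
    exact P.card_V.trans (by norm_num)
  have himg : (fun t => P.psi (vec t)) '' (R : Set (Finset (Fin 24))) = Odd' := by
    refine Set.eq_of_subset_of_ncard_le ?_ ?_ (Set.toFinite _)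
    · rintro _ ⟨t, ht, rfl⟩
      show (P.psi (vec t)).1 = 1
      rw [P.psi_fst_vec]
      rcases (hR t).mp ht with h | h <;> rw [h] <;> rfl
    · rw [hOdd, Set.InjOn.ncard_image, Set.ncard_coe_finset]
      · rw [Finset.card_union_of_disjoint, Finset.card_powersetCard, Finset.card_powersetCard,
          Finset.card_univ, Fintype.card_fin]
        · decide
        · rw [Finset.disjoint_left]; intro x hx hy
          rw [Finset.mem_powersetCard] at hx hy; omega
      · intro a ha b hb hab
        exact P.eq_of_psi hab (by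
          rcases (hR a).mp ha with h | h <;> rcases (hR b).mp hb with h' | h' <;> omega)
  obtain ⟨t, ht, htF⟩ : P.psi (vec F) ∈ (fun t => P.psi (vec t)) '' (R : Set (Finset (Fin 24))) := by
    rw [himg]
    show (P.psi (vec F)).1 = 1
    rw [P.psi_fst_vec, hF]; rfl
  have hm : vec (F ∆ t) ∈ P.code := by
    rw [code, AddSubgroup.mem_toZModSubmodule, AddMonoidHom.mem_ker, vec_symmDiff, map_add,
      ← htF, ← map_add, ZModModule.add_self, map_zero]
  have hne : F ∆ t ≠ ∅ := fun he => by
    have e : F = t := symmDiff_eq_bot.mp he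
    have := congrArg Finset.card e
    rcases (hR t).mp ht with h | h <;> omega
  have h8 := P.code_min hm hne
  have hc := card_symmDiff_add F t
  have ht3 : t.card = 3 := by rcases (hR t).mp ht with h | h <;> omega
  have hdis : F ∩ t = ∅ := Finset.card_eq_zero.mp (by omega)
  refine ⟨F ∆ t, ⟨⟨hm, by omega⟩, fun a ha => ?_⟩, fun o ho => ?_⟩
  · refine Finset.mem_symmDiff.mpr (Or.inl ⟨ha, fun hat => ?_⟩)
    have : a ∈ F ∩ t := Finset.mem_inter.mpr ⟨ha, hat⟩
    simp [hdis] at this
  · obtain ⟨⟨hoC, ho8⟩, hFo⟩ := ho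
    have e : F ∆ (o \ F) = o := by
      ext a
      by_cases h1 : a ∈ F
      · simp [Finset.mem_symmDiff, h1, hFo h1]
      · simp [Finset.mem_symmDiff, h1]
    have hcard : (o \ F).card = 3 := by
      rw [Finset.card_sdiff_of_subset hFo]; omega
    have h0 : P.psi (vec (o \ F)) = P.psi (vec F) := by
      have h' : P.psi (vec F) + P.psi (vec (o \ F)) = 0 := by
        rw [← map_add, ← vec_symmDiff, e]; exact hoC
      have h'' : P.psi (vec F) + P.psi (vec F) = 0 := by
        rw [← map_add, ZModModule.add_self, map_zero]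
      exact add_left_cancel (h'.trans h''.symm)
    rw [← e, P.eq_of_psi (h0.trans htF.symm) (by omega)]

/-- A labelling of the 24 points carrying the code of the labels to the Golay code. -/
theorem exists_golay : ∃ e : GolayPt ≃ Fin 24,
    ∀ w : Fin 24 → ZMod 2, w ∈ P.code ↔ (fun x => w (e x)) ∈ golayCode := by
  classical
  have hcG : Fintype.card GolayPt = 24 := CfsgLib.Golay.isGolayLike_golayCode.card_pts
  have hG := CfsgLib.Golay.isGolayLike_golayCode
  have hoct : Cfsg.IsSteinerSystem 5 8 Cfsg.octads := CfsgLib.Golay.octads_isSteinerSystem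
  obtain ⟨e, he⟩ := Cfsg.Agent.S0407.result hcG (Fintype.card_fin 24) hoct P.steiner
  let M : Submodule (ZMod 2) (GolayPt → ZMod 2) := P.code.map (LinearMap.funLeft (ZMod 2) (ZMod 2) e)
  have hle : golayCode ≤ M := by
    rw [← hG.span_octads, Submodule.span_le]
    rintro w ⟨hw, h8⟩
    have ho : supp w ∈ Cfsg.octads := by
      refine ⟨⟨w, hw, rfl⟩, ?_⟩
      rw [← hammingNorm_eq_card_supp]; exact h8
    have hb : (supp w).image e ∈ P.blocks := he ▸ ⟨supp w, ho, rfl⟩
    refine ⟨vec ((supp w).image e), hb.1, ?_⟩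
    funext x
    rw [LinearMap.funLeft_apply]
    conv_rhs => rw [← vec_supp w]
    by_cases hx : x ∈ supp w
    · have h1 : e x ∈ (supp w).image e := Finset.mem_image_of_mem e hx
      simp only [vec, if_pos h1, if_pos hx]
    · have h1 : e x ∉ (supp w).image e := by simpa using hx
      simp only [vec, if_neg h1, if_neg hx]
  have hinj : Function.Injective (LinearMap.funLeft (ZMod 2) (ZMod 2) e) :=
    LinearMap.funLeft_injective_of_surjective _ _ _ e.surjective
  have hcM : Nat.card ↥M = 4096 :=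
    (Nat.card_congr (Submodule.equivMapOfInjective _ hinj P.code).toEquiv).symm.trans P.card_code
  have heq : (golayCode : Set (GolayPt → ZMod 2)) = M := by
    refine Set.eq_of_subset_of_ncard_le hle ?_ (Set.toFinite _)
    rw [← Nat.card_coe_set_eq, ← Nat.card_coe_set_eq]
    exact le_of_eq (hcM.trans CfsgLib.Golay.natCard_golayCode.symm)
  refine ⟨e, fun w => ?_⟩
  have h2 : (fun x => w (e x)) = LinearMap.funLeft (ZMod 2) (ZMod 2) e w := rfl
  rw [h2, ← SetLike.mem_coe (p := golayCode), heq, SetLike.mem_coe]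
  exact ⟨fun h => ⟨w, h, rfl⟩, fun ⟨v, hv, hvw⟩ => hinj hvw ▸ hv⟩

end CfsgLib.JFour.PointData
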