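import Mathlib
import Cfsg.Prelude.Def_Transfer

/-!
Twenty-four points for the duads of an elementary abelian `2 ^ 11`: interface for the normalizer.
-/

set_option autoImplicit false

namespace CfsgLib.JFour

open Cfsg

variable {G : Type*} [Group G]

/-- `lam` labels the set `D` of 276 elements of `V` by the pairs of 24 points, so that two of them
have product in `D` exactly when the pairs share one point. -/
structure PointData (V : Subgroup G) (D : Set G) (lam : Fin 24 → G) : Prop where
  V_elem : Cfsg.IsElementaryAbelian 2 V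
  card_V : Nat.card ↥V = 2 ^ 11
  cent_V : Subgroup.centralizer (V : Set G) ≤ V
  card_N : Nat.card ↥(Subgroup.normalizer (V : Set G)) = 2 ^ 11 * 244823040
  gen : V = Subgroup.closure D
  one_notMem : (1 : G) ∉ D
  conj_mem : ∀ n ∈ Subgroup.normalizer (V : Set G), ∀ x ∈ D, n * x * n⁻¹ ∈ D
  lam_mem : ∀ i, lam i ∈ V
  pair_mem : ∀ i j, i ≠ j → lam i * lam j ∈ D
  pair_surj : ∀ x ∈ D, ∃ i j, i ≠ j ∧ x = lam i * lam j
  pair_inj : ∀ i j k l, i ≠ j → k ≠ l → lam i * lam j = lam k * lam l →
    (i = k ∧ j = l) ∨ (i = l ∧ j = k)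
  disjoint_notMem : ∀ i j k l, i ≠ j → k ≠ l → i ≠ k → i ≠ l → j ≠ k → j ≠ l →
    lam i * lam j * (lam k * lam l) ∉ D

end CfsgLib.JFour
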