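import Mathlib
import Cfsg.Prelude.Def_JankoFourType
import Cfsg.Prelude.Def_Transfer

/-!
# Groups of Janko-four type: interfaces for the normalizer of a point

`S` is an ordinary point of a plane, `L` the subgroup of order `2 ^ 15` of its centralizer.
-/

set_option autoImplicit false

open Cfsg

namespace CfsgLib.JFour

variable {G : Type*} [Group G]

/-- The point and its centralizer. -/
structure PointCent (z : G) (S L : Subgroup G) : Prop where
  z_mem : z ∈ S
  card_S : Nat.card ↥S = 8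
  comm : ∀ a ∈ S, ∀ b ∈ S, a * b = b * a
  sq : ∀ a ∈ S, a * a = 1
  le_E : S ≤ twoCoreOfCentralizer z
  zclass : ∀ x ∈ S, x ≠ 1 → IsConj z x
  card_C : Nat.card ↥(Subgroup.centralizer (S : Set G)) = 2 ^ 18 * 15
  L_le : L ≤ Subgroup.centralizer (S : Set G)
  card_L : Nat.card ↥L = 2 ^ 15
  card_E_cent : Nat.card ↥(twoCoreOfCentralizer z ⊓ Subgroup.centralizer (S : Set G)) = 2 ^ 11
  E_le_L : twoCoreOfCentralizer z ⊓ Subgroup.centralizer (S : Set G) ≤ L
  quot : ∃ φ : ↥(Subgroup.centralizer (S : Set G)) →* Equiv.Perm (Fin 5),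
    Function.Surjective φ ∧ φ.ker = L.subgroupOf (Subgroup.centralizer (S : Set G))
  irred : ∀ X : Subgroup G, twoCoreOfCentralizer z ⊓ Subgroup.centralizer (S : Set G) ≤ X → X ≤ L →
    (∀ c ∈ Subgroup.centralizer (S : Set G), ∀ x ∈ X, c * x * c⁻¹ ∈ X) →
    X = twoCoreOfCentralizer z ⊓ Subgroup.centralizer (S : Set G) ∨ X = L
  cent_five : ∀ q ∈ Subgroup.centralizer (S : Set G), orderOf q = 5 →
    L ⊓ Subgroup.centralizer ({q} : Set G) ≤ twoCoreOfCentralizer z
  stab_trans : ∀ x ∈ S, x ∉ Subgroup.zpowers z → ∀ y ∈ S, y ∉ Subgroup.zpowers z →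
    ∃ n ∈ Subgroup.centralizer ({z} : Set G) ⊓ Subgroup.normalizer (S : Set G), n * x * n⁻¹ = y
  card_stab : Nat.card ↥(Subgroup.centralizer ({z} : Set G) ⊓ Subgroup.normalizer (S : Set G)) =
    2 ^ 18 * 15 * 24
  stab_le : ∀ x ∈ S, x ∉ Subgroup.zpowers z →
    Subgroup.centralizer ({z} : Set G) ⊓ Subgroup.centralizer ({x} : Set G) ≤
      Subgroup.normalizer (S : Set G)

/-- The point together with its normalizer. -/
structure PointNorm (z : G) (S L : Subgroup G) : Prop extends PointCent z S L where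
  trans : ∀ x ∈ S, x ≠ 1 → ∀ y ∈ S, y ≠ 1 →
    ∃ n ∈ Subgroup.normalizer (S : Set G), n * x * n⁻¹ = y
  card_N : Nat.card ↥(Subgroup.normalizer (S : Set G)) = 2 ^ 18 * 15 * 168
  norm_eq : Subgroup.normalizer (L : Set G) = Subgroup.normalizer (S : Set G)
  center_L : ∀ x, x ∈ S ↔ x ∈ L ∧ ∀ y ∈ L, x * y = y * x
  special : IsSpecial 2 ↥L
  quotN : ∃ θ : ↥(Subgroup.normalizer (S : Set G)) →*
      Equiv.Perm (Fin 5) × Matrix.SpecialLinearGroup (Fin 3) (ZMod 2),
    Function.Surjective θ ∧ θ.ker = L.subgroupOf (Subgroup.normalizer (S : Set G)) ∧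
      ∀ n, (θ n).2 = 1 ↔ (n : G) ∈ Subgroup.centralizer (S : Set G)

end CfsgLib.JFour
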