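import Cfsg.Agent.Lib.JFour.DuadPure
import Cfsg.Agent.Lib.JFour.PointData

/-!
The 276 duads of `V` are the pairs of 24 points: two duads `t`, `y` with duad product determine a
star of 23 duads.
-/

set_option autoImplicit false
set_option linter.unusedSectionVars false
set_option linter.style.haveILetI false

open Cfsg

namespace CfsgLib.JFour

variable {G : Type*} [Group G]

namespace DuadData

open HexFrame HexTransitive

variable [Finite G] {E R P W M0 : Subgroup G} {z : G} {five : Set (Subgroup G)} {A : Set G}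
  (D : DuadData E R P W M0 z five A)
include D

set_option quotPrecheck false in
local notation "𝔇" => Duads E W z five A
set_option quotPrecheck false in
local notation "𝕍" => (HexFrame.U E W ⊔ W : Subgroup _)

theorem card_duads : Nat.card (𝔇 : Set G) = 276 := by
  have hd : Disjoint (specU E W z five) (Orb E A) :=
    Set.disjoint_left.2 fun d hd hd' => (D.hT.Orb_sub D.sect hd').2 hd.1
  rw [Nat.card_coe_set_eq, Duads, Set.ncard_union_eq hd (Set.toFinite _) (Set.toFinite _),
    ← Nat.card_coe_set_eq, ← Nat.card_coe_set_eq, D.hT.card_specU D.fiveData, D.hT.card_Orb D.sect]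

theorem duad_mem_V {x : G} (hx : x ∈ 𝔇) : x ∈ 𝕍 := (D.duad_sub hx).1

theorem mul_self_cancel {a : G} (ha : a ∈ 𝕍) (b : G) : a * (a * b) = b := by
  rw [← mul_assoc, D.V_sq ha, one_mul]

/-- For a conjugate of `z` in `V` there are 36 duads with duad product. -/
theorem card_six {v : G} (hv : v ∈ 𝕍) (hc : IsConj z v) :
    Nat.card {x : G // x ∈ 𝔇 ∧ v * x ∈ 𝔇} = 36 := by
  have hz36 : Nat.card {x : G // x ∈ 𝔇 ∧ z * x ∈ 𝔇} = 36 := by
    rw [← D.hT.card_specU D.fiveData]
    refine Nat.card_congr (Equiv.subtypeEquivRight fun x => ⟨fun ⟨hx, hzx⟩ => ?_, fun hx => ?_⟩)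
    · exact D.spec_of_mem_U hx ((D.z_mul_duad_iff hx).mp hzx)
    · exact ⟨Or.inl hx, Or.inl (D.z_mul_spec hx)⟩
  obtain ⟨n, hn, rfl⟩ := D.transZ v hv hc
  rw [← hz36]
  refine Nat.card_congr
    { toFun := fun x => ⟨n⁻¹ * x * n, ?_, ?_⟩
      invFun := fun x => ⟨n * x * n⁻¹, D.duad_conj hn x.2.1, ?_⟩
      left_inv := fun x => Subtype.ext (by group)
      right_inv := fun x => Subtype.ext (by group) }
  · simpa using D.duad_conj (inv_mem hn) x.2.1
  · have := D.duad_conj (inv_mem hn) x.2.2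
    rwa [inv_inv, show n⁻¹ * (n * z * n⁻¹ * (x : G)) * n = z * (n⁻¹ * (x : G) * n) by group] at this
  · rw [show n * z * n⁻¹ * (n * (x : G) * n⁻¹) = n * (z * (x : G)) * n⁻¹ by group]
    exact D.duad_conj hn x.2.2

/-- Each duad has 44 duads with duad product. -/
theorem card_adj {t : G} (ht : t ∈ 𝔇) : Nat.card {x : G // x ∈ 𝔇 ∧ t * x ∈ 𝔇} = 44 := by
  classical
  haveI := Fintype.ofFinite G
  set Df : Finset G := Finset.univ.filter (fun x => x ∈ 𝔇) with hDf
  set Vf : Finset G := Finset.univ.filter (fun x => x ∈ 𝕍) with hVf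
  have hDc : Df.card = 276 := by
    rw [hDf, ← Fintype.card_subtype, ← Nat.card_eq_fintype_card]
    exact D.card_duads
  have hVc : Vf.card = 2 ^ 11 := by
    rw [hVf, ← Fintype.card_subtype, ← Nat.card_eq_fintype_card]
    exact D.hT.card_V
  have hfib : ∀ v ∈ Vf, ((Df ×ˢ Df).filter (fun p => p.1 * p.2 = v)).card =
      Nat.card {x : G // x ∈ 𝔇 ∧ v * x ∈ 𝔇} := by
    intro v hv
    have hvV : v ∈ 𝕍 := (Finset.mem_filter.mp hv).2
    rw [Nat.card_eq_fintype_card, Fintype.card_subtype]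
    refine Finset.card_bij' (fun p _ => p.1) (fun x _ => (x, v * x)) ?_ ?_ ?_ ?_
    · intro p hp
      simp only [Finset.mem_filter, Finset.mem_product, hDf, Finset.mem_univ, true_and] at hp ⊢
      obtain ⟨⟨h1, h2⟩, e⟩ := hp
      refine ⟨h1, ?_⟩
      have hV1 := D.duad_mem_V h1
      rw [D.V_comm hvV hV1, ← e, D.mul_self_cancel hV1]
      exact h2
    · intro x hx
      simp only [Finset.mem_filter, Finset.mem_product, hDf, Finset.mem_univ, true_and] at hx ⊢
      refine ⟨hx, ?_⟩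
      rw [D.V_comm hvV (D.duad_mem_V hx.1), D.mul_self_cancel (D.duad_mem_V hx.1)]
    · intro p hp
      simp only [Finset.mem_filter, Finset.mem_product, hDf, Finset.mem_univ, true_and] at hp
      obtain ⟨⟨h1, h2⟩, e⟩ := hp
      refine Prod.ext rfl ?_
      show v * p.1 = p.2
      rw [D.V_comm hvV (D.duad_mem_V h1), ← e, D.mul_self_cancel (D.duad_mem_V h1)]
    · intro x _; rfl
  have htotal : Df.card * Df.card =
      ∑ v ∈ Vf, ((Df ×ˢ Df).filter (fun p => p.1 * p.2 = v)).card := by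
    rw [← Finset.card_product]
    refine Finset.card_eq_sum_card_fiberwise fun p hp => ?_
    simp only [Finset.coe_product, Set.mem_prod, Finset.mem_coe, hDf, Finset.mem_filter,
      Finset.mem_univ, true_and] at hp
    simp only [Finset.mem_coe, hVf, Finset.mem_filter, Finset.mem_univ, true_and]
    exact mul_mem (D.duad_mem_V hp.1) (D.duad_mem_V hp.2)
  set k := Nat.card {x : G // x ∈ 𝔇 ∧ t * x ∈ 𝔇} with hk
  have hval : ∀ v ∈ Vf, ((Df ×ˢ Df).filter (fun p => p.1 * p.2 = v)).card =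
      if v ∈ 𝔇 then k else if v = 1 then 276 else 36 := by
    intro v hv
    have hvV : v ∈ 𝕍 := (Finset.mem_filter.mp hv).2
    rw [hfib v hv]
    split_ifs with h1 h2
    · obtain ⟨n, hn, rfl⟩ := D.transD t ht v h1
      refine Nat.card_congr
        { toFun := fun x => ⟨n⁻¹ * x * n, ?_, ?_⟩
          invFun := fun x => ⟨n * x * n⁻¹, D.duad_conj hn x.2.1, ?_⟩
          left_inv := fun x => Subtype.ext (by group)
          right_inv := fun x => Subtype.ext (by group) }
      · simpa using D.duad_conj (inv_mem hn) x.2.1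
      · have := D.duad_conj (inv_mem hn) x.2.2
        rwa [inv_inv, show n⁻¹ * (n * t * n⁻¹ * (x : G)) * n = t * (n⁻¹ * (x : G) * n) by group] at this
      · rw [show n * t * n⁻¹ * (n * (x : G) * n⁻¹) = n * (t * (x : G)) * n⁻¹ by group]
        exact D.duad_conj hn x.2.2
    · subst h2
      simp only [one_mul, and_self]
      exact D.card_duads
    · exact D.card_six hvV (by_contra fun hc => h1 (D.duad_of_not_conj hvV h2 hc))
  rw [Finset.sum_congr rfl hval] at htotal
  have hsplit : ∑ v ∈ Vf, (if v ∈ 𝔇 then k else if v = 1 then 276 else 36) =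
      276 * k + (276 + (2 ^ 11 - 276 - 1) * 36) := by
    rw [← Finset.sum_filter_add_sum_filter_not Vf (fun v => v ∈ 𝔇)]
    congr 1
    · rw [Finset.sum_congr rfl (fun v hv => if_pos (Finset.mem_filter.mp hv).2), Finset.sum_const,
        smul_eq_mul]
      congr 1
      rw [show Vf.filter (fun v => v ∈ 𝔇) = Df by
        ext v
        simp only [hVf, hDf, Finset.mem_filter, Finset.mem_univ, true_and]
        exact ⟨fun h => h.2, fun h => ⟨D.duad_mem_V h, h⟩⟩, hDc]
    · set R' := Vf.filter (fun v => ¬ v ∈ 𝔇) with hR'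
      rw [Finset.sum_congr rfl (fun v hv => if_neg (Finset.mem_filter.mp hv).2)]
      have h1R : (1 : G) ∈ R' := by
        simp only [hR', hVf, Finset.mem_filter, Finset.mem_univ, true_and]
        exact ⟨one_mem _, fun h => D.duad_ne_one h rfl⟩
      rw [← Finset.add_sum_erase R' _ h1R, if_pos rfl]
      congr 1
      rw [Finset.sum_congr rfl (fun v hv => if_neg (Finset.ne_of_mem_erase hv)), Finset.sum_const,
        smul_eq_mul]
      congr 1
      have hc := Finset.card_filter_add_card_filter_not (s := Vf) (fun v => v ∈ 𝔇)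
      rw [show Vf.filter (fun v => v ∈ 𝔇) = Df by
        ext v
        simp only [hVf, hDf, Finset.mem_filter, Finset.mem_univ, true_and]
        exact ⟨fun h => h.2, fun h => ⟨D.duad_mem_V h, h⟩⟩, hDc, hVc, ← hR'] at hc
      rw [Finset.card_erase_of_mem h1R]
      omega
  rw [hsplit, hDc] at htotal
  omega

set_option maxHeartbeats 2000000 in
/-- The seven products of three duads are not all duads. -/
theorem not_pure {a b c : G} (ha : a ∈ 𝔇) (hb : b ∈ 𝔇) (hc : c ∈ 𝔇) (hab : a * b ∈ 𝔇)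
    (hac : a * c ∈ 𝔇) (hbc : b * c ∈ 𝔇) : a * b * c ∉ 𝔇 := by
  classical
  intro habc
  have va := D.duad_mem_V ha
  have vb := D.duad_mem_V hb
  have vc := D.duad_mem_V hc
  let f : Set G := {1, a, b, c, a * b, a * c, b * c, a * b * c}
  have hfV : ∀ x ∈ f, x ∈ 𝕍 := by
    rintro x (rfl | rfl | rfl | rfl | rfl | rfl | rfl | rfl)
    exacts [one_mem _, va, vb, vc, mul_mem va vb, mul_mem va vc, mul_mem vb vc,
      mul_mem (mul_mem va vb) vc]
  have hfD : ∀ x ∈ f, x ≠ 1 → x ∈ 𝔇 := by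
    rintro x (rfl | rfl | rfl | rfl | rfl | rfl | rfl | rfl) h
    exacts [absurd rfl h, ha, hb, hc, hab, hac, hbc, habc]
  have hgen : ∀ w ∈ ({a, b, c} : Set G), ∀ x ∈ f, w * x ∈ f := by
    have l1 := D.V_comm vb va
    have l2 := D.V_comm vc va
    have l3 := D.V_comm vc vb
    have sa := D.mul_self_cancel va
    have sb := D.mul_self_cancel vb
    have sc := D.mul_self_cancel vc
    have m1 : ∀ w, b * (a * w) = a * (b * w) := fun w => by rw [← mul_assoc, l1, mul_assoc]
    have m2 : ∀ w, c * (a * w) = a * (c * w) := fun w => by rw [← mul_assoc, l2, mul_assoc]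
    have m3 : ∀ w, c * (b * w) = b * (c * w) := fun w => by rw [← mul_assoc, l3, mul_assoc]
    rintro w (rfl | rfl | rfl) x (rfl | rfl | rfl | rfl | rfl | rfl | rfl | rfl) <;>
      simp [f, mul_assoc, l1, l2, l3, m1, m2, m3, sa, sb, sc, D.V_sq va, D.V_sq vb, D.V_sq vc]
  let K : Subgroup G :=
    { carrier := f
      one_mem' := Or.inl rfl
      mul_mem' := by
        intro x y hx hy
        have ga := hgen a (Or.inl rfl)
        have gb := hgen b (Or.inr (Or.inl rfl))
        have gc := hgen c (Or.inr (Or.inr rfl))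
        rcases hx with rfl | rfl | rfl | rfl | rfl | rfl | rfl | rfl
        · rwa [one_mul]
        · exact ga _ hy
        · exact gb _ hy
        · exact gc _ hy
        · rw [mul_assoc]; exact ga _ (gb _ hy)
        · rw [mul_assoc]; exact ga _ (gc _ hy)
        · rw [mul_assoc]; exact gb _ (gc _ hy)
        · rw [mul_assoc, mul_assoc]; exact ga _ (gb _ (gc _ hy))
      inv_mem' := by
        intro x hx
        rwa [inv_eq_of_mul_eq_one_right (D.V_sq (hfV x hx))] }
  have h4 := D.pure_le_four (K := K) 1 (fun x hx => ⟨x, hfV x hx, by simp⟩)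
    (fun x hx hx1 => D.not_conj_of_duad (hfD x hx hx1))
  have hne : ∀ {u v : G}, u ∈ 𝕍 → u * v ≠ 1 → u ≠ v := fun hu h e => h (e ▸ D.V_sq hu)
  have hge : 5 ≤ Nat.card ↥K := by
    have hsub : ({1, a, b, c, a * b} : Finset G) ⊆ (Set.toFinite f).toFinset := by
      intro x hx
      simp only [Finset.mem_insert, Finset.mem_singleton] at hx
      rw [Set.Finite.mem_toFinset]
      rcases hx with rfl | rfl | rfl | rfl | rfl <;> simp [f]
    have hc5 : ({1, a, b, c, a * b} : Finset G).card = 5 := by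
      have n1 := D.duad_ne_one ha
      have n2 := D.duad_ne_one hb
      have n3 := D.duad_ne_one hc
      have n4 := D.duad_ne_one hab
      have n5 := hne va n4
      have n6 := hne va (D.duad_ne_one hac)
      have n7 := hne vb (D.duad_ne_one hbc)
      have n8 : a * b ≠ a := fun e => n2 (mul_eq_left.mp e)
      have n9 : a * b ≠ b := fun e => n1 (mul_eq_right.mp e)
      have n10 : a * b ≠ c := hne (mul_mem va vb) (D.duad_ne_one habc)
      rw [Finset.card_insert_of_notMem, Finset.card_insert_of_notMem, Finset.card_insert_of_notMem,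
        Finset.card_pair n10.symm] <;>
        simp [n1.symm, n2.symm, n3.symm, n4.symm, n5, n6, n7, n8.symm, n9.symm]
    have := Finset.card_le_card hsub
    rw [hc5, ← Set.ncard_eq_toFinset_card f (Set.toFinite f), ← Nat.card_coe_set_eq] at this
    exact this
  omega

/-- Two neighbours of a duad are linked, directly or after crossing over. -/
theorem linked {t y y' : G} (ht : t ∈ 𝔇) (hy : y ∈ 𝔇) (hy' : y' ∈ 𝔇) (hty : t * y ∈ 𝔇)
    (hty' : t * y' ∈ 𝔇) (hne : y' ≠ y) (hn : y * y' ∉ 𝔇) : t * y * y' ∈ 𝔇 := by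
  have vt := D.duad_mem_V ht
  have vy := D.duad_mem_V hy
  have vy' := D.duad_mem_V hy'
  have hv : y * y' ∈ 𝕍 := mul_mem vy vy'
  have hv1 : y * y' ≠ 1 := fun e => hne ((D.mul_self_cancel vy y').symm.trans (by rw [e, mul_one]))
  have hc : IsConj z (y * y') := by_contra fun hc => hn (D.duad_of_not_conj hv hv1 hc)
  have h := D.six_closed hv hc hy hty (j := t * y) ?_ ?_ ?_
  · rw [show y * (t * y) = t by rw [D.V_comm vt vy, D.mul_self_cancel vy]] at h
    rwa [D.V_comm hv vt, ← mul_assoc] at h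
  · rw [D.V_comm vt vy, D.mul_self_cancel vy]; exact ht
  · rw [D.V_comm hv vy, D.mul_self_cancel vy]; exact hy'
  · rw [show y * y' * (t * y) = t * y' by
      rw [D.V_comm hv (mul_mem vt vy), mul_assoc, D.mul_self_cancel vy]]
    exact hty'

/-- The neighbours linked to `y` are linked to each other. -/
theorem star_closed {t y y' y'' : G} (ht : t ∈ 𝔇) (hy : y ∈ 𝔇) (hy' : y' ∈ 𝔇) (hy'' : y'' ∈ 𝔇)
    (hty : t * y ∈ 𝔇) (hty' : t * y' ∈ 𝔇) (hty'' : t * y'' ∈ 𝔇) (hyy' : y * y' ∈ 𝔇)
    (hyy'' : y * y'' ∈ 𝔇) (hne : y' ≠ y'') (h1 : y' ≠ t * y) (h2 : y'' ≠ t * y) :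
    y' * y'' ∈ 𝔇 := by
  classical
  by_contra hn
  have vt := D.duad_mem_V ht
  have vy := D.duad_mem_V hy
  have vy' := D.duad_mem_V hy'
  have vy'' := D.duad_mem_V hy''
  have hv : y' * y'' ∈ 𝕍 := mul_mem vy' vy''
  have hv1 : y' * y'' ≠ 1 := fun e =>
    hne ((D.mul_self_cancel vy' y'').symm.trans (by rw [e, mul_one])).symm
  have hc : IsConj z (y' * y'') := by_contra fun hc => hn (D.duad_of_not_conj hv hv1 hc)
  obtain ⟨n, hn', hne'⟩ := D.transZ _ hv hc
  -- `t`, `y`, `y'` are at six position to `y' y''`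
  have hvt : y' * y'' * t ∈ 𝔇 := by
    rw [D.V_comm hv vt, ← mul_assoc]
    exact D.linked ht hy' hy'' hty' hty'' hne.symm hn
  have hvy : y' * y'' * y ∈ 𝔇 := by
    rw [D.V_comm hv vy, ← mul_assoc]
    exact D.linked hy hy' hy'' hyy' hyy'' hne.symm hn
  have hvy' : y' * y'' * y' ∈ 𝔇 := by
    rw [D.V_comm hv vy', D.mul_self_cancel vy']; exact hy''
  have key : ∀ x ∈ 𝔇, y' * y'' * x ∈ 𝔇 → n⁻¹ * x * n ∈ specU E W z five := by
    intro x hx hzx
    have g1 : n⁻¹ * x * n ∈ 𝔇 := by simpa using D.duad_conj (inv_mem hn') hx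
    have g2 : n⁻¹ * (y' * y'' * x) * n ∈ 𝔇 := by simpa using D.duad_conj (inv_mem hn') hzx
    rw [show n⁻¹ * (y' * y'' * x) * n = z * (n⁻¹ * x * n) by rw [← hne']; group] at g2
    exact D.spec_of_mem_U g1 ((D.z_mul_duad_iff g1).mp g2)
  set a := n⁻¹ * t * n with ha
  set b := n⁻¹ * y * n with hb
  set c := n⁻¹ * y' * n with hc'
  have hpair : ∀ x x' : G, x * x' ∈ 𝔇 → n⁻¹ * x * n * (n⁻¹ * x' * n) ∈ 𝔇 := fun x x' hxx' => by
    rw [show n⁻¹ * x * n * (n⁻¹ * x' * n) = n⁻¹ * (x * x') * n by group]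
    simpa using D.duad_conj (inv_mem hn') hxx'
  obtain ⟨haU, haz, S, hS, haS⟩ := key t ht hvt
  obtain ⟨hbU, hbz, Sb, hSb, hbS⟩ := key y hy hvy
  obtain ⟨hcU, hcz, Sc, hSc, hcS⟩ := key y' hy' hvy'
  have hb' : b ∈ S := by
    rw [D.hT.same_point D.fiveData hS hSb haS haz hbS hbz
      (D.spec_of_mem_U (hpair _ _ hty) (mul_mem haU hbU))]
    exact hbS
  have hc'' : c ∈ S := by
    rw [D.hT.same_point D.fiveData hS hSc haS haz hcS hcz
      (D.spec_of_mem_U (hpair _ _ hty') (mul_mem haU hcU))]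
    exact hcS
  have hS8 := (D.fiveData.isPt S hS).2
  -- in the point, `a b c` is `1` or `z`
  have habc : a * b * c ∈ Subgroup.zpowers z := by
    by_contra hne1
    have habcD : a * b * c ∈ 𝔇 :=
      Or.inl ⟨mul_mem (mul_mem haU hbU) hcU, hne1, S, hS, mul_mem (mul_mem haS hb') hc''⟩
    exact D.not_pure (Or.inl ⟨haU, haz, S, hS, haS⟩) (Or.inl ⟨hbU, hbz, S, hS, hb'⟩)
      (Or.inl ⟨hcU, hcz, S, hS, hc''⟩) (hpair _ _ hty) (hpair _ _ hty') (hpair _ _ hyy') habcD
  rw [ha, hb, hc', show n⁻¹ * t * n * (n⁻¹ * y * n) * (n⁻¹ * y' * n) = n⁻¹ * (t * y * y') * n by group]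
    at habc
  rcases D.hT.mem_Z.mp habc with e | e
  · have e' : t * y * y' = 1 := by
      simpa [mul_assoc] using congrArg (fun w => n * w * n⁻¹) e
    exact h1 (by rw [← mul_one (t * y), ← e', D.mul_self_cancel (mul_mem vt vy)])
  · have e' : t * y * y' = y' * y'' := by
      rw [← hne', ← e]; group
    rw [D.V_comm (mul_mem vt vy) vy'] at e'
    exact h2 (mul_left_cancel e').symm

/-- The duads are the pairs of 24 points. -/
theorem exists_pointData (hcard : Nat.card ↥(Subgroup.normalizer ((𝕍 : Subgroup G) : Set G)) =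
      2 ^ 11 * 244823040) (hcen : Subgroup.centralizer ((𝕍 : Subgroup G) : Set G) ≤ 𝕍) :
    ∃ lam : Fin 24 → G, PointData 𝕍 (𝔇 : Set G) lam := by
  classical
  haveI := Fintype.ofFinite G
  obtain ⟨t, htspec⟩ := D.exists_spec
  have ht : t ∈ 𝔇 := Or.inl htspec
  have vt := D.duad_mem_V ht
  set Nb : Finset G := Finset.univ.filter (fun x => x ∈ 𝔇 ∧ t * x ∈ 𝔇) with hNb
  have hNbc : Nb.card = 44 := by
    rw [hNb, ← Fintype.card_subtype, ← Nat.card_eq_fintype_card]
    exact D.card_adj ht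
  obtain ⟨y, hyN⟩ := Finset.card_pos.mp (by omega : 0 < Nb.card)
  have hyN' := hyN
  simp only [hNb, Finset.mem_filter, Finset.mem_univ, true_and] at hyN'
  obtain ⟨hy, hty⟩ := hyN'
  have vy := D.duad_mem_V hy
  set L : Finset G := Nb.filter (fun s => s ≠ t * y ∧ (s = y ∨ y * s ∈ 𝔇)) with hL
  have hmemL : ∀ {s}, s ∈ L ↔ (s ∈ 𝔇 ∧ t * s ∈ 𝔇) ∧ s ≠ t * y ∧ (s = y ∨ y * s ∈ 𝔇) := by
    intro s; simp [hL, hNb]
  have hflip : ∀ s ∈ Nb, s ∈ L ↔ t * s ∉ L := by
    intro s hs
    simp only [hNb, Finset.mem_filter, Finset.mem_univ, true_and] at hs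
    obtain ⟨hsD, hts⟩ := hs
    have vs := D.duad_mem_V hsD
    constructor
    · intro hsL htsL
      obtain ⟨-, h1, h2⟩ := hmemL.mp hsL
      obtain ⟨-, h3, h4⟩ := hmemL.mp htsL
      have hsy : s ≠ y := fun e => h3 (by rw [e])
      have h2' := h2.resolve_left hsy
      have h4' := h4.resolve_left fun e => h1 (by rw [← e, D.mul_self_cancel vt])
      refine D.not_pure ht hy hsD hty hts h2' ?_
      rwa [← mul_assoc, D.V_comm vy vt] at h4'
    · intro htsL
      refine hmemL.mpr ⟨⟨hsD, hts⟩, ?_, ?_⟩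
      · intro e
        refine htsL (hmemL.mpr ⟨⟨hts, ?_⟩, ?_, Or.inl ?_⟩)
        · rw [D.mul_self_cancel vt]; exact hsD
        · rw [e, D.mul_self_cancel vt]
          exact fun e' => D.duad_ne_one ht (mul_eq_right.mp e'.symm)
        · rw [e, D.mul_self_cancel vt]
      · by_contra hno
        push Not at hno
        obtain ⟨hsy, hys⟩ := hno
        have hlk := D.linked ht hy hsD hty hts hsy hys
        refine htsL (hmemL.mpr ⟨⟨hts, by rw [D.mul_self_cancel vt]; exact hsD⟩,
          fun e => hsy (mul_left_cancel e), Or.inr ?_⟩)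
        rwa [← mul_assoc, D.V_comm vy vt]
  have hLc : L.card = 22 := by
    have hLsub : L ⊆ Nb := Finset.filter_subset _ _
    have hother : (Nb \ L).card = L.card := by
      refine Finset.card_bij' (fun s _ => t * s) (fun s _ => t * s) ?_ ?_ ?_ ?_
      · intro s hs
        obtain ⟨hs1, hs2⟩ := Finset.mem_sdiff.mp hs
        by_contra hh
        exact hs2 ((hflip s hs1).mpr hh)
      · intro s hs
        obtain ⟨⟨h1, h2⟩, -⟩ := hmemL.mp hs
        refine Finset.mem_sdiff.mpr ⟨?_, (hflip s (hLsub hs)).mp hs⟩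
        simp only [hNb, Finset.mem_filter, Finset.mem_univ, true_and]
        exact ⟨h2, by rw [D.mul_self_cancel vt]; exact h1⟩
      · intro s _; exact D.mul_self_cancel vt s
      · intro s _; exact D.mul_self_cancel vt s
    have := Finset.card_sdiff_add_card_eq_card hLsub
    omega
  set Lam : Finset G := insert 1 (insert t L) with hLam
  have htL : t ∉ L := fun hh => by
    have := (hmemL.mp hh).1.2
    rw [D.V_sq vt] at this
    exact D.duad_ne_one this rfl
  have h1L : (1 : G) ∉ insert t L := by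
    rw [Finset.mem_insert]
    rintro (e | e)
    · exact D.duad_ne_one ht e.symm
    · exact D.duad_ne_one (hmemL.mp e).1.1 rfl
  have hLamc : Lam.card = 24 := by
    rw [hLam, Finset.card_insert_of_notMem h1L, Finset.card_insert_of_notMem htL, hLc]
  have hpairL : ∀ s ∈ L, ∀ s' ∈ L, s ≠ s' → s * s' ∈ 𝔇 := by
    intro s hs s' hs' hne
    obtain ⟨⟨h1, h2⟩, h3, h4⟩ := hmemL.mp hs
    obtain ⟨⟨g1, g2⟩, g3, g4⟩ := hmemL.mp hs'
    rcases h4 with rfl | h4
    · exact g4.resolve_left hne.symm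
    · rcases g4 with rfl | g4
      · rw [D.V_comm (D.duad_mem_V h1) vy]; exact h4
      · exact D.star_closed ht hy h1 g1 hty h2 g2 h4 g4 hne h3 g3
  have hLamV : ∀ x ∈ Lam, x ∈ 𝕍 := by
    intro x hx
    simp only [hLam, Finset.mem_insert] at hx
    rcases hx with rfl | rfl | hx
    · exact one_mem _
    · exact vt
    · exact D.duad_mem_V (hmemL.mp hx).1.1
  have hpairLam : ∀ x ∈ Lam, ∀ x' ∈ Lam, x ≠ x' → x * x' ∈ 𝔇 := by
    intro x hx x' hx' hne
    simp only [hLam, Finset.mem_insert] at hx hx'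
    rcases hx with rfl | rfl | hx <;> rcases hx' with rfl | rfl | hx'
    · exact absurd rfl hne
    · rw [one_mul]; exact ht
    · rw [one_mul]; exact (hmemL.mp hx').1.1
    · rw [mul_one]; exact ht
    · exact absurd rfl hne
    · exact (hmemL.mp hx').1.2
    · rw [mul_one]; exact (hmemL.mp hx).1.1
    · rw [D.V_comm (D.duad_mem_V (hmemL.mp hx).1.1) vt]; exact (hmemL.mp hx).1.2
    · exact hpairL x hx x' hx' hne
  let lam : Fin 24 → G := fun i => ((Lam.equivFinOfCardEq hLamc).symm i : G)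
  have hlinj : Function.Injective lam :=
    Subtype.val_injective.comp (Lam.equivFinOfCardEq hLamc).symm.injective
  have hlV : ∀ i, lam i ∈ 𝕍 := fun i => hLamV _ ((Lam.equivFinOfCardEq hLamc).symm i).2
  have hlpair : ∀ i j, i ≠ j → lam i * lam j ∈ 𝔇 := fun i j hij =>
    hpairLam _ ((Lam.equivFinOfCardEq hLamc).symm i).2 _ ((Lam.equivFinOfCardEq hLamc).symm j).2
      fun e => hij (hlinj e)
  have hswap : ∀ a b c : G, a ∈ 𝕍 → b ∈ 𝕍 → c ∈ 𝕍 → a * b * (a * c) = b * c := fun a b c ha hb hc => by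
    rw [D.V_comm ha hb, mul_assoc, D.mul_self_cancel ha]
  have hlinj2 : ∀ i j k l, i ≠ j → k ≠ l → lam i * lam j = lam k * lam l →
      (i = k ∧ j = l) ∨ (i = l ∧ j = k) := by
    intro p q r s hpq hrs e
    have hcr : lam r * lam s = lam s * lam r := D.V_comm (hlV r) (hlV s)
    by_cases h1 : p = r
    · subst h1; exact Or.inl ⟨rfl, hlinj (mul_left_cancel e)⟩
    by_cases h2 : p = s
    · subst h2; rw [hcr] at e; exact Or.inr ⟨rfl, hlinj (mul_left_cancel e)⟩
    by_cases h3 : q = r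
    · subst h3
      rw [D.V_comm (hlV p) (hlV q)] at e
      exact absurd (hlinj (mul_left_cancel e)) h2
    by_cases h4 : q = s
    · subst h4
      rw [hcr, D.V_comm (hlV p) (hlV q)] at e
      exact absurd (hlinj (mul_left_cancel e)) h1
    exfalso
    obtain ⟨u, hu⟩ : ∃ u : Fin 24, u ∉ ({p, q, r, s} : Finset (Fin 24)) :=
      Finset.exists_mem_notMem_of_card_lt_card (s := ({p, q, r, s} : Finset (Fin 24)))
        (t := Finset.univ) (by
          have : ({p, q, r, s} : Finset (Fin 24)).card ≤ 4 := Finset.card_le_four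
          simp; omega) |>.imp fun u hu => hu.2
    simp only [Finset.mem_insert, Finset.mem_singleton, not_or] at hu
    obtain ⟨hup, huq, hur, hus⟩ := hu
    refine D.not_pure (hlpair p q hpq) (hlpair p r h1) (hlpair p u (Ne.symm hup)) ?_ ?_ ?_ ?_
    · rw [hswap _ _ _ (hlV p) (hlV q) (hlV r)]; exact hlpair q r h3
    · rw [hswap _ _ _ (hlV p) (hlV q) (hlV u)]; exact hlpair q u (Ne.symm huq)
    · rw [hswap _ _ _ (hlV p) (hlV r) (hlV u)]; exact hlpair r u (Ne.symm hur)
    · rw [mul_assoc, hswap _ _ _ (hlV p) (hlV r) (hlV u), e,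
        D.V_comm (hlV r) (hlV u), mul_assoc, ← mul_assoc (lam s) (lam u), D.V_comm (hlV s) (hlV u),
        mul_assoc, D.V_comm (hlV s) (hlV r), ← mul_assoc (lam u) (lam r), ← mul_assoc (lam r),
        ← mul_assoc (lam r) (lam u), D.V_comm (hlV r) (hlV u), mul_assoc (lam u) (lam r) (lam r),
        D.V_sq (hlV r), mul_one]
      exact hlpair u s hus
  -- every duad is a pair
  have hI : Fintype.card {p : Fin 24 × Fin 24 // p.1 < p.2} = 276 := by decide +kernel
  let φ : {p : Fin 24 × Fin 24 // p.1 < p.2} → (𝔇 : Set G) := fun p =>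
    ⟨lam p.1.1 * lam p.1.2, hlpair _ _ p.2.ne⟩
  have hφ : Function.Bijective φ := by
    refine (Nat.bijective_iff_injective_and_card φ).mpr ⟨?_, ?_⟩
    · rintro ⟨⟨i, j⟩, hij⟩ ⟨⟨k, l⟩, hkl⟩ e
      rcases hlinj2 i j k l hij.ne hkl.ne (congrArg Subtype.val e) with ⟨rfl, rfl⟩ | ⟨rfl, rfl⟩
      · rfl
      · exact absurd (lt_trans hij hkl) (lt_irrefl _)
    · rw [Nat.card_eq_fintype_card, hI, D.card_duads]
  have hsurj : ∀ x ∈ 𝔇, ∃ i j, i ≠ j ∧ x = lam i * lam j := by
    intro x hx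
    obtain ⟨⟨⟨i, j⟩, hij⟩, e⟩ := hφ.2 ⟨x, hx⟩
    exact ⟨i, j, hij.ne, (congrArg Subtype.val e).symm⟩
  have hdisj : ∀ i j k l, i ≠ j → k ≠ l → i ≠ k → i ≠ l → j ≠ k → j ≠ l →
      lam i * lam j * (lam k * lam l) ∉ 𝔇 := by
    intro p q k l hpq hkl hpk hpl hqk hql hD
    set x := lam p * lam q with hx
    set Nx : Finset G := Finset.univ.filter (fun w => w ∈ 𝔇 ∧ x * w ∈ 𝔇) with hNx
    have hNxc : Nx.card = 44 := by
      rw [hNx, ← Fintype.card_subtype, ← Nat.card_eq_fintype_card]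
      exact D.card_adj (hlpair p q hpq)
    set O : Finset (Fin 24) := Finset.univ \ {p, q} with hO
    have hOc : O.card = 22 := by
      rw [hO, Finset.card_univ_diff, Finset.card_pair hpq, Fintype.card_fin]
    have hOm : ∀ {i}, i ∈ O → p ≠ i ∧ q ≠ i := fun {i} hi => by
      simp [hO] at hi; exact ⟨Ne.symm hi.1, Ne.symm hi.2⟩
    set S1 : Finset G := O.image (fun i => lam p * lam i) with hS1
    set S2 : Finset G := O.image (fun i => lam q * lam i) with hS2
    have hinj' : ∀ r, Function.Injective fun i => lam r * lam i := fun r a b e =>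
      hlinj (mul_left_cancel e)
    have hd12 : Disjoint S1 S2 := by
      rw [Finset.disjoint_left]
      intro w hw1 hw2
      obtain ⟨i, hi, rfl⟩ := Finset.mem_image.mp hw1
      obtain ⟨j, hj, e⟩ := Finset.mem_image.mp hw2
      rcases hlinj2 q j p i (hOm hj).2 (hOm hi).1 e with ⟨e1, -⟩ | ⟨e1, -⟩
      · exact hpq e1.symm
      · exact (hOm hi).2 e1
    have hsub : S1 ∪ S2 ⊆ Nx := by
      intro w hw
      simp only [hNx, Finset.mem_filter, Finset.mem_univ, true_and]
      rcases Finset.mem_union.mp hw with hw | hw <;> obtain ⟨i, hi, rfl⟩ := Finset.mem_image.mp hw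
      · refine ⟨hlpair p i (hOm hi).1, ?_⟩
        rw [hx, hswap _ _ _ (hlV p) (hlV q) (hlV i)]
        exact hlpair q i (hOm hi).2
      · refine ⟨hlpair q i (hOm hi).2, ?_⟩
        rw [hx, D.V_comm (hlV p) (hlV q), hswap _ _ _ (hlV q) (hlV p) (hlV i)]
        exact hlpair p i (hOm hi).1
    have heq : S1 ∪ S2 = Nx := Finset.eq_of_subset_of_card_le hsub (by
      rw [Finset.card_union_of_disjoint hd12, hS1, hS2,
        Finset.card_image_of_injective _ (hinj' p), Finset.card_image_of_injective _ (hinj' q),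
        hOc, hNxc])
    have hkN : lam k * lam l ∈ Nx := by
      simp only [hNx, Finset.mem_filter, Finset.mem_univ, true_and]
      exact ⟨hlpair k l hkl, hD⟩
    rw [← heq] at hkN
    rcases Finset.mem_union.mp hkN with hw | hw <;> obtain ⟨i, hi, e⟩ := Finset.mem_image.mp hw
    · rcases hlinj2 p i k l (hOm hi).1 hkl e with ⟨e1, -⟩ | ⟨e1, -⟩
      · exact hpk e1
      · exact hpl e1
    · rcases hlinj2 q i k l (hOm hi).2 hkl e with ⟨e1, -⟩ | ⟨e1, -⟩
      · exact hqk e1
      · exact hql e1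
  refine ⟨lam, ⟨D.hT.V_elem D.hT.W_sq, D.hT.card_V, hcen, hcard, ?_, fun h => D.duad_ne_one h rfl,
    fun n hn x hx => D.duad_conj hn hx, hlV, hlpair, hsurj, hlinj2, hdisj⟩⟩
  refine le_antisymm (fun v hv => ?_) ((Subgroup.closure_le _).mpr fun x hx => D.duad_mem_V hx)
  set K : Subgroup G := Subgroup.closure (𝔇 : Set G) with hK
  have hzK : z ∈ K := by
    have h1 : z * t ∈ K := Subgroup.subset_closure (Or.inl (D.z_mul_spec htspec))
    have h2 : t ∈ K := Subgroup.subset_closure ht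
    simpa using mul_mem h1 (inv_mem h2)
  have hinv : ∀ n ∈ Subgroup.normalizer ((𝕍 : Subgroup G) : Set G), ∀ x ∈ K, n * x * n⁻¹ ∈ K := by
    intro n hn x hx
    have hle : K ≤ K.comap (MulAut.conj n).toMonoidHom :=
      (Subgroup.closure_le _).mpr fun w hw => Subgroup.subset_closure (D.duad_conj hn hw)
    exact hle hx
  by_cases h1 : v = 1
  · exact h1 ▸ one_mem _
  by_cases hc : IsConj z v
  · obtain ⟨n, hn, rfl⟩ := D.transZ v hv hc
    exact hinv n hn z hzK
  · exact Subgroup.subset_closure (D.duad_of_not_conj hv h1 hc)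

end DuadData

end CfsgLib.JFour
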