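import Mathlib

/-!
# Counting square roots of the identity in a group with commutators in a central pair `{1, z}`
-/

set_option autoImplicit false
set_option linter.style.haveILetI false
set_option linter.unusedSectionVars false

namespace CfsgLib.JFour.Seven

variable {A : Type*} [Group A]

/-- The sum of the signs of the squares has square twice the group order. -/
theorem sq_count [Finite A] {z : A} (hz1 : z ≠ 1) (hz2 : z * z = 1) (hzc : ∀ x, x * z = z * x)
    (hsq : ∀ x : A, x * x = 1 ∨ x * x = z)
    (hcomm : ∀ x y : A, y * x = x * y ∨ y * x = z * (x * y))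
    (hnd : ∀ w : A, w ≠ 1 → w ≠ z → ∃ y, y * w ≠ w * y) :
    (2 * (Nat.card {x : A // x * x = 1} : ℤ) - Nat.card A) ^ 2 = 2 * (Nat.card A : ℤ) := by
  classical
  haveI := Fintype.ofFinite A
  let f : A → ℤ := fun x => if x * x = 1 then 1 else -1
  let χ : A → A → ℤ := fun w x => if w * x = x * w then 1 else -1
  have hkey : ∀ x w, f x * f (x * w) = f w * χ w x := by
    intro x w
    have hxw : ∀ c, (∀ u, u * c = c * u) → w * x = c * (x * w) →
        x * w * (x * w) = c * (x * x) * (w * w) := by
      intro c hc h
      calc x * w * (x * w) = x * (w * x) * w := by group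
        _ = (x * c) * (x * w) * w := by rw [h]; group
        _ = c * (x * x) * (w * w) := by rw [hc x]; group
    simp only [f, χ]
    rcases hcomm x w with h | h
    · rw [if_pos h, hxw 1 (by simp) (by simpa using h)]
      rcases hsq x with a | a <;> rcases hsq w with b | b <;> simp [a, b, hz1, hz2]
    · have hne : ¬ w * x = x * w := fun e => hz1 (mul_eq_right.1 (h ▸ e : z * (x * w) = x * w))
      rw [if_neg hne, hxw z hzc h]
      rcases hsq x with a | a <;> rcases hsq w with b | b <;> simp [a, b, hz1, hz2]
  have hsum : ∀ w, ∑ x, χ w x = if w = 1 ∨ w = z then (Fintype.card A : ℤ) else 0 := by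
    intro w
    split_ifs with hw
    · have : ∀ x, χ w x = 1 := fun x => by
        rcases hw with rfl | rfl <;> simp [χ, hzc x]
      simp [this]
    · push Not at hw
      obtain ⟨y, hy⟩ := hnd w hw.1 hw.2
      have hy' : w * y = z * (y * w) := (hcomm y w).resolve_left fun e => hy e.symm
      have hflip : ∀ x, χ w (x * y) = - χ w x := by
        intro x
        simp only [χ]
        rcases hcomm x w with h | h
        · rw [if_pos h, if_neg]
          intro e
          apply hy
          refine mul_left_cancel (a := x) ?_
          rw [← mul_assoc, ← mul_assoc x w y, ← h, mul_assoc w x y, e]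
        · have hne : ¬ w * x = x * w := fun e => hz1 (mul_eq_right.1 (h ▸ e : z * (x * w) = x * w))
          rw [if_neg hne, if_pos, neg_neg]
          calc w * (x * y) = z * (x * w) * y := by rw [← mul_assoc, h]
            _ = z * x * (w * y) := by group
            _ = (z * x) * z * (y * w) := by rw [hy']; group
            _ = (z * z) * (x * (y * w)) := by rw [mul_assoc z x z, hzc x]; group
            _ = x * y * w := by rw [hz2]; group
      have h := Equiv.sum_comp (Equiv.mulRight y) (fun x => χ w x)
      simp only [Equiv.coe_mulRight, hflip, Finset.sum_neg_distrib] at h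
      omega
  have hleft : (∑ x, f x) * (∑ x, f x) = 2 * (Fintype.card A : ℤ) := by
    calc (∑ x, f x) * (∑ x, f x) = ∑ x, ∑ w, f x * f (x * w) := by
          rw [Finset.sum_mul_sum]
          refine Finset.sum_congr rfl fun x _ => ?_
          exact (Equiv.sum_comp (Equiv.mulLeft x) (fun u => f x * f u)).symm
      _ = ∑ w, f w * ∑ x, χ w x := by
          simp only [hkey, Finset.mul_sum]
          exact Finset.sum_comm
      _ = ∑ w ∈ ({1, z} : Finset A), f w * (Fintype.card A : ℤ) := by
          simp only [hsum, mul_ite, mul_zero]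
          rw [← Finset.sum_filter]
          congr 1
          ext w; simp
      _ = 2 * (Fintype.card A : ℤ) := by
          rw [Finset.sum_pair hz1.symm]
          simp [f, hz2]; ring
  have hf : ∑ x, f x = 2 * (Nat.card {x : A // x * x = 1} : ℤ) - Nat.card A := by
    rw [Nat.card_eq_fintype_card, Nat.card_eq_fintype_card, Fintype.card_subtype]
    have e : ∀ x, f x = 2 * (if x * x = 1 then (1 : ℤ) else 0) - 1 := fun x => by
      simp only [f]; split_ifs <;> norm_num
    simp only [e, Finset.sum_sub_distrib, ← Finset.mul_sum, Finset.sum_boole, Finset.sum_const,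
      Finset.card_univ, nsmul_one]
  rw [sq, ← hf, hleft, Nat.card_eq_fintype_card]

/-- An invariant set is congruent to its fixed points modulo the prime order of the acting element. -/
theorem ncard_modEq [Finite A] {p : ℕ} [Fact p.Prime] (X : Set A) {g : A} (hg : g ^ p = 1)
    (hX : ∀ a ∈ X, g * a * g⁻¹ ∈ X) :
    Nat.card X ≡ Nat.card {a : A // a ∈ X ∧ g * a * g⁻¹ = a} [MOD p] := by
  classical
  haveI := Fintype.ofFinite X
  let F : Function.End X := fun a => ⟨g * a * g⁻¹, hX a a.2⟩
  have hpow : ∀ k : ℕ, ∀ a : X, ((F ^ k) a : A) = g ^ k * (a : A) * (g ^ k)⁻¹ := by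
    intro k
    induction k with
    | zero => intro a; show (a : A) = _; simp
    | succ k ih =>
      intro a
      rw [pow_succ']
      show g * ((F ^ k) a : A) * g⁻¹ = _
      rw [ih, pow_succ']; group
  have hF : F ^ p ^ 1 = 1 := funext fun a => Subtype.ext (by
    rw [hpow, pow_one, hg]; simp; rfl)
  have h := Equiv.Perm.card_fixedPoints_modEq hF
  rw [← Nat.card_eq_fintype_card, ← Nat.card_eq_fintype_card] at h
  refine h.trans (Nat.ModEq.refl _ |>.trans ?_)
  rw [Nat.card_congr (α := Function.fixedPoints F) (β := {a : A // a ∈ X ∧ g * a * g⁻¹ = a})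
    { toFun := fun a => ⟨a.1.1, a.1.2, congrArg Subtype.val a.2⟩
      invFun := fun a => ⟨⟨a.1, a.2.1⟩, Subtype.ext a.2.2⟩
      left_inv := fun a => rfl
      right_inv := fun a => rfl }]

end CfsgLib.JFour.Seven
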